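import Cfsg.Agent.H27.AbSyl4
import Cfsg.Agent.H27.ClassAlg
import Cfsg.Agent.H11.PPart

set_option autoImplicit false

/-! # Principal blocks with abelian Sylow subgroups and `N/C` free of order `3`: involutions -/

universe u

namespace Cfsg.Agent.H27

open Subgroup Cfsg Cfsg.Agent.H3 Cfsg.Agent.H11
open scoped ComplexConjugate

/-! ### arithmetic -/

theorem arith_no {u v d e : ℤ} (hu : 0 < u) (hv : 0 < v) (hd : 0 < d) (he : 0 < e)
    (h : u ^ 2 * e * (d + e + 1) + v ^ 2 * d * (d + e + 1) = (u + v) ^ 2 * d * e) : False := by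
  have h1 : (u ^ 2 * e + v ^ 2 * d) * (d + e) - (u + v) ^ 2 * d * e = (u * e - v * d) ^ 2 := by ring
  have h2 : 0 < u ^ 2 * e := by positivity
  have h3 : 0 < v ^ 2 * d := by positivity
  nlinarith [sq_nonneg (u * e - v * d)]

theorem arith_sq {u v d e f : ℤ} (hv : 0 < v) (hf : d + e = f + 1)
    (h : u ^ 2 * e * f + v ^ 2 * d * f = (u + v) ^ 2 * d * e) : IsSquare (d * e * f) := by
  have hf' : f = d + e - 1 := by linarith
  subst hf'
  have h1 : v ^ 2 * (d * e * (d + e - 1)) = (u * e * (e - 1) - v * d * e) ^ 2 := by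
    have h2 : 2 * u * v * d * e = u ^ 2 * e * (e - 1) + v ^ 2 * d * (d - 1) := by
      linear_combination -h
    linear_combination (e * (e - 1)) * h2
  have h3 : v ^ 2 ∣ (u * e * (e - 1) - v * d * e) ^ 2 := ⟨_, h1.symm⟩
  rw [Int.pow_dvd_pow_iff two_ne_zero] at h3
  obtain ⟨k, hk⟩ := h3
  rw [hk, mul_pow] at h1
  have h4 := mul_left_cancel₀ (pow_ne_zero 2 hv.ne') h1
  exact ⟨k, by rw [h4, sq]⟩

theorem arith_key {e1 e2 e3 d1 d2 d3 s1 s2 s3 : ℤ} (h1 : e1 = 1 ∨ e1 = -1)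
    (h2 : e2 = 1 ∨ e2 = -1) (h3 : e3 = 1 ∨ e3 = -1) (hd1 : 0 < d1) (hd2 : 0 < d2) (hd3 : 0 < d3)
    (hs1 : s1 < d1) (hs2 : s2 < d2) (hs3 : s3 < d3)
    (hA : 1 + e1 * d1 + e2 * d2 + e3 * d3 = 0) (hB : 1 + e1 * s1 + e2 * s2 + e3 * s3 = 0)
    (hC : d1 * d2 * d3 + e1 * s1 ^ 2 * d2 * d3 + e2 * s2 ^ 2 * d1 * d3 + e3 * s3 ^ 2 * d1 * d2 = 0) :
    e1 + e2 + e3 = -1 ∧ IsSquare (d1 * d2 * d3) := by
  obtain ⟨u1, hu1⟩ : ∃ u1, u1 = d1 - s1 := ⟨_, rfl⟩
  obtain ⟨u2, hu2⟩ : ∃ u2, u2 = d2 - s2 := ⟨_, rfl⟩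
  obtain ⟨u3, hu3⟩ : ∃ u3, u3 = d3 - s3 := ⟨_, rfl⟩
  have p1 : 0 < u1 := by omega
  have p2 : 0 < u2 := by omega
  have p3 : 0 < u3 := by omega
  have hU : e1 * u1 + e2 * u2 + e3 * u3 = 0 := by rw [hu1, hu2, hu3]; linear_combination hA - hB
  have hV : e1 * u1 ^ 2 * d2 * d3 + e2 * u2 ^ 2 * d1 * d3 + e3 * u3 ^ 2 * d1 * d2 = 0 := by
    rw [hu1, hu2, hu3]
    linear_combination (d1 * d2 * d3) * hA - 2 * (d1 * d2 * d3) * hB + hC
  rcases h1 with rfl | rfl <;> rcases h2 with rfl | rfl <;> rcases h3 with rfl | rfl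
  · exfalso; omega
  · exfalso
    have e : u3 = u1 + u2 := by linarith
    have f : d3 = d1 + d2 + 1 := by linarith
    subst f
    apply arith_no p1 p2 hd1 hd2
    rw [e] at hV
    linear_combination hV
  · exfalso
    have e : u2 = u1 + u3 := by linarith
    have f : d2 = d1 + d3 + 1 := by linarith
    subst f
    apply arith_no p1 p3 hd1 hd3
    rw [e] at hV
    linear_combination hV
  · refine ⟨by norm_num, ?_⟩
    have e : u1 = u2 + u3 := by linarith
    rw [e] at hV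
    have := arith_sq (u := u2) (v := u3) (d := d2) (e := d3) (f := d1) p3 (by linarith)
      (by linear_combination -hV)
    rwa [show d2 * d3 * d1 = d1 * d2 * d3 by ring] at this
  · exfalso
    have e : u1 = u2 + u3 := by linarith
    have f : d1 = d2 + d3 + 1 := by linarith
    subst f
    apply arith_no p2 p3 hd2 hd3
    rw [e] at hV
    linear_combination hV
  · refine ⟨by norm_num, ?_⟩
    have e : u2 = u1 + u3 := by linarith
    rw [e] at hV
    have := arith_sq (u := u1) (v := u3) (d := d1) (e := d3) (f := d2) p3 (by linarith)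
      (by linear_combination -hV)
    rwa [show d1 * d3 * d2 = d1 * d2 * d3 by ring] at this
  · refine ⟨by norm_num, ?_⟩
    have e : u3 = u1 + u2 := by linarith
    rw [e] at hV
    exact arith_sq (u := u1) (v := u2) (d := d1) (e := d2) (f := d3) p2 (by linarith)
      (by linear_combination -hV)
  · exfalso; omega

/-! ### the class function counting products of two involutions -/

variable {G : Type u} [Group G] {p : ℕ} {M : Ideal AlgInt}

theorem sum_sq_div_eq_zero [Fintype G] (hM : IsPModular p M) {t : G} (ht : orderOf t = 2) {y0 : G}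
    (hy0 : ∃ k : ℕ, orderOf y0 = p ^ k)
    (hvan : ∀ a b z : G, IsConj t a → IsConj t b → IsPPart p (a * b) z → ¬ IsConj y0 z)
    [Fintype (IrrCharacter G)] [DecidablePred (· ∈ principalBlock M G)] :
    ∑ χ : IrrCharacter G with χ ∈ principalBlock M G,
      (χ : G → ℂ) t ^ 2 / (χ : G → ℂ) 1 * (χ : G → ℂ) y0 = 0 := by
  classical
  set S : Set G := {x | IsConj t x} with hS
  set θ : G → ℂ := conv (ind S) (ind S) with hθ
  have hθc : IsClassFunction G θ := conv_classFun (ind_classFun (isConj_class_closed t))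
    (ind_classFun (isConj_class_closed t))
  have hθv : ∀ x, θ x = (Nat.card {q : G × G // q.1 ∈ S ∧ q.2 ∈ S ∧ q.1 * q.2 = x} : ℂ) :=
    fun x => conv_ind S S x
  have hθ0 : ∀ x z : G, IsPPart p x z → IsConj y0 z → θ x = 0 := by
    intro x z hxz hyz
    rw [hθv]
    have : IsEmpty {q : G × G // q.1 ∈ S ∧ q.2 ∈ S ∧ q.1 * q.2 = x} := by
      constructor
      rintro ⟨⟨a, b⟩, ha, hb, hab⟩
      exact hvan a b z ha hb (hab ▸ hxz) hyz
    rw [Nat.card_of_isEmpty, Nat.cast_zero]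
  have h1 := blockPart_section hM hθc hθ0 (isPBlock_principal (M := M) (G := G)) y0 y0
    (isPPart_self hM.1 hy0) (IsConj.refl y0)
  rw [blockPart_eq_sum] at h1
  have hidx : ((centralizer ({t} : Set G)).index : ℂ) ≠ 0 := by
    exact_mod_cast Subgroup.index_ne_zero_of_finite
  have hcard : (Nat.card G : ℂ) ≠ 0 := by exact_mod_cast Nat.card_pos.ne'
  have h2 : ∀ χ : IrrCharacter G, classInner θ (χ : G → ℂ) = ((Nat.card G : ℂ)⁻¹ *
      ((centralizer ({t} : Set G)).index : ℂ) ^ 2) * ((χ : G → ℂ) t ^ 2 / (χ : G → ℂ) 1) := by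
    intro χ
    have e1 := hat_conv χ.2 (ind_classFun (isConj_class_closed t)) (ind S)
    rw [← hθ, hat_ind_class (irr_isChar χ.2)] at e1
    unfold hat centralChar at e1
    have hχ1 := irr_one_ne_zero χ.2
    obtain ⟨n, hn, _⟩ := char_involution (irr_isChar χ.2) ht
    have e2 : ∑ x : G, θ x * (χ : G → ℂ) x = ((centralizer ({t} : Set G)).index : ℂ) ^ 2 *
        ((χ : G → ℂ) t ^ 2 / (χ : G → ℂ) 1) := by
      rw [div_eq_iff hχ1] at e1
      rw [e1]
      field_simp
    unfold classInner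
    have e3 : ∑ x : G, θ x * conj ((χ : G → ℂ) x) = conj (∑ x : G, θ x * (χ : G → ℂ) x) := by
      rw [map_sum]
      apply Finset.sum_congr rfl
      intro x _
      rw [map_mul, hθv, Complex.conj_natCast]
    rw [e3, e2, mul_assoc]
    congr 1
    have e4 : conj ((χ : G → ℂ) 1) = (χ : G → ℂ) 1 := by
      rw [← charDegree_cast (irr_isChar χ.2), Complex.conj_natCast]
    rw [map_mul, map_div₀, map_pow, map_pow, Complex.conj_natCast, hn, map_intCast, e4]
  have h3 : ∀ χ : IrrCharacter G, classInner θ (χ : G → ℂ) * (χ : G → ℂ) y0 =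
      ((Nat.card G : ℂ)⁻¹ * ((centralizer ({t} : Set G)).index : ℂ) ^ 2) *
        ((χ : G → ℂ) t ^ 2 / (χ : G → ℂ) 1 * (χ : G → ℂ) y0) := by
    intro χ
    rw [h2, mul_assoc]
  simp only [h3] at h1
  rw [← Finset.mul_sum] at h1
  rcases mul_eq_zero.mp h1 with h4 | h4
  · exfalso
    exact (mul_ne_zero (inv_ne_zero hcard) (pow_ne_zero 2 hidx)) h4
  · rw [← h4]
    exact Finset.sum_congr (by ext; simp) fun _ _ => rfl

/-- in a product of two involutions the `p`-part is inverted -/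
theorem inverted_pPart [Finite G] (hp : p.Prime) {a b z : G} (ha : a * a = 1) (hb : b * b = 1)
    (hz : IsPPart p (a * b) z) : a * z * a⁻¹ = z⁻¹ := by
  obtain ⟨s, hs⟩ := isPPart_mem_zpowers hp hz
  have h1 : a * (a * b) * a⁻¹ = (a * b)⁻¹ := by
    have e1 : a⁻¹ = a := inv_eq_of_mul_eq_one_right ha
    have e2 : b⁻¹ = b := inv_eq_of_mul_eq_one_right hb
    rw [mul_inv_rev, e1, e2]
    rw [← mul_assoc, ha, one_mul]
  rw [hs, ← conj_pow, h1, inv_pow]

theorem sq_of_conj_involution {t a : G} (ht : orderOf t = 2) (h : IsConj t a) : a * a = 1 := by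
  obtain ⟨x, hx⟩ := isConj_iff.mp h
  have h2 : t * t = 1 := by rw [← sq, ← ht, pow_orderOf_eq_one]
  rw [← hx]
  calc x * t * x⁻¹ * (x * t * x⁻¹) = x * (t * t) * x⁻¹ := by group
    _ = 1 := by rw [h2]; group

end Cfsg.Agent.H27
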