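import Cfsg.Agent.H27.AbSyl5
import Cfsg.Agent.H27.Kernel

set_option autoImplicit false

/-! # Principal blocks with abelian Sylow subgroups and `N/C` free of order `3`: involutions -/

universe u

namespace Cfsg.Agent.H27

open Subgroup Cfsg Cfsg.Agent.H3 Cfsg.Agent.H11
open scoped ComplexConjugate

variable {G : Type u} [Group G] {p : ℕ} {M : Ideal AlgInt}

theorem value_lt [Finite G] {t : G} (hprop : ∀ K : Subgroup G, K.Normal → t ∈ K → K = ⊤)
    {χ : IrrCharacter G} (hχ : χ ≠ oneIrr G) {n : ℤ} (hn : (χ : G → ℂ) t = n) :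
    n < (charDegree (χ : G → ℂ) : ℤ) := by
  classical
  have := Fintype.ofFinite G
  have h1 := norm_char_le (irr_isChar χ.2) t
  rw [hn, Complex.norm_intCast] at h1
  have h2 : n ≤ (charDegree (χ : G → ℂ) : ℤ) := by
    have h3 : (n : ℝ) ≤ ((charDegree (χ : G → ℂ) : ℤ) : ℝ) := by
      refine (le_abs_self _).trans ?_
      simpa using h1
    exact_mod_cast h3
  rcases lt_or_eq_of_le h2 with h | h
  · exact h
  exfalso
  apply hχ
  have h4 : t ∈ charKer (irr_isChar χ.2) := by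
    rw [mem_charKer, hn, h, ← charDegree_cast (irr_isChar χ.2)]; push_cast; rfl
  have h5 := hprop _ (charKer_normal _) h4
  have h6 : ∀ x : G, (χ : G → ℂ) x = (χ : G → ℂ) 1 := by
    intro x
    have : x ∈ charKer (irr_isChar χ.2) := by rw [h5]; trivial
    exact this
  by_contra hne
  have h7 := classInner_irr' χ (oneIrr G)
  rw [if_neg hne] at h7
  unfold classInner at h7
  have h8 : ∑ x : G, (χ : G → ℂ) x * conj (((oneIrr G : IrrCharacter G) : G → ℂ) x) =
      (Nat.card G : ℂ) * (χ : G → ℂ) 1 := by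
    have : ∀ x : G, (χ : G → ℂ) x * conj (((oneIrr G : IrrCharacter G) : G → ℂ) x) = (χ : G → ℂ) 1 := by
      intro x
      have e : ((oneIrr G : IrrCharacter G) : G → ℂ) x = 1 := rfl
      rw [e, map_one, mul_one, h6]
    simp only [this]
    rw [Finset.sum_const, Finset.card_univ, nsmul_eq_mul, ← Nat.card_eq_fintype_card]
  rw [h8, inv_mul_cancel_left₀ (by exact_mod_cast Nat.card_pos.ne')] at h7
  exact irr_one_ne_zero χ.2 h7

namespace Sun

variable {P : Sylow p G} {g : G} [Fintype (P : Subgroup G)] {τ ρ δ : ℤ} {c d : IrrCharacter G}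
  {z : (↥(P : Subgroup G) →* ℂˣ) → IrrCharacter G}

/-- The relation between degrees. -/
theorem relA [Fintype G] [Fact p.Prime] (hM : IsPModular p M)
    (S : Sun M P τ ρ δ c d z) {ψ : (P : Subgroup G) →* ℂˣ} (hψ : ψ ≠ 1) {x : G}
    (hx : ¬ p ∣ orderOf x) :
    1 + (τ : ℂ) * (c : G → ℂ) x + (ρ : ℂ) * (d : G → ℂ) x - δ * (z ψ : G → ℂ) x = 0 := by
  classical
  have hpr := hM.2.1.isPrime
  have := Fintype.ofFinite (IrrCharacter G)
  have h1 := Ab3.W_reg hM P ψ hx
  rw [S.dot hψ (fun χ => (χ : G → ℂ) x)] at h1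
  exact h1

/-- The relation from class algebra constants. -/
theorem relC [Fintype G] [Fact p.Prime] (hM : IsPModular p M)
    (S : Sun M P τ ρ δ c d z) {ψ : (P : Subgroup G) →* ℂˣ} (hψ : ψ ≠ 1) (F : IrrCharacter G → ℂ)
    (hF : ∀ y : (P : Subgroup G), y ≠ 1 → ∀ [Fintype (IrrCharacter G)]
      [DecidablePred (· ∈ principalBlock M G)], ∑ χ : IrrCharacter G with χ ∈ principalBlock M G,
        F χ * (χ : G → ℂ) y = 0) :
    F (oneIrr G) + (τ : ℂ) * F c + (ρ : ℂ) * F d - δ * F (z ψ) = 0 := by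
  classical
  have hpr := hM.2.1.isPrime
  have := Fintype.ofFinite (IrrCharacter G)
  rw [← S.dot hψ F]
  have h1 : ∀ χ : IrrCharacter G, (Ab3.W P ψ χ : ℂ) * F χ = ∑ y : (P : Subgroup G),
      (Nat.card (P : Subgroup G) : ℂ)⁻¹ * (1 - conj (ψ y : ℂ)) * (F χ * (χ : G → ℂ) y) := by
    intro χ
    rw [Ab3.W_spec]
    unfold Ab3.T
    rw [Finset.mul_sum, Finset.sum_mul]
    exact Finset.sum_congr rfl fun y _ => by ring
  simp only [h1]
  rw [Finset.sum_comm]
  apply Finset.sum_eq_zero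
  intro y _
  rw [← Finset.mul_sum]
  by_cases hy : y = 1
  · subst hy; simp
  · rw [hF y hy, mul_zero]

theorem final [Fintype G] [Fact p.Prime] (hM : IsPModular p M)
    (S : Sun M P τ ρ δ c d z)
    {ψ : (P : Subgroup G) →* ℂˣ} (hψ : ψ ≠ 1) {s1 s2 s3 : ℤ}
    (hs1 : s1 < (charDegree (c : G → ℂ) : ℤ)) (hs2 : s2 < (charDegree (d : G → ℂ) : ℤ))
    (hs3 : s3 < (charDegree (z ψ : G → ℂ) : ℤ))
    (hB : 1 + τ * s1 + ρ * s2 - δ * s3 = 0)
    (hC : 1 + (τ : ℂ) * (s1 ^ 2 / (c : G → ℂ) 1) + (ρ : ℂ) * (s2 ^ 2 / (d : G → ℂ) 1) -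
      δ * (s3 ^ 2 / (z ψ : G → ℂ) 1) = 0) :
    τ + ρ - δ = -1 ∧ IsSquare (charDegree (c : G → ℂ) * charDegree (d : G → ℂ) *
      charDegree (z ψ : G → ℂ)) := by
  have h1 := S.relA hM hψ (x := 1) (by
    rw [orderOf_one]; exact hM.1.one_lt.ne' ∘ Nat.dvd_one.mp)
  have hc1 := irr_one_ne_zero c.2
  have hd1 := irr_one_ne_zero d.2
  have hz1 := irr_one_ne_zero (z ψ).2
  have p1 := charDegree_pos c.2
  have p2 := charDegree_pos d.2
  have p3 := charDegree_pos (z ψ).2
  have hA : 1 + τ * (charDegree (c : G → ℂ) : ℤ) + ρ * (charDegree (d : G → ℂ) : ℤ) +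
      (-δ) * (charDegree (z ψ : G → ℂ) : ℤ) = 0 := by
    have h2 : ((1 + τ * (charDegree (c : G → ℂ) : ℤ) + ρ * (charDegree (d : G → ℂ) : ℤ) +
      (-δ) * (charDegree (z ψ : G → ℂ) : ℤ) : ℤ) : ℂ) = 0 := by
      push_cast
      rw [charDegree_cast (irr_isChar c.2), charDegree_cast (irr_isChar d.2),
        charDegree_cast (irr_isChar (z ψ).2), ← h1]
      ring
    exact_mod_cast h2
  have hC' : (charDegree (c : G → ℂ) : ℤ) * (charDegree (d : G → ℂ) : ℤ) *
      (charDegree (z ψ : G → ℂ) : ℤ) +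
      τ * s1 ^ 2 * (charDegree (d : G → ℂ) : ℤ) * (charDegree (z ψ : G → ℂ) : ℤ) +
      ρ * s2 ^ 2 * (charDegree (c : G → ℂ) : ℤ) * (charDegree (z ψ : G → ℂ) : ℤ) +
      (-δ) * s3 ^ 2 * (charDegree (c : G → ℂ) : ℤ) * (charDegree (d : G → ℂ) : ℤ) = 0 := by
    have h2 : (((charDegree (c : G → ℂ) : ℤ) * (charDegree (d : G → ℂ) : ℤ) *
      (charDegree (z ψ : G → ℂ) : ℤ) +
      τ * s1 ^ 2 * (charDegree (d : G → ℂ) : ℤ) * (charDegree (z ψ : G → ℂ) : ℤ) +
      ρ * s2 ^ 2 * (charDegree (c : G → ℂ) : ℤ) * (charDegree (z ψ : G → ℂ) : ℤ) +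
      (-δ) * s3 ^ 2 * (charDegree (c : G → ℂ) : ℤ) * (charDegree (d : G → ℂ) : ℤ) : ℤ) : ℂ) = 0 := by
      push_cast
      rw [charDegree_cast (irr_isChar c.2), charDegree_cast (irr_isChar d.2),
        charDegree_cast (irr_isChar (z ψ).2)]
      have h3 := congrArg (fun w => w * ((c : G → ℂ) 1 * (d : G → ℂ) 1 * (z ψ : G → ℂ) 1)) hC
      simp only [zero_mul] at h3
      rw [← h3]
      field_simp
      ring
    exact_mod_cast h2
  have h4 := arith_key (e1 := τ) (e2 := ρ) (e3 := -δ) S.hτ S.hρ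
    (by rcases S.hδ with h | h <;> rw [h] <;> simp) (by exact_mod_cast p1) (by exact_mod_cast p2)
    (by exact_mod_cast p3) hs1 hs2 hs3 hA (by linarith) hC'
  refine ⟨by linarith [h4.1], ?_⟩
  have h5 := h4.2
  rw [← Nat.cast_mul, ← Nat.cast_mul] at h5
  exact Int.isSquare_natCast_iff.mp h5

/-- odd `p` -/
theorem final_odd [Fintype G] [Fact p.Prime] (hM : IsPModular p M) (h : Ab3 P g) (hp2 : p ≠ 2)
    (S : Sun M P τ ρ δ c d z) {t : G} (ht : orderOf t = 2)
    (hprop : ∀ K : Subgroup G, K.Normal → t ∈ K → K = ⊤)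
    {ψ : (P : Subgroup G) →* ℂˣ} (hψ : ψ ≠ 1) :
    τ + ρ - δ = -1 ∧ IsSquare (charDegree (c : G → ℂ) * charDegree (d : G → ℂ) *
      charDegree (z ψ : G → ℂ)) := by
  classical
  have hpr := hM.2.1.isPrime
  have hreg : ¬ p ∣ orderOf t := by
    rw [ht]
    intro hd
    exact hp2 ((Nat.prime_dvd_prime_iff_eq hM.1 Nat.prime_two).mp hd)
  obtain ⟨s1, hs1, _⟩ := char_involution (irr_isChar c.2) ht
  obtain ⟨s2, hs2, _⟩ := char_involution (irr_isChar d.2) ht
  obtain ⟨s3, hs3, _⟩ := char_involution (irr_isChar (z ψ).2) ht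
  refine S.final hM hψ (value_lt hprop S.hc1 hs1) (value_lt hprop S.hd1 hs2)
    (value_lt hprop (S.hz1 ψ hψ) hs3) ?_ ?_
  · have h1 := S.relA hM hψ hreg
    rw [hs1, hs2, hs3] at h1
    exact_mod_cast h1
  · have h1 := S.relC hM hψ (fun χ => (χ : G → ℂ) t ^ 2 / (χ : G → ℂ) 1) (by
      intro y hy _ _
      apply sum_sq_div_eq_zero hM ht (Ab3.pow_order P y)
      intro a b x ha hb hx hyx
      have ha2 := sq_of_conj_involution ht ha
      have hb2 := sq_of_conj_involution ht hb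
      have hinv := inverted_pPart hM.1 ha2 hb2 hx
      have hxx : IsConj x x⁻¹ := isConj_iff.mpr ⟨a, hinv⟩
      have hyy : IsConj (y : G) ((y⁻¹ : (P : Subgroup G)) : G) := by
        have h2 : IsConj x⁻¹ (y : G)⁻¹ := by
          obtain ⟨w, hw⟩ := isConj_iff.mp hyx.symm
          exact isConj_iff.mpr ⟨w, by rw [← hw]; group⟩
        exact (hyx.trans hxx).trans h2
      obtain ⟨i, hi⟩ := (h.isConj_iff_rot y y⁻¹).mp hyy
      have hii : h.rot (i + i) y = y := by
        rw [← h.rot_rot, hi, map_inv, hi, inv_inv]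
      have hi0 : i = 0 := by
        fin_cases i
        · rfl
        · exact absurd hii (h.rot_two_ne hy)
        · exfalso
          apply h.rot_one_ne hy
          have h5 : h.rot (1 + 3) y = h.rot 1 (h.rot 3 y) := (h.rot_rot 1 3 y).symm
          rw [h.rot_three] at h5
          rw [← h5]; exact hii
      subst hi0
      have h6 : y = y⁻¹ := by rw [← hi]; exact (h.rot_zero y).symm
      apply hy
      have h7 : y ^ 2 = 1 := by rw [sq]; nth_rewrite 2 [h6]; exact mul_inv_cancel y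
      have h8 : (y : G) ^ 2 = 1 := by exact_mod_cast congrArg Subtype.val h7
      obtain ⟨k, hk⟩ := Ab3.pow_order P y
      have h9 : orderOf (y : G) ∣ 2 := orderOf_dvd_of_pow_eq_one h8
      rw [hk] at h9
      rcases Nat.eq_zero_or_pos k with hk0 | hk0
      · subst hk0
        rw [pow_zero, orderOf_eq_one_iff] at hk
        exact Subtype.ext hk
      · exfalso
        apply hp2
        exact (Nat.prime_dvd_prime_iff_eq hM.1 Nat.prime_two).mp
          ((dvd_pow_self p hk0.ne').trans h9))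
    have e : ((oneIrr G : IrrCharacter G) : G → ℂ) t ^ 2 /
      ((oneIrr G : IrrCharacter G) : G → ℂ) 1 = 1 := by
      show (1 : ℂ) ^ 2 / 1 = 1
      norm_num
    rw [e, hs1, hs2, hs3] at h1
    exact h1

/-! ### the prime two -/

/-- the norm of an element is trivial -/
theorem rot_prod (h : Ab3 P g) (y : (P : Subgroup G)) : y * h.rot 1 y * h.rot 2 y = 1 := by
  by_contra hne
  apply h.rot_one_ne hne
  rw [map_mul, map_mul, h.rot_rot, h.rot_rot]
  have h3 : h.rot (1 + 2) y = y := h.rot_three y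
  have h2 : h.rot (1 + 1) y = h.rot 2 y := rfl
  rw [h3, h2, mul_assoc y, h.P_comm (h.rot 1 y * h.rot 2 y) y]

/-- Sylow `2`-subgroups are abelian: the structure of a product of two conjugates of `t` whose
`2`-part is nontrivial. -/
theorem two_part_conj [Fintype G] [Fact p.Prime] (h : Ab3 P g) (hp2 : p = 2) {t : G}
    (ht : orderOf t = 2) {a b x : G} (ha : IsConj t a) (hb : IsConj t b) (hx : IsPPart p (a * b) x)
    (hx1 : x ≠ 1) : IsConj x t := by
  classical
  have hp : p.Prime := Fact.out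
  have ha2 := sq_of_conj_involution ht ha
  have hb2 := sq_of_conj_involution ht hb
  have hinv := inverted_pPart hp ha2 hb2 hx
  obtain ⟨r, hxr, hcomm, ⟨k, hk⟩, hr⟩ := hx
  have hainv : a⁻¹ = a := inv_eq_of_mul_eq_one_right ha2
  -- a 2-group containing `a` and `x`
  have hax : IsPGroup p (Subgroup.zpowers x ⊔ Subgroup.zpowers a : Subgroup G) := by
    have hpx : IsPGroup p (Subgroup.zpowers x) := by
      rw [IsPGroup.iff_card]
      exact ⟨k, by rw [Nat.card_zpowers, hk]⟩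
    have hpa : IsPGroup p (Subgroup.zpowers a) := by
      rw [IsPGroup.iff_card]
      have h1 : orderOf a ∣ 2 := orderOf_dvd_of_pow_eq_one (by rw [sq]; exact ha2)
      rcases (Nat.dvd_prime Nat.prime_two).mp h1 with h2 | h2
      · exact ⟨0, by rw [Nat.card_zpowers, h2, pow_zero]⟩
      · exact ⟨1, by rw [Nat.card_zpowers, h2, hp2, pow_one]⟩
    refine IsPGroup.to_sup_of_normal_left' hpx hpa ?_
    rw [Subgroup.zpowers_le, Subgroup.mem_normalizer_iff]
    intro w
    have hconj : ∀ w, w ∈ Subgroup.zpowers x → a * w * a⁻¹ ∈ Subgroup.zpowers x := by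
      intro w hw
      obtain ⟨n, rfl⟩ := Subgroup.mem_zpowers_iff.mp hw
      rw [← conj_zpow, hinv]
      exact Subgroup.zpow_mem _ (Subgroup.inv_mem _ (Subgroup.mem_zpowers x)) n
    constructor
    · exact hconj w
    · intro hw
      have h1 := hconj _ hw
      have e : a * (a * w * a⁻¹) * a⁻¹ = w := by
        rw [hainv]
        calc a * (a * w * a) * a = (a * a) * w * (a * a) := by group
          _ = w := by rw [ha2]; group
      rwa [e] at h1
  obtain ⟨Q, hQ⟩ := hax.exists_le_sylow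
  obtain ⟨v, hv⟩ := MulAction.exists_smul_eq G Q P
  have hmem : ∀ w ∈ (Subgroup.zpowers x ⊔ Subgroup.zpowers a : Subgroup G),
      v * w * v⁻¹ ∈ (P : Subgroup G) := by
    intro w hw
    rw [← hv, Sylow.coe_subgroup_smul]
    exact Subgroup.smul_mem_pointwise_smul _ (MulAut.conj v) _ (hQ hw)
  have hxP := hmem x (Subgroup.mem_sup_left (Subgroup.mem_zpowers x))
  have haP := hmem a (Subgroup.mem_sup_right (Subgroup.mem_zpowers a))
  have hcomm2 : a * x = x * a := by
    have h1 := h.comm _ haP _ hxP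
    have h2 : v * (a * x) * v⁻¹ = v * (x * a) * v⁻¹ := by
      calc v * (a * x) * v⁻¹ = (v * a * v⁻¹) * (v * x * v⁻¹) := by group
        _ = (v * x * v⁻¹) * (v * a * v⁻¹) := h1
        _ = _ := by group
    exact mul_left_cancel (mul_right_cancel h2)
  have hx2 : x⁻¹ = x := by
    rw [← hinv, hcomm2]; group
  -- `b` is conjugate to `a x`
  have hbe : b = a * x * r := by
    have h1 : a * (a * b) = a * (x * r) := by rw [hxr]
    rw [← mul_assoc, ha2, one_mul] at h1
    rw [h1]; group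
  have hrinv : (a * x) * r * (a * x)⁻¹ = r⁻¹ := by
    -- b is an involution and `b = (a x) r`, `(a x)` is an involution
    have h1 : (a * x * r) * (a * x * r) = 1 := by rw [← hbe]; exact hb2
    have h2 : (a * x) * (a * x) = 1 := by
      calc a * x * (a * x) = a * (x * a) * x := by group
        _ = a * (a * x) * x := by rw [hcomm2]
        _ = (a * a) * (x * x) := by group
        _ = (a * a) * (x * x⁻¹) := by rw [hx2]
        _ = 1 := by rw [ha2]; group
    have h3 : (a * x)⁻¹ = a * x := inv_eq_of_mul_eq_one_right h2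
    rw [h3]
    have h4 : (a * x * r * (a * x)) * r = 1 := by rw [← h1]; group
    exact eq_inv_of_mul_eq_one_left h4
  obtain ⟨s, hs⟩ : ∃ s : G, s * s = r ∧ (a * x) * s * (a * x)⁻¹ = s⁻¹ := by
    have hodd : ¬ 2 ∣ orderOf r := hp2 ▸ hr
    obtain ⟨m, hm⟩ : ∃ m, orderOf r = 2 * m + 1 := ⟨orderOf r / 2, by omega⟩
    refine ⟨r ^ (m + 1), ?_, ?_⟩
    · rw [← pow_add, show m + 1 + (m + 1) = orderOf r + 1 by omega, pow_succ, pow_orderOf_eq_one,
        one_mul]
    · rw [← conj_pow, hrinv, inv_pow]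
  have hbc : IsConj b (a * x) := by
    apply isConj_iff.mpr
    refine ⟨s, ?_⟩
    have h1 : (a * x) * s = s⁻¹ * (a * x) := by
      rw [← hs.2]; group
    calc s * b * s⁻¹ = s * ((a * x) * (s * s)) * s⁻¹ := by rw [hs.1, ← hbe]
      _ = s * (((a * x) * s) * s) * s⁻¹ := by group
      _ = s * ((s⁻¹ * (a * x)) * s) * s⁻¹ := by rw [h1]
      _ = a * x := by group
  -- go to `P`
  let a' : (P : Subgroup G) := ⟨v * a * v⁻¹, haP⟩
  let x' : (P : Subgroup G) := ⟨v * x * v⁻¹, hxP⟩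
  have hax' : IsConj (a' : G) ((a' * x' : (P : Subgroup G)) : G) := by
    have e1 : IsConj (a' : G) a := (isConj_iff.mpr ⟨v, rfl⟩ : IsConj a (a' : G)).symm
    have e2 : IsConj (a * x) ((a' * x' : (P : Subgroup G)) : G) := by
      apply isConj_iff.mpr
      refine ⟨v, ?_⟩
      show v * (a * x) * v⁻¹ = v * a * v⁻¹ * (v * x * v⁻¹)
      group
    exact ((e1.trans ha.symm).trans (hb.trans hbc)).trans e2
  obtain ⟨i, hi⟩ := (h.isConj_iff_rot a' (a' * x')).mp hax'
  have ha'2 : a' * a' = 1 := by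
    apply Subtype.ext
    show v * a * v⁻¹ * (v * a * v⁻¹) = 1
    calc v * a * v⁻¹ * (v * a * v⁻¹) = v * (a * a) * v⁻¹ := by group
      _ = 1 := by rw [ha2]; group
  have hx'1 : x' ≠ 1 := by
    intro he
    apply hx1
    have h1 : v * x * v⁻¹ = 1 := congrArg Subtype.val he
    rwa [conj_eq_one_iff] at h1
  have hx'e : x' = a' * h.rot i a' := by
    rw [hi, ← mul_assoc, ha'2, one_mul]
  have hrp := rot_prod h a'
  have hrotsq : ∀ j, h.rot j a' * h.rot j a' = 1 := by
    intro j; rw [← map_mul, ha'2, map_one]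
  have hxconj : ∃ j : Fin 3, h.rot j a' = x' := by
    fin_cases i
    · exfalso
      apply hx'1
      rw [hx'e]
      have : h.rot 0 a' = a' := h.rot_zero a'
      show a' * h.rot 0 a' = 1
      rw [this, ha'2]
    · refine ⟨2, ?_⟩
      rw [hx'e]
      show h.rot 2 a' = a' * h.rot 1 a'
      have h5 : h.rot 2 a' = (a' * h.rot 1 a')⁻¹ := eq_inv_of_mul_eq_one_right hrp
      have h6 : h.rot 2 a' = (h.rot 2 a')⁻¹ := eq_inv_of_mul_eq_one_left (hrotsq 2)
      rw [h6, h5, inv_inv]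
    · refine ⟨1, ?_⟩
      rw [hx'e]
      show h.rot 1 a' = a' * h.rot 2 a'
      have h5 : h.rot 1 a' * (a' * h.rot 2 a') = 1 := by
        rw [← mul_assoc, h.P_comm (h.rot 1 a') a', hrp]
      have h6 : h.rot 1 a' = (h.rot 1 a')⁻¹ := eq_inv_of_mul_eq_one_left (hrotsq 1)
      rw [h6]
      exact inv_eq_of_mul_eq_one_right h5
  have h7 : IsConj (a' : G) (x' : G) := (h.isConj_iff_rot a' x').mpr hxconj
  have h8 : IsConj x (x' : G) := isConj_iff.mpr ⟨v, rfl⟩
  have h9 : IsConj a (a' : G) := isConj_iff.mpr ⟨v, rfl⟩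
  exact ((h8.trans h7.symm).trans h9.symm).trans ha.symm

end Sun

end Cfsg.Agent.H27
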