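import Cfsg.Agent.H27.AbSyl6

set_option autoImplicit false

/-! # Principal blocks with abelian Sylow subgroups and `N/C` free of order `3`: the prime `2` -/

universe u

namespace Cfsg.Agent.H27

open Subgroup Cfsg Cfsg.Agent.H3 Cfsg.Agent.H11
open scoped ComplexConjugate

variable {G : Type u} [Group G] {p : ℕ} {M : Ideal AlgInt}

namespace Sun

variable {P : Sylow p G} {g : G} [Fintype (P : Subgroup G)] {τ ρ δ : ℤ} {c d : IrrCharacter G}
  {z : (↥(P : Subgroup G) →* ℂˣ) → IrrCharacter G}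

theorem sum_value [Fintype G] [Fact p.Prime] (hM : IsPModular p M) (h : Ab3 P g)
    (S : Sun M P τ ρ δ c d z) [Fintype (IrrCharacter G)]
    [DecidablePred (· ∈ principalBlock M G)] {y : (P : Subgroup G)} (hy : y ≠ 1) :
    ∑ χ : IrrCharacter G with χ ∈ principalBlock M G, (χ : G → ℂ) y = 1 + τ + ρ - δ := by
  classical
  have hpr := hM.2.1.isPrime
  haveI : Finite ((P : Subgroup G) →* ℂˣ) := finite_dual
  have := Fintype.ofFinite ((P : Subgroup G) →* ℂˣ)
  have h1 : ∀ χ : IrrCharacter G, (χ : G → ℂ) y =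
      - ∑ ψ : (P : Subgroup G) →* ℂˣ, (Ab3.W P ψ χ : ℂ) * (ψ y : ℂ) := fun χ => h.value_eq χ hy
  simp only [h1]
  rw [Finset.sum_neg_distrib, Finset.sum_comm]
  have h2 : ∀ ψ : (P : Subgroup G) →* ℂˣ, ∑ χ : IrrCharacter G with χ ∈ principalBlock M G,
      (Ab3.W P ψ χ : ℂ) * (ψ y : ℂ) =
      (1 + τ + ρ - δ) * ((ψ y : ℂ) - at1 (1 : (P : Subgroup G) →* ℂˣ) 1 ψ) := by
    intro ψ
    rw [← Finset.sum_mul]
    by_cases hψ : ψ = 1
    · subst hψ
      rw [at1_same]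
      simp [Ab3.W_one]
    · have h3 := S.dot hψ (fun _ => 1)
      simp only [mul_one] at h3
      rw [h3, at1_ne _ hψ, sub_zero]
  simp only [h2]
  rw [← Finset.mul_sum, Finset.sum_sub_distrib, sum_dual h.P_comm y hy]
  have h2 : ∑ ψ : (P : Subgroup G) →* ℂˣ, at1 (1 : (P : Subgroup G) →* ℂˣ) (1 : ℂ) ψ = 1 := by
    rw [Finset.sum_eq_single (1 : (P : Subgroup G) →* ℂˣ)]
    · rw [at1_same]
    · intro ψ _ hψ; rw [at1_ne _ hψ]
    · intro hh; exact absurd (Finset.mem_univ _) hh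
  rw [h2]
  ring

theorem degree_eq [Fintype G] [Fact p.Prime] (hM : IsPModular p M)
    (S : Sun M P τ ρ δ c d z) {ψ ψ' : (P : Subgroup G) →* ℂˣ} (hψ : ψ ≠ 1) (hψ' : ψ' ≠ 1) :
    (z ψ : G → ℂ) 1 = (z ψ' : G → ℂ) 1 := by
  have h0 : ¬ p ∣ orderOf (1 : G) := by
    rw [orderOf_one]; exact hM.1.one_lt.ne' ∘ Nat.dvd_one.mp
  have h1 := S.relA hM hψ h0
  have h2 := S.relA hM hψ' h0
  have h3 : (δ : ℂ) * (z ψ : G → ℂ) 1 = δ * (z ψ' : G → ℂ) 1 := by
    linear_combination h2 - h1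
  apply mul_left_cancel₀ _ h3
  rcases S.hδ with h | h <;> rw [h] <;> simp

theorem exists_trivial_hom [Fintype G] [Fact p.Prime] (h : Ab3 P g)
    (hcard : 4 < Nat.card (P : Subgroup G)) {t : (P : Subgroup G)} (ht : t * t = 1) :
    ∃ ψ : (P : Subgroup G) →* ℂˣ, ψ ≠ 1 ∧ ∀ i : Fin 3, h.tw i ψ t = 1 := by
  classical
  haveI : Finite ((P : Subgroup G) →* ℂˣ) := finite_dual
  have := Fintype.ofFinite ((P : Subgroup G) →* ℂˣ)
  have hc : Fintype.card (Bool × Bool) < Fintype.card ((P : Subgroup G) →* ℂˣ) := by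
    rw [← Nat.card_eq_fintype_card (α := ((P : Subgroup G) →* ℂˣ)), card_dual h.P_comm]
    exact hcard
  obtain ⟨ψ, ψ', hne, he⟩ := Fintype.exists_ne_map_eq_of_card_lt
    (fun ψ : (P : Subgroup G) →* ℂˣ => (decide (ψ t = 1), decide (ψ (h.rot 1 t) = 1))) hc
  have hsq : ∀ (φ : (P : Subgroup G) →* ℂˣ) (y : (P : Subgroup G)), y * y = 1 →
      φ y = 1 ∨ φ y = -1 := by
    intro φ y hy
    have h1 : (φ y : ℂ) * (φ y : ℂ) = 1 := by
      rw [← Units.val_mul, ← map_mul, hy, map_one, Units.val_one]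
    rcases mul_self_eq_one_iff.mp h1 with h2 | h2
    · left; exact Units.ext h2
    · right; exact Units.ext h2
  have hrt : h.rot 1 t * h.rot 1 t = 1 := by rw [← map_mul, ht, map_one]
  have key : ∀ y : (P : Subgroup G), y * y = 1 → decide (ψ y = 1) = decide (ψ' y = 1) →
      ψ y = ψ' y := by
    intro y hy hd
    rw [decide_eq_decide] at hd
    rcases hsq ψ y hy with h1 | h1
    · rw [h1, hd.mp h1]
    · rcases hsq ψ' y hy with h2 | h2
      · rw [h2, hd.mpr h2]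
      · rw [h1, h2]
  have he1 := key t ht (congrArg Prod.fst he)
  have he2 := key _ hrt (congrArg Prod.snd he)
  let φ : (P : Subgroup G) →* ℂˣ := ψ * ψ'⁻¹
  have hφ : ∀ y, φ y = ψ y * (ψ' y)⁻¹ := fun y => rfl
  have hφ0 : φ t = 1 := by rw [hφ, he1, mul_inv_cancel]
  have hφ1 : φ (h.rot 1 t) = 1 := by rw [hφ, he2, mul_inv_cancel]
  have hφ2 : φ (h.rot 2 t) = 1 := by
    have h1 := congrArg φ (rot_prod h t)
    rw [map_mul, map_mul, hφ0, hφ1, map_one, one_mul, one_mul] at h1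
    exact h1
  refine ⟨φ, ?_, ?_⟩
  · intro h1
    apply hne
    ext y
    have h2 := DFunLike.congr_fun h1 y
    rw [hφ, MonoidHom.one_apply, mul_inv_eq_one] at h2
    rw [h2]
  · intro i
    rw [Ab3.tw_apply]
    fin_cases i
    · show φ (h.rot 0 t) = 1
      rw [h.rot_zero, hφ0]
    · exact hφ1
    · exact hφ2

theorem sq_value [Fintype G] [Fact p.Prime] (hM : IsPModular p M) (h : Ab3 P g)
    (S : Sun M P τ ρ δ c d z) {ψ : (P : Subgroup G) →* ℂˣ} (hψ : ψ ≠ 1)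
    {t : (P : Subgroup G)} (ht : t * t = 1) (ht1 : t ≠ 1) :
    (z ψ : G → ℂ) t ^ 2 = 3 + 2 * δ * (z ψ : G → ℂ) t := by
  rw [S.value_z hM h hψ ht1]
  have hδ2 : (δ : ℂ) * δ = 1 := by rcases S.hδ with h | h <;> rw [h] <;> simp
  have e0 : ((h.tw 0 ψ t : ℂˣ) : ℂ) * (h.tw 0 ψ t : ℂ) = 1 := by
    rw [← Units.val_mul, ← map_mul, ht, map_one, Units.val_one]
  have e1 : ((h.tw 1 ψ t : ℂˣ) : ℂ) * (h.tw 1 ψ t : ℂ) = 1 := by
    rw [← Units.val_mul, ← map_mul, ht, map_one, Units.val_one]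
  have e2 : ((h.tw 2 ψ t : ℂˣ) : ℂ) * (h.tw 2 ψ t : ℂ) = 1 := by
    rw [← Units.val_mul, ← map_mul, ht, map_one, Units.val_one]
  have ep : ((h.tw 0 ψ t : ℂˣ) : ℂ) * (h.tw 1 ψ t : ℂ) * (h.tw 2 ψ t : ℂ) = 1 := by
    rw [← Units.val_mul, ← Units.val_mul, Ab3.tw_apply, Ab3.tw_apply, Ab3.tw_apply, ← map_mul,
      ← map_mul, h.rot_zero, rot_prod, map_one, Units.val_one]
  have hsum : ∑ i : Fin 3, (h.tw i ψ t : ℂ) =
      ((h.tw 0 ψ t : ℂˣ) : ℂ) + (h.tw 1 ψ t : ℂ) + (h.tw 2 ψ t : ℂ) := by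
    rw [Fin.sum_univ_three]; rfl
  rw [hsum]
  generalize ((h.tw 0 ψ t : ℂˣ) : ℂ) = a at *
  generalize ((h.tw 1 ψ t : ℂˣ) : ℂ) = b at *
  generalize ((h.tw 2 ψ t : ℂˣ) : ℂ) = c at *
  have f1 : a * b = c := by linear_combination c * ep - a * b * e2
  have f2 : a * c = b := by linear_combination b * ep - a * c * e1
  have f3 : b * c = a := by linear_combination a * ep - b * c * e0
  linear_combination ((a + b + c) ^ 2 - 2 * (a + b + c)) * hδ2 + e0 + e1 + e2 + 2 * f1 + 2 * f2 +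
    2 * f3

theorem final_two [Fintype G] [Fact p.Prime] (hM : IsPModular p M) (h : Ab3 P g) (hp2 : p = 2)
    (hcard : 4 < Nat.card (P : Subgroup G))
    (S : Sun M P τ ρ δ c d z) {t : (P : Subgroup G)} (ht : orderOf (t : G) = 2)
    (hprop : ∀ K : Subgroup G, K.Normal → (t : G) ∈ K → K = ⊤)
    {ψ : (P : Subgroup G) →* ℂˣ} (hψ : ψ ≠ 1) :
    τ + ρ - δ = -1 ∧ IsSquare (charDegree (c : G → ℂ) * charDegree (d : G → ℂ) *
      charDegree (z ψ : G → ℂ)) := by
  classical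
  have hpr := hM.2.1.isPrime
  have := Fintype.ofFinite (IrrCharacter G)
  have ht1 : t ≠ 1 := by
    rintro rfl
    rw [OneMemClass.coe_one, orderOf_one] at ht
    omega
  have htt : t * t = 1 := by
    apply Subtype.ext
    show (t : G) * t = 1
    rw [← sq, ← ht, pow_orderOf_eq_one]
  -- an element `y0`
  obtain ⟨y0, hy0, hy0t⟩ : ∃ y0 : (P : Subgroup G), y0 ≠ 1 ∧ ¬ IsConj (t : G) (y0 : G) := by
    by_contra hcon
    push Not at hcon
    have h1 : (Finset.univ : Finset (P : Subgroup G)) ⊆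
        insert 1 (Finset.univ.image (fun i : Fin 3 => h.rot i t)) := by
      intro y _
      by_cases hy : y = 1
      · rw [hy]; exact Finset.mem_insert_self _ _
      · obtain ⟨i, hi⟩ := (h.isConj_iff_rot t y).mp (hcon y hy)
        exact Finset.mem_insert_of_mem (Finset.mem_image.mpr ⟨i, Finset.mem_univ _, hi⟩)
    have h2 := Finset.card_le_card h1
    have h3 := Finset.card_insert_le (1 : (P : Subgroup G))
      (Finset.univ.image (fun i : Fin 3 => h.rot i t))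
    have h4 := Finset.card_image_le (s := (Finset.univ : Finset (Fin 3)))
      (f := fun i : Fin 3 => h.rot i t)
    rw [Finset.card_univ, Fintype.card_fin] at h4
    rw [Finset.card_univ, ← Nat.card_eq_fintype_card] at h2
    omega
  have hC' := sum_sq_div_eq_zero hM ht (Ab3.pow_order P y0) (by
    intro a b x ha hb hx hyx
    by_cases hx1 : x = 1
    · subst hx1
      apply hy0
      exact Subtype.ext (isConj_one_left.mp hyx)
    · exact hy0t ((hyx.trans (two_part_conj h hp2 ht ha hb hx hx1)).symm))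
  have hO := prin_orth_ne hM (Ab3.pow_order P t) (Ab3.pow_order P y0) hy0t
    (isPBlock_principal (M := M) (G := G))
  have hO' : ∑ χ : IrrCharacter G with χ ∈ principalBlock M G,
      (χ : G → ℂ) t * (χ : G → ℂ) y0 = 0 := by
    rw [← hO]
    apply Finset.sum_congr rfl
    intro χ _
    obtain ⟨n, hn, _⟩ := char_involution (irr_isChar χ.2) ht
    rw [hn, map_intCast]
  have hsum := S.sum_value hM h hy0
  set d4 : ℂ := (z ψ : G → ℂ) 1 with hd4
  have hd4' : d4 ≠ 0 := irr_one_ne_zero (z ψ).2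
  let D : IrrCharacter G → ℂ := fun χ => (χ : G → ℂ) t ^ 2 / (χ : G → ℂ) 1 * (χ : G → ℂ) y0 -
    (3 + 2 * δ * (χ : G → ℂ) t) * (χ : G → ℂ) y0 / d4
  have hD1 : ∑ χ : IrrCharacter G with χ ∈ principalBlock M G, D χ =
      - (3 / d4) * (1 + τ + ρ - δ) := by
    have e : ∀ χ : IrrCharacter G, D χ = (χ : G → ℂ) t ^ 2 / (χ : G → ℂ) 1 * (χ : G → ℂ) y0 -
        (3 / d4) * (χ : G → ℂ) y0 - (2 * δ / d4) * ((χ : G → ℂ) t * (χ : G → ℂ) y0) := by
      intro χ
      show _ - _ = _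
      ring
    simp only [e]
    rw [Finset.sum_sub_distrib, Finset.sum_sub_distrib, ← Finset.mul_sum, ← Finset.mul_sum, hO',
      hsum, hC']
    ring
  have hD2 : ∑ χ : IrrCharacter G with χ ∈ principalBlock M G, D χ =
      D (oneIrr G) + D c + D d := by
    have hsub : ({oneIrr G, c, d} : Finset (IrrCharacter G)) ⊆
        Finset.univ.filter (fun χ : IrrCharacter G => χ ∈ principalBlock M G) := by
      intro χ hχ
      rw [Finset.mem_filter]
      refine ⟨Finset.mem_univ _, ?_⟩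
      rw [Finset.mem_insert, Finset.mem_insert, Finset.mem_singleton] at hχ
      rcases hχ with rfl | rfl | rfl
      exacts [oneIrr_mem, S.hc, S.hd]
    rw [← Finset.sum_subset hsub]
    · rw [Finset.sum_insert, Finset.sum_insert, Finset.sum_singleton, add_assoc]
      · rw [Finset.mem_singleton]; exact S.hcd
      · rw [Finset.mem_insert, Finset.mem_singleton]
        push Not
        exact ⟨Ne.symm S.hc1, Ne.symm S.hd1⟩
    · intro χ hχ hχ2
      rw [Finset.mem_insert, Finset.mem_insert, Finset.mem_singleton] at hχ2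
      push Not at hχ2
      rcases S.cover hM h (Finset.mem_filter.mp hχ).2 with h1 | h1 | h1 | ⟨ψ', hψ', rfl⟩
      · exact absurd h1 hχ2.1
      · exact absurd h1 hχ2.2.1
      · exact absurd h1 hχ2.2.2
      · show _ - _ = (0 : ℂ)
        rw [S.sq_value hM h hψ' htt ht1, S.degree_eq hM hψ' hψ, ← hd4]
        ring
  have hτ2 : (τ : ℂ) * τ = 1 := by rcases S.hτ with h | h <;> rw [h] <;> simp
  have hρ2 : (ρ : ℂ) * ρ = 1 := by rcases S.hρ with h | h <;> rw [h] <;> simp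
  have hδ2 : (δ : ℂ) * δ = 1 := by rcases S.hδ with h | h <;> rw [h] <;> simp
  have hrel : 1 + (τ : ℂ) / (c : G → ℂ) 1 + (ρ : ℂ) / (d : G → ℂ) 1 - 9 * δ / d4 = 0 := by
    have e1 : D (oneIrr G) = 1 - (3 + 2 * δ) / d4 := by
      show (1 : ℂ) ^ 2 / 1 * 1 - (3 + 2 * δ * 1) * 1 / d4 = _
      ring
    have e2 : D c = τ / (c : G → ℂ) 1 - (3 * τ + 2 * δ) / d4 := by
      show (c : G → ℂ) t ^ 2 / (c : G → ℂ) 1 * (c : G → ℂ) y0 -
        (3 + 2 * δ * (c : G → ℂ) t) * (c : G → ℂ) y0 / d4 = _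
      rw [S.value_c h ht1, S.value_c h hy0]
      linear_combination ((τ : ℂ) / (c : G → ℂ) 1 - 2 * δ / d4) * hτ2
    have e3 : D d = ρ / (d : G → ℂ) 1 - (3 * ρ + 2 * δ) / d4 := by
      show (d : G → ℂ) t ^ 2 / (d : G → ℂ) 1 * (d : G → ℂ) y0 -
        (3 + 2 * δ * (d : G → ℂ) t) * (d : G → ℂ) y0 / d4 = _
      rw [S.value_d h ht1, S.value_d h hy0]
      linear_combination ((ρ : ℂ) / (d : G → ℂ) 1 - 2 * δ / d4) * hρ2
    rw [hD1, e1, e2, e3] at hD2
    linear_combination -hD2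
  have hs3 : 3 * δ < (charDegree (z ψ : G → ℂ) : ℤ) := by
    have hpos := charDegree_pos (z ψ).2
    rcases S.hδ with h1 | h1
    · obtain ⟨ψ₀, hψ₀, hall⟩ := exists_trivial_hom h hcard htt
      have h2 := S.value_z hM h hψ₀ ht1
      simp only [hall] at h2
      have h3 : (z ψ₀ : G → ℂ) t = ((3 * δ : ℤ) : ℂ) := by
        rw [h2]
        simp
        ring
      have h4 := value_lt hprop (S.hz1 ψ₀ hψ₀) h3
      have h5 : charDegree (z ψ₀ : G → ℂ) = charDegree (z ψ : G → ℂ) := by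
        have h6 := S.degree_eq hM hψ₀ hψ
        rw [← charDegree_cast (irr_isChar (z ψ₀).2), ← charDegree_cast (irr_isChar (z ψ).2)] at h6
        exact_mod_cast h6
      rw [← h5]; exact h4
    · rw [h1]
      have : (0 : ℤ) < (charDegree (z ψ : G → ℂ) : ℤ) := by exact_mod_cast hpos
      omega
  refine S.final hM hψ (value_lt hprop S.hc1 (S.value_c h ht1))
    (value_lt hprop S.hd1 (S.value_d h ht1)) hs3 ?_ ?_
  · have e1 : τ * τ = 1 := by exact_mod_cast hτ2
    have e2 : ρ * ρ = 1 := by exact_mod_cast hρ2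
    have e3 : δ * δ = 1 := by exact_mod_cast hδ2
    linear_combination e1 + e2 - 3 * e3
  · push_cast
    rw [← hd4]
    linear_combination hrel + ((τ : ℂ) / (c : G → ℂ) 1) * hτ2 + ((ρ : ℂ) / (d : G → ℂ) 1) * hρ2 -
      (9 * δ / d4) * hδ2

end Sun

end Cfsg.Agent.H27
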