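import Cfsg.Agent.H27.AbSyl7

set_option autoImplicit false

/-! # Principal blocks with abelian Sylow subgroups and `N/C` free of order `3`: summary -/

universe u

namespace Cfsg.Agent.H27

open Subgroup Cfsg Cfsg.Agent.H3 Cfsg.Agent.H11
open scoped ComplexConjugate Pointwise

variable {G : Type u} [Group G] {p : ℕ} {M : Ideal AlgInt}

theorem ab3_of [Finite G] {P : Sylow p G}
    (hab : ∀ x ∈ (P : Subgroup G), ∀ y ∈ (P : Subgroup G), x * y = y * x)
    (hCN : (centralizer ((P : Subgroup G) : Set G)).relIndex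
      (normalizer ((P : Subgroup G) : Set G)) = 3) {g : G}
    (hg : g ∈ normalizer ((P : Subgroup G) : Set G))
    (hcyc : centralizer ((P : Subgroup G) : Set G) ⊔ zpowers g =
      normalizer ((P : Subgroup G) : Set G))
    (hfrob : ∀ y : G, y ∈ (P : Subgroup G) → y ≠ 1 → centralizer ({y} : Set G) ⊓
      normalizer ((P : Subgroup G) : Set G) = centralizer ((P : Subgroup G) : Set G)) :
    Ab3 P g := by
  have hnorm : ∀ n ∈ normalizer ((P : Subgroup G) : Set G),
      ∀ c ∈ centralizer ((P : Subgroup G) : Set G),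
      n * c * n⁻¹ ∈ centralizer ((P : Subgroup G) : Set G) := by
    intro n hn c hc
    rw [mem_centralizer_iff] at hc ⊢
    intro y hy
    have h1 := (mem_normalizer_iff''.mp hn y).mp hy
    have h2 := hc _ h1
    calc y * (n * c * n⁻¹) = n * ((n⁻¹ * y * n) * c) * n⁻¹ := by group
      _ = n * (c * (n⁻¹ * y * n)) * n⁻¹ := by rw [h2]
      _ = n * c * n⁻¹ * y := by group
  have hnormal : ((centralizer ((P : Subgroup G) : Set G)).subgroupOf
      (normalizer ((P : Subgroup G) : Set G))).Normal := by
    constructor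
    intro c hc n
    rw [mem_subgroupOf] at hc ⊢
    exact hnorm n n.2 c hc
  have hg3 : g ^ 3 ∈ centralizer ((P : Subgroup G) : Set G) := by
    have h1 := Subgroup.pow_index_mem ((centralizer ((P : Subgroup G) : Set G)).subgroupOf
      (normalizer ((P : Subgroup G) : Set G))) ⟨g, hg⟩
    have h2 : ((centralizer ((P : Subgroup G) : Set G)).subgroupOf
      (normalizer ((P : Subgroup G) : Set G))).index = 3 := hCN
    rw [h2, mem_subgroupOf] at h1
    exact h1
  refine ⟨hab, hg, ?_, hg3, ?_⟩
  · intro n hn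
    rw [← hcyc] at hn
    have hle : zpowers g ≤ normalizer ((centralizer ((P : Subgroup G) : Set G) : Subgroup G) : Set G) := by
      rw [zpowers_le, mem_normalizer_iff]
      intro c
      constructor
      · intro hc; exact hnorm g hg c hc
      · intro hc
        have h1 := hnorm g⁻¹ (inv_mem hg) _ hc
        have e : g⁻¹ * (g * c * g⁻¹) * g⁻¹⁻¹ = c := by group
        rwa [e] at h1
    have h1 : n ∈ ((centralizer ((P : Subgroup G) : Set G) : Subgroup G) : Set G) *
        ((zpowers g : Subgroup G) : Set G) := by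
      rw [← coe_mul_of_right_le_normalizer_left _ _ hle]
      exact hn
    obtain ⟨c, hc, w, hw, rfl⟩ := Set.mem_mul.mp h1
    obtain ⟨k, rfl⟩ := mem_zpowers_iff.mp hw
    have h2 : ∃ i : Fin 3, ∃ q : ℤ, k = 3 * q + (i : ℕ) := by
      have h3 := Int.emod_add_mul_ediv k 3
      have h4 := Int.emod_nonneg k (b := 3) (by norm_num)
      have h5 := Int.emod_lt_of_pos k (b := 3) (by norm_num)
      exact ⟨⟨(k % 3).toNat, by omega⟩, k / 3, by simp only; omega⟩
    obtain ⟨i, q, hk⟩ := h2
    refine ⟨c * (g ^ 3) ^ q, mul_mem hc (zpow_mem hg3 q), i, ?_⟩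
    rw [hk, zpow_add, zpow_mul, zpow_natCast, mul_assoc]
    norm_cast
  · intro y hy hy1 he
    have h1 : g ∈ centralizer ((P : Subgroup G) : Set G) := by
      rw [← hfrob y hy hy1]
      exact ⟨mem_centralizer_singleton_iff.mpr (mul_inv_eq_iff_eq_mul.mp he), hg⟩
    have h2 : centralizer ((P : Subgroup G) : Set G) = normalizer ((P : Subgroup G) : Set G) := by
      rw [← hcyc]
      exact (sup_eq_left.mpr (by rw [zpowers_le]; exact h1)).symm
    rw [h2, relIndex_self] at hCN
    omega

end Cfsg.Agent.H27
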