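import Cfsg.Agent.H26.MaxPair
import Cfsg.Agent.H26.Princ
import Cfsg.Agent.H14.PiCore

set_option autoImplicit false

/-! # Averaging idempotents and Brauer pairs -/

namespace Cfsg.Agent.H27

open MonoidAlgebra Cfsg.Agent.H26

variable {k : Type*} [Field k] {G : Type*} [Group G] [Finite G]

open Classical in
/-- The sum of the elements of the subgroup `K`. -/
noncomputable def sg (k : Type*) [Field k] (K : Subgroup G) : MonoidAlgebra k G :=
  MonoidAlgebra.ofCoeff (Finsupp.equivFunOnFinite.symm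
    (fun y : G => if y ∈ K then (1 : k) else 0))

open Classical in
theorem coeff_sg (K : Subgroup G) (y : G) :
    (sg k K).coeff y = if y ∈ K then (1 : k) else 0 := by
  unfold sg
  simp only [Finsupp.equivFunOnFinite_symm_apply_apply]

theorem isSup_sg (K : Subgroup G) : IsSup K (sg k K) := by
  classical
  intro x hx
  rw [coeff_sg, if_neg hx]

theorem isFx_sg {K H : Subgroup G} (h : H ≤ nz K) : IsFx H (sg k K) := by
  classical
  rw [isFx_iff_coeff]
  intro g hg x
  rw [coeff_sg, coeff_sg]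
  have := (Subgroup.mem_normalizer_iff.mp (h hg) x)
  by_cases hx : x ∈ K
  · rw [if_pos hx, if_pos (this.mp hx)]
  · rw [if_neg hx, if_neg (fun h => hx (this.mpr h))]

theorem single_mul_sg {K : Subgroup G} {x : G} (hx : x ∈ K) :
    single x (1 : k) * sg k K = sg k K := by
  classical
  let _ : Fintype G := Fintype.ofFinite G
  apply MonoidAlgebra.ext
  refine Finsupp.ext fun y => ?_
  rw [coeff_mul_fintype, Finset.sum_eq_single x]
  · rw [coeff_sg, coeff_sg, MonoidAlgebra.coeff_single, Finsupp.single_eq_same, one_mul]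
    by_cases hy : y ∈ K
    · rw [if_pos hy, if_pos (K.mul_mem (K.inv_mem hx) hy)]
    · rw [if_neg hy, if_neg (fun h => hy (by
        have := K.mul_mem hx h
        simpa using this))]
  · intro z _ hz
    rw [MonoidAlgebra.coeff_single, Finsupp.single_eq_of_ne (by tauto), zero_mul]
  · intro h; exact absurd (Finset.mem_univ _) h

theorem sg_eq_sum [Fintype G] (K : Subgroup G) [DecidablePred (· ∈ K)] :
    sg k K = ∑ x ∈ Finset.univ.filter (· ∈ K), single x (1 : k) := by
  classical
  apply MonoidAlgebra.ext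
  refine Finsupp.ext fun y => ?_
  rw [coeff_sg]
  simp only [MonoidAlgebra.coeff_sum, Finsupp.finset_sum_apply, MonoidAlgebra.coeff_single,
    Finsupp.single_apply, Finset.sum_ite_eq', Finset.mem_filter, Finset.mem_univ, true_and]
  by_cases hy : y ∈ K
  · rw [if_pos hy, if_pos hy]
  · rw [if_neg hy, if_neg hy]

theorem sg_mul_sg {K L : Subgroup G} (h : K ≤ L) :
    sg k K * sg k L = (Nat.card K : k) • sg k L := by
  classical
  let _ : Fintype G := Fintype.ofFinite G
  rw [sg_eq_sum K, Finset.sum_mul, Finset.sum_congr rfl (fun x hx => single_mul_sg (h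
    (Finset.mem_filter.mp hx).2)), Finset.sum_const, ← Nat.cast_smul_eq_nsmul k]
  congr 2
  rw [Nat.card_eq_fintype_card, Fintype.card_subtype]

/-- The averaging idempotent of the subgroup `K`. -/
noncomputable def av (k : Type*) [Field k] (K : Subgroup G) : MonoidAlgebra k G :=
  (Nat.card K : k)⁻¹ • sg k K

theorem isSup_av (K : Subgroup G) : IsSup K (av k K) := (isSup_sg K).smul _

theorem isFx_av {K H : Subgroup G} (h : H ≤ nz K) : IsFx H (av k K) := (isFx_sg h).smul _

theorem av_mem_Zc {K H : Subgroup G} (hK : K ≤ H) (h : H ≤ nz K) : av k K ∈ Zc k H :=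
  mem_Zc.mpr ⟨(isSup_av K).mono hK, isFx_av h⟩

theorem av_mul_av {K L : Subgroup G} (h : K ≤ L) (hK : (Nat.card K : k) ≠ 0) :
    av k K * av k L = av k L := by
  unfold av
  rw [smul_mul_assoc, mul_smul_comm, sg_mul_sg h, smul_smul, smul_smul]
  congr 1
  field_simp

theorem av_idem {K : Subgroup G} (hK : (Nat.card K : k) ≠ 0) :
    av k K * av k K = av k K := av_mul_av le_rfl hK

theorem cj_sg (g : G) (K : Subgroup G) : cj g (sg k K) = sg k (cg K g) := by
  classical
  apply MonoidAlgebra.ext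
  refine Finsupp.ext fun y => ?_
  rw [coeff_cj, coeff_sg, coeff_sg]
  by_cases h : y ∈ cg K g
  · rw [if_pos h, if_pos (mem_cg.mp h)]
  · rw [if_neg h, if_neg (fun h' => h (mem_cg.mpr h'))]

theorem cj_av (g : G) (K : Subgroup G) : cj g (av k K) = av k (cg K g) := by
  unfold av
  rw [map_smul, cj_sg, card_cg]

theorem aug_sg (K : Subgroup G) : augHom k G (sg k K) = (Nat.card K : k) := by
  classical
  let _ : Fintype G := Fintype.ofFinite G
  rw [augHom_apply]
  simp only [coeff_sg]
  rw [Finset.sum_ite, Finset.sum_const_zero, add_zero, Finset.sum_const, nsmul_eq_mul, mul_one]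
  congr 1
  rw [Nat.card_eq_fintype_card, Fintype.card_subtype]

theorem br_sg (P K : Subgroup G) : br P (sg k K) = sg k (K ⊓ cz P) := by
  classical
  apply MonoidAlgebra.ext
  refine Finsupp.ext fun y => ?_
  by_cases hy : y ∈ cz P
  · rw [coeff_br_of_mem _ hy, coeff_sg, coeff_sg]
    by_cases h : y ∈ K
    · rw [if_pos h, if_pos ⟨h, hy⟩]
    · rw [if_neg h, if_neg (fun h' => h h'.1)]
  · rw [coeff_br_of_notMem _ hy, coeff_sg, if_neg (fun h' => hy h'.2)]

variable {p : ℕ} [Fact p.Prime] [CharP k p]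

theorem br_av {P K : Subgroup G} (hP : IsPGroup p P) (hPK : P ≤ nz K) :
    br P (av k K) = av k (K ⊓ cz P) := by
  unfold av
  rw [map_smul, br_sg]
  congr 2
  rw [← aug_sg, ← aug_sg (k := k) (K ⊓ cz P), ← br_sg, aug_br hP (isFx_sg hPK)]

theorem card_ne_zero_iff (K : Subgroup G) : (Nat.card K : k) ≠ 0 ↔ ¬ p ∣ Nat.card K :=
  not_congr (CharP.cast_eq_zero_iff k p _)

/-! ### The `π'`-core of a subgroup, inside `G` -/

/-- `O_{π'}(H)`, inside `G`. -/
def pk (π : Set ℕ) (H : Subgroup G) : Subgroup G := (piCore {q | q ∉ π} H).map H.subtype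

/-- all prime divisors of the order of `K` are outside `π` -/
def PiP (π : Set ℕ) (K : Subgroup G) : Prop := ∀ q : ℕ, q.Prime → q ∣ Nat.card K → q ∉ π

theorem PiP.mono {π : Set ℕ} {K L : Subgroup G} (h : K ≤ L) (hL : PiP π L) : PiP π K :=
  fun q hq hd => hL q hq (hd.trans (Subgroup.card_dvd_of_le h))

theorem PiP.not_dvd {π : Set ℕ} {K : Subgroup G} (h : PiP π K) (hp : p ∈ π) :
    ¬ p ∣ Nat.card K := fun hd => h p Fact.out hd hp

theorem pk_le (π : Set ℕ) (H : Subgroup G) : pk π H ≤ H := Subgroup.map_subtype_le _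

theorem piP_pk (π : Set ℕ) (H : Subgroup G) : PiP π (pk π H) := by
  intro q hq hd
  have := H14.piCore_isPi {q | q ∉ π} H q hq
  apply this
  rwa [pk, Subgroup.card_map_of_injective H.subtype_injective] at hd

theorem le_pk {π : Set ℕ} {K H : Subgroup G} (hKH : K ≤ H) (hn : H ≤ nz K) (hK : PiP π K) :
    K ≤ pk π H := by
  intro x hx
  have h1 : (K.subgroupOf H).Normal := by
    constructor
    intro n hn' g
    rw [Subgroup.mem_subgroupOf] at hn' ⊢
    exact (Subgroup.mem_normalizer_iff.mp (hn g.2) _).mp hn'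
  have h2 : K.subgroupOf H ≤ piCore {q | q ∉ π} H := by
    apply H14.le_piCore h1
    intro q hq hd
    rw [Nat.card_congr (Subgroup.subgroupOfEquivOfLe hKH).toEquiv] at hd
    exact hK q hq hd
  exact ⟨⟨x, hKH hx⟩, h2 hx, rfl⟩

theorem mem_pk {π : Set ℕ} {H : Subgroup G} {x : G} (hx : x ∈ H) :
    x ∈ pk π H ↔ (⟨x, hx⟩ : H) ∈ piCore {q | q ∉ π} H := by
  constructor
  · rintro ⟨y, hy, rfl⟩
    exact hy
  · intro h
    exact ⟨_, h, rfl⟩

theorem le_nz_pk (π : Set ℕ) (H : Subgroup G) : H ≤ nz (pk π H) := by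
  intro g hg
  rw [Subgroup.mem_normalizer_iff]
  intro x
  constructor
  · rintro ⟨y, hy, rfl⟩
    exact ⟨⟨g, hg⟩ * y * ⟨g, hg⟩⁻¹, (piCore_normal _ H).conj_mem _ hy _, rfl⟩
  · rintro ⟨y, hy, hyx⟩
    refine ⟨⟨g, hg⟩⁻¹ * y * ⟨g, hg⟩, ?_, ?_⟩
    · have := (piCore_normal {q | q ∉ π} H).conj_mem y hy (⟨g, hg⟩ : H)⁻¹
      simpa using this
    · have : ((y : H) : G) = g * x * g⁻¹ := hyx
      simp [this, mul_assoc]

theorem cg_pk (π : Set ℕ) (H : Subgroup G) (g : G) : cg (pk π H) g = pk π (cg H g) := by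
  have key : ∀ (H : Subgroup G) (g : G), cg (pk π H) g ≤ pk π (cg H g) := by
    intro H g
    apply le_pk (cg_mono (pk_le π H) g)
    · intro x hx
      rw [Subgroup.mem_normalizer_iff]
      intro y
      simp only [mem_cg] at hx ⊢
      have := Subgroup.mem_normalizer_iff.mp (le_nz_pk π H hx) (g⁻¹ * y * g)
      rw [this]
      have e : g⁻¹ * x * g * (g⁻¹ * y * g) * (g⁻¹ * x * g)⁻¹ = g⁻¹ * (x * y * x⁻¹) * g := by group
      rw [e]
    · intro q hq hd
      rw [card_cg] at hd
      exact piP_pk π H q hq hd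
  apply le_antisymm (key H g)
  have := key (cg H g) g⁻¹
  rw [cg_cg, inv_mul_cancel] at this
  have e1 : cg H 1 = H := by ext x; simp [mem_cg]
  rw [e1, cg_le_iff, inv_inv] at this
  exact this

/-- The characteristic subgroup `O_{π'}(H)` is normalized by the normalizer of `H`. -/
theorem nz_le_nz_pk (π : Set ℕ) (H : Subgroup G) : nz H ≤ nz (pk π H) := by
  intro g hg
  apply mem_nz_of_cg_eq
  rw [cg_pk, cg_eq_of_mem_nz hg]

end Cfsg.Agent.H27
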