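import Cfsg.Agent.H27.PAct

set_option autoImplicit false

/-!
Invariant height zero characters of a block of a normal subgroup.
-/

namespace Cfsg.Agent.H27

open Cfsg Cfsg.Agent.H3 Cfsg.Agent.H11
open Cfsg.Agent.L (SylIn)
open scoped ComplexConjugate

variable {G : Type*} [Group G] [Fintype G] {p : ℕ} {M : Ideal AlgInt} {H : Subgroup G}

omit [Fintype G] in
theorem cjIrr_bijOn (hH : H.Normal) {b : Set (IrrCharacter H)} {L : Subgroup G}
    (hstab : ∀ x ∈ L, ∀ θ ∈ b, cjIrr hH x θ ∈ b) {x : G} (hx : x ∈ L) :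
    Set.BijOn (cjIrr hH x) b b := by
  refine ⟨fun θ hθ => hstab x hx θ hθ, ?_, ?_⟩
  · intro θ _ η _ h
    exact Subtype.ext (cj_injective hH x (congrArg Subtype.val h))
  · intro θ hθ
    refine ⟨cjIrr hH x⁻¹ θ, hstab _ (L.inv_mem hx) θ hθ, ?_⟩
    rw [← cjIrr_mul, inv_mul_cancel, cjIrr_one]

theorem blockCoeff_cj (hH : H.Normal) {b : Set (IrrCharacter H)} {L : Subgroup G}
    (hstab : ∀ x ∈ L, ∀ θ ∈ b, cjIrr hH x θ ∈ b) {x : G} (hx : x ∈ L) (h : H) :
    blockCoeff b (cjEquiv hH x h) = blockCoeff b h := by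
  unfold blockCoeff
  congr 1
  apply finsum_mem_eq_of_bijOn (cjIrr hH x) (cjIrr_bijOn hH hstab hx)
  intro θ _
  have : (cjIrr hH x θ : H → ℂ) 1 = (θ : H → ℂ) 1 := cj_one_apply hH x _
  rw [this, cjIrr_apply]

theorem exists_invariant_height_zero (hM : IsPModular p M) (hH : H.Normal)
    {b : Set (IrrCharacter H)} (hb : IsPBlock M b) {P : Subgroup G} (hP : IsPGroup p P)
    (hstab : ∀ x ∈ H ⊔ P, ∀ θ ∈ b, cjIrr hH x θ ∈ b) :
    ∃ θ ∈ b, blockHeight p b (θ : H → ℂ) = 0 ∧ ∀ x ∈ H ⊔ P, cj hH x (θ : H → ℂ) = θ := by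
  classical
  have hpr := hM.2.1.isPrime
  have hpp := hM.1
  have := Fact.mk hM.1
  have := Fintype.ofFinite H
  have := Fintype.ofFinite (ConjClasses H)
  have := Fintype.ofFinite (IrrCharacter H)
  obtain ⟨θ₀, hθ₀⟩ := isPBlock_nonempty hb
  let f : ConjClasses H → ℂ := fun C => blockCoeff b C.out * centralChar (θ₀ : H → ℂ) C.out
  have hsum : ∑ C, f C = 1 := by
    have h1 := omega_eq_sum (isCen_fIdem b) (irr_classFun θ₀.2)
    rw [omega_fIdem, if_pos hθ₀] at h1
    rw [h1]
    rfl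
  have hflr : ∀ C, MemLocalRing M (f C) := fun C => lr_mul (lr_blockCoeff hb _) (lr_centralChar θ₀.2 _)
  have hout : ∀ C : ConjClasses H, ConjClasses.mk C.out = C := fun C => Quotient.out_eq C
  have hfixex : ∃ C : ConjClasses H, ¬ MemLocalIdeal M (f C) ∧
      ∀ u : P, C.map (cjEquiv hH (u : G)).toMonoidHom = C := by
    let act := actClasses hH P
    by_contra hcon
    push Not at hcon
    have h1 := li_sum_of_fixed (A := P) (α := ConjClasses H) hM hP f hflr ?_ ?_
    · rw [hsum] at h1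
      exact not_li_one M h1
    · intro u C
      have hu : (u : G) ∈ H ⊔ P := Subgroup.mem_sup_right u.2
      have h2 : IsConj (cjEquiv hH (u : G) C.out) ((u • C).out) := by
        rw [← ConjClasses.mk_eq_mk_iff_isConj, hout]
        have h3 : u • C = C.map (cjEquiv hH (u : G)).toMonoidHom := rfl
        rw [h3]
        conv_rhs => rw [← hout C]
        rfl
      show MemLocalIdeal M (blockCoeff b (u • C).out * centralChar (θ₀ : H → ℂ) (u • C).out
        - blockCoeff b C.out * centralChar (θ₀ : H → ℂ) C.out)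
      rw [← blockCoeff_conj h2, blockCoeff_cj hH hstab hu, ← mul_sub,
        ← Cfsg.Agent.H11.centralChar_conj (irr_classFun θ₀.2) h2, ← centralChar_cj]
      apply li_mul_left (lr_blockCoeff hb _)
      exact isPBlock_sameBlock hb (hstab _ hu θ₀ hθ₀) hθ₀ _
    · intro C hC
      by_contra h2
      obtain ⟨u, hu⟩ := hcon C h2
      exact hu (hC u)
  obtain ⟨C, hC, hCfix⟩ := hfixex
  set x : H := C.out with hx
  have hex : ¬ MemLocalIdeal M (blockCoeff b x) := fun h =>
    hC (li_mul_right h (lr_centralChar θ₀.2 _))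
  have hωx : ¬ MemLocalIdeal M (centralChar (θ₀ : H → ℂ) x) := fun h =>
    hC (li_mul_left (lr_blockCoeff hb _) h)
  have hdef : IsDefectClass M b x := isDefectClass_of_mem hM hb hθ₀ hex hωx
  have hconj : ∀ u : P, IsConj (cjEquiv hH (u : G) x) x := by
    intro u
    rw [← ConjClasses.mk_eq_mk_iff_isConj]
    have h1 := hCfix u
    rw [← hout C] at h1
    rw [← hx] at h1
    exact h1
  -- the centralizer
  let Cx : Subgroup G := C1 (x : G) ⊓ (H ⊔ P)
  obtain ⟨D', hD'⟩ := Cfsg.Agent.L.exists_sylIn (p := p) (C1 x)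
  have hDle : D'.map H.subtype ≤ Cx := by
    rintro _ ⟨u, hu, rfl⟩
    refine ⟨?_, Subgroup.mem_sup_left u.2⟩
    show (u : G) ∈ C1 (x : G)
    rw [mem_C1]
    exact congrArg (fun z : H => (z : G)) (mem_C1.mp (hD'.le hu))
  obtain ⟨S, hS, hDS⟩ := Cfsg.Agent.L.exists_sylIn_ge (p := p) (hD'.isPGroup.map H.subtype) hDle
  have hDeq : D' = S.subgroupOf H := by
    apply hD'.eq_of_le
    · exact hS.isPGroup.comap_of_injective _ H.subtype_injective
    · intro u hu
      rw [Subgroup.mem_subgroupOf] at hu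
      have h1 := mem_C1.mp (hS.le hu).1
      rw [mem_C1]
      exact Subtype.ext h1
    · intro u hu
      rw [Subgroup.mem_subgroupOf]
      exact hDS ⟨u, hu, rfl⟩
  have hSL : S ≤ H ⊔ P := fun s hs => (hS.le hs).2
  have hsx : ∀ s ∈ S, cjEquiv hH s x = x := by
    intro s hs
    apply Subtype.ext
    show s * (x : G) * s⁻¹ = x
    rw [mem_C1.mp (hS.le hs).1]; group
  have hsD : ∀ s ∈ S, ∀ u ∈ D', cjEquiv hH s u ∈ D' := by
    intro s hs u hu
    rw [hDeq, Subgroup.mem_subgroupOf] at hu ⊢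
    exact S.mul_mem (S.mul_mem hs hu) (S.inv_mem hs)
  -- P is contained in H S
  have hPS : H ⊔ P ≤ H ⊔ S := by
    apply sup_le le_sup_left
    intro u hu
    let ψ : Cx →* G ⧸ H := (QuotientGroup.mk' H).comp Cx.subtype
    have hψp : IsPGroup p ψ.range := by
      have h1 : ψ.range ≤ P.map (QuotientGroup.mk' H) := by
        rintro _ ⟨c, rfl⟩
        have h2 : (c : G) ∈ H ⊔ P := c.2.2
        obtain ⟨h, hh, v, hv, hhv⟩ := (Subgroup.mem_sup_of_normal_left).mp h2
        refine ⟨v, hv, ?_⟩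
        show (QuotientGroup.mk' H) v = (QuotientGroup.mk' H) (c : G)
        rw [← hhv, map_mul]
        have : (QuotientGroup.mk' H) h = 1 := (QuotientGroup.eq_one_iff h).mpr hh
        rw [this, one_mul]
      exact (hP.map (QuotientGroup.mk' H)).to_le h1
    let S' : Sylow p ψ.range := (hS.toSylow).mapSurjective ψ.rangeRestrict_surjective
    have hS'top : (S' : Subgroup ψ.range) = ⊤ := by
      have h1 : IsPGroup p (⊤ : Subgroup ψ.range) := by
        have := hψp.of_equiv (Subgroup.topEquiv (G := ψ.range)).symm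
        exact this
      exact (S'.is_maximal' h1 le_top).symm
    obtain ⟨c, hc⟩ := isConj_iff.mp (hconj ⟨u, hu⟩)
    have hcC : (c : G) * u ∈ Cx := by
      refine ⟨?_, ?_⟩
      · show (c : G) * u ∈ C1 (x : G)
        rw [mem_C1]
        have h1 := congrArg (fun z : H => (z : G)) hc
        have h2 : (c : G) * (u * (x : G) * u⁻¹) * (c : G)⁻¹ = x := h1
        calc (c : G) * u * x = ((c : G) * (u * (x : G) * u⁻¹) * (c : G)⁻¹) * ((c : G) * u) := by group
          _ = x * ((c : G) * u) := by rw [h2]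
      · exact Subgroup.mul_mem _ (Subgroup.mem_sup_left c.2) (Subgroup.mem_sup_right hu)
    have h3 : ψ.rangeRestrict ⟨(c : G) * u, hcC⟩ ∈ (S' : Subgroup ψ.range) := by
      rw [hS'top]; trivial
    obtain ⟨s, hs, hs2⟩ := h3
    have hs' : (s : G) ∈ S := by
      have h4 : s ∈ ((hS.toSylow : Sylow p Cx) : Subgroup Cx) := hs
      rw [hS.toSylow_coe, Subgroup.mem_subgroupOf] at h4
      exact h4
    have h4 : (QuotientGroup.mk' H) (s : G) = (QuotientGroup.mk' H) ((c : G) * u) :=
      congrArg Subtype.val hs2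
    have h5 : (s : G)⁻¹ * ((c : G) * u) ∈ H := QuotientGroup.eq.mp h4
    have h6 : u = (c : G)⁻¹ * ((s : G) * ((s : G)⁻¹ * ((c : G) * u))) := by group
    rw [h6]
    exact Subgroup.mul_mem _ (Subgroup.mem_sup_left (H.inv_mem c.2))
      (Subgroup.mul_mem _ (Subgroup.mem_sup_right hs') (Subgroup.mem_sup_left h5))
  -- the averages
  have := Fintype.ofFinite D'
  let c : IrrCharacter H → ℂ := fun θ => (Nat.card D' : ℂ)⁻¹ * ∑ u : D', conj ((θ : H → ℂ) (x * u))
  have hD0 : (Nat.card D' : ℂ) ≠ 0 := by exact_mod_cast Nat.card_pos.ne'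
  have hH0 : (Nat.card H : ℂ) ≠ 0 := by exact_mod_cast Nat.card_pos.ne'
  have hclr : ∀ θ, MemLocalRing M (c θ) := by
    intro θ
    have hDx : D' ≤ C1 x⁻¹ := by
      intro u hu
      rw [mem_C1]
      have h1 := mem_C1.mp (hD'.le hu)
      calc u * x⁻¹ = x⁻¹ * (x * u) * x⁻¹ := by group
        _ = x⁻¹ * (u * x) * x⁻¹ := by rw [h1]
        _ = _ := by group
    have h1 := isIntegral_avg (irr_isChar θ.2) hDx
    have h2 : c θ = (Nat.card D' : ℂ)⁻¹ * ∑ u : D', (θ : H → ℂ) (x⁻¹ * u) := by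
      show (Nat.card D' : ℂ)⁻¹ * ∑ u : D', conj ((θ : H → ℂ) (x * u)) = _
      congr 1
      refine Fintype.sum_equiv (Equiv.inv D') _ _ (fun u => ?_)
      rw [← char_inv (irr_isChar θ.2), Equiv.inv_apply, Subgroup.coe_inv, mul_inv_rev]
      have h3 := mem_C1.mp (hDx (D'.inv_mem u.2))
      rw [h3]
    rw [h2]
    exact lr_int h1
  have hsumb : blockCoeff b x = ∑ θ : b, (((charDegree ((θ : IrrCharacter H) : H → ℂ) * Nat.card D' : ℕ) : ℂ)
      / (Nat.card H : ℂ)) * c θ := by
    have h1 : blockCoeff b x = ∑ u : D', blockCoeff b (x * u) := by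
      rw [← Finset.add_sum_erase _ _ (Finset.mem_univ (1 : D'))]
      rw [OneMemClass.coe_one, mul_one, Finset.sum_eq_zero, add_zero]
      intro u hu
      rw [Finset.mem_erase] at hu
      apply blockCoeff_eq_zero hM hb
      have hcomm : Commute (u : H) x := mem_C1.mp (hD'.le u.2)
      obtain ⟨k, hk⟩ := (IsPGroup.iff_orderOf.mp hD'.isPGroup) u
      have hk' : orderOf (u : H) = p ^ k := by rw [Subgroup.orderOf_coe]; exact hk
      by_contra h4
      have h5 : IsPPart p (x * (u : H)) u :=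
        ⟨x, hcomm.eq, hcomm, ⟨k, hk'⟩, isDefectClass_pRegular hM hb hdef⟩
      have h6 := (isPPart_eq_one_iff hM.1 h5).mpr h4
      exact hu.1 (Subtype.ext h6)
    rw [h1]
    unfold blockCoeff
    simp only [finsum_mem_irr]
    rw [← Finset.mul_sum, Finset.sum_comm, Finset.mul_sum]
    rw [Finset.sum_subtype (Finset.univ.filter (fun θ : IrrCharacter H => θ ∈ b)) (p := fun θ => θ ∈ b) (by simp)]
    apply Finset.sum_congr rfl
    intro θ _
    rw [← Finset.mul_sum]
    simp only [c]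
    push_cast
    rw [charDegree_cast (irr_isChar (θ : IrrCharacter H).2)]
    field_simp
  have hfact : ∀ θ ∈ b, (Nat.card H).factorization p
      ≤ (charDegree ((θ : IrrCharacter H) : H → ℂ) * Nat.card D').factorization p := by
    intro θ hθ
    rw [Nat.factorization_mul (charDegree_pos θ.2).ne' Nat.card_pos.ne', Finsupp.add_apply,
      sylIn_card hpp hD', Nat.factorization_pow, Finsupp.smul_apply, hpp.factorization_self, smul_eq_mul,
      mul_one, fact_index x]
    have h1 := sInf_le_fact (p := p) hθ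
    rw [sInf_degrees hM hb hdef] at h1
    omega
  -- the action of S
  have hSstab : ∀ s ∈ S, ∀ θ ∈ b, cjIrr hH s θ ∈ b := fun s hs => hstab s (hSL hs)
  let act : MulAction S b :=
    { smul := fun s θ => ⟨cjIrr hH (s : G)⁻¹ θ.1, hSstab _ (S.inv_mem s.2) _ θ.2⟩
      one_smul := fun θ => by
        apply Subtype.ext
        show cjIrr hH ((1 : S) : G)⁻¹ θ.1 = θ.1
        rw [OneMemClass.coe_one, inv_one, cjIrr_one]
      mul_smul := fun s t θ => by
        apply Subtype.ext
        show cjIrr hH ((s * t : S) : G)⁻¹ θ.1 = cjIrr hH (s : G)⁻¹ (cjIrr hH (t : G)⁻¹ θ.1)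
        rw [Subgroup.coe_mul, mul_inv_rev, cjIrr_mul] }
  have hfin : ∃ θ : b, (∀ s : S, s • θ = θ) ∧ ¬ MemLocalIdeal M ((((charDegree ((θ : IrrCharacter H) : H → ℂ)
      * Nat.card D' : ℕ) : ℂ) / (Nat.card H : ℂ)) * c θ) := by
    by_contra hcon
    push Not at hcon
    apply hex
    rw [hsumb]
    apply li_sum_of_fixed (A := S) hM hS.isPGroup
    · intro θ
      exact lr_mul (lr_natDiv hM (mul_ne_zero (charDegree_pos θ.1.2).ne' Nat.card_pos.ne') Nat.card_pos.ne'
        (hfact θ.1 θ.2)) (hclr _)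
    · intro s θ
      have h1 : ((s • θ : b) : IrrCharacter H) = cjIrr hH (s : G)⁻¹ θ.1 := rfl
      rw [h1, charDegree_cjIrr]
      have h2 : c (cjIrr hH (s : G)⁻¹ θ.1) = c θ.1 := by
        simp only [c]
        congr 1
        have hsi : (s : G)⁻¹ ∈ S := S.inv_mem s.2
        let e : D' ≃ D' :=
          { toFun := fun u => ⟨cjEquiv hH (s : G)⁻¹ u, hsD _ hsi u u.2⟩
            invFun := fun u => ⟨cjEquiv hH (s : G) u, hsD _ s.2 u u.2⟩
            left_inv := fun u => by
              apply Subtype.ext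
              show cjEquiv hH (s : G) (cjEquiv hH (s : G)⁻¹ (u : H)) = u
              rw [← cjEquiv_mul, mul_inv_cancel, cjEquiv_one]
            right_inv := fun u => by
              apply Subtype.ext
              show cjEquiv hH (s : G)⁻¹ (cjEquiv hH (s : G) (u : H)) = u
              rw [← cjEquiv_mul, inv_mul_cancel, cjEquiv_one] }
        refine Fintype.sum_equiv e _ _ (fun u => ?_)
        rw [cjIrr_apply, map_mul, hsx _ hsi]
        rfl
      rw [h2, sub_self]
      exact li_zero M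
    · intro θ hθ
      exact hcon θ hθ
  obtain ⟨θ, hθfix, hθ⟩ := hfin
  refine ⟨θ.1, θ.2, ?_, ?_⟩
  · have h1 : ¬ MemLocalIdeal M (((charDegree ((θ : IrrCharacter H) : H → ℂ)
        * Nat.card D' : ℕ) : ℂ) / (Nat.card H : ℂ)) := fun h => hθ (li_mul_right h (hclr _))
    rw [li_natDiv_iff hM (mul_ne_zero (charDegree_pos θ.1.2).ne' Nat.card_pos.ne') Nat.card_pos.ne', not_lt,
      Nat.factorization_mul (charDegree_pos θ.1.2).ne' Nat.card_pos.ne', Finsupp.add_apply,
      sylIn_card hpp hD', Nat.factorization_pow, Finsupp.smul_apply, hpp.factorization_self, smul_eq_mul,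
      mul_one, fact_index x] at h1
    unfold blockHeight
    rw [sInf_degrees hM hb hdef]
    omega
  · have h1 : H ⊔ S ≤ inertia hH (θ.1 : H → ℂ) := by
      apply sup_le (le_inertia hH (irr_classFun θ.1.2))
      intro s hs
      rw [mem_inertia]
      have h2 := hθfix ⟨s⁻¹, S.inv_mem hs⟩
      have h3 := congrArg (fun z : b => ((z : IrrCharacter H) : H → ℂ)) h2
      have h4 : cj hH (s⁻¹)⁻¹ (θ.1 : H → ℂ) = θ.1 := h3
      rwa [inv_inv] at h4
    intro y hy
    exact h1 (hPS hy)

end Cfsg.Agent.H27
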