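import Cfsg.Agent.H3.Berger1
import Cfsg.Agent.H3.Perm
import Cfsg.Agent.H27.Kernel
import Cfsg.Agent.H27.Util
import Cfsg.Agent.H25.Fitting
import Cfsg.Agent.H14.Conj
import Cfsg.Agent.H1.Chief

set_option autoImplicit false
set_option linter.style.haveILetI false

/-! # Garrison's theorem (Isaacs 12.19) -/

universe u

namespace Cfsg.Agent.H27

open Cfsg Cfsg.Agent.H3 Subgroup

section

variable {G : Type u} [Group G]

theorem vanish_off_core [Fintype G] {M : Subgroup G} [Fintype M] {χ : G → ℂ}
    (hχ : IsIrrCharacter G χ)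
    (h : ∀ ψ : IrrCharacter G,
      classInner (fun m : M => χ m) (fun m : M => (ψ : G → ℂ) m) ≠ 0 →
        ∀ m ∈ M, (ψ : G → ℂ) m = χ m) {m : G} (hm : m ∈ M) (h0 : χ m ≠ 0) :
    m ∈ M.normalCore := by
  classical
  haveI := Fintype.ofFinite (IrrCharacter G)
  have hG : (Nat.card G : ℂ) ≠ 0 := card_ne_zeroC
  have h1 : ∀ x ∈ M, indFun M (fun m : M => χ m) x =
      (∑ ψ : IrrCharacter G, classInner (fun m : M => χ m) (fun m : M => (ψ : G → ℂ) m)) * χ x := by
    intro x hx
    rw [classFun_expand_apply (indFun_classFun M _) x, Finset.sum_mul]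
    apply Finset.sum_congr rfl
    intro ψ _
    rw [frobenius_reciprocity M _ (irr_classFun ψ.2)]
    by_cases hne : classInner (fun m : M => χ m) (fun m : M => (ψ : G → ℂ) m) = 0
    · rw [hne, zero_mul, zero_mul]
    · rw [h ψ hne x hx]
  have h2 : (∑ ψ : IrrCharacter G,
      classInner (fun m : M => χ m) (fun m : M => (ψ : G → ℂ) m)) = (M.index : ℂ) := by
    have h3 := h1 1 (one_mem M)
    rw [indFun_one_apply] at h3
    exact (mul_right_cancel₀ (irr_one_ne_zero hχ) h3).symm
  have h3 := h1 m hm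
  rw [h2] at h3
  have h4 : indFun M (fun m : M => χ m) = indFun M (fun _ => 1) * χ := by
    rw [← indFun_mul_restrict M _ (irr_classFun hχ)]
    congr 1
    ext x
    rw [one_mul]
  rw [h4, Pi.mul_apply] at h3
  have h5 := mul_right_cancel₀ h0 h3
  have h6 := permChar_eq_indFun (G := G) (G ⧸ M) ((1 : G) : G ⧸ M)
  have h7 : MulAction.stabilizer G ((1 : G) : G ⧸ M) = M := MulAction.stabilizer_quotient M
  have h8 : permChar G (G ⧸ M) = indFun M (fun _ => 1) := by
    rw [h6]
    have : ∀ (A : Subgroup G), A = M → indFun A (fun _ => 1) = indFun M (fun _ => (1 : ℂ)) := by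
      rintro A rfl; rfl
    exact this _ h7
  rw [← h8, permChar] at h5
  have h9 : Nat.card (MulAction.fixedBy (G ⧸ M) m) = Nat.card (G ⧸ M) := by
    have : (Nat.card (MulAction.fixedBy (G ⧸ M) m) : ℂ) = (M.index : ℂ) := h5
    exact_mod_cast this
  have h10 : MulAction.fixedBy (G ⧸ M) m = Set.univ := by
    apply Set.eq_univ_of_forall
    intro x
    by_contra hx
    have h11 : (MulAction.fixedBy (G ⧸ M) m).ncard < (Set.univ : Set (G ⧸ M)).ncard := by
      apply Set.ncard_lt_ncard _ Set.finite_univ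
      exact ⟨Set.subset_univ _, fun hsub => hx (hsub (Set.mem_univ x))⟩
    rw [Set.ncard_univ] at h11
    change Nat.card (MulAction.fixedBy (G ⧸ M) m) < _ at h11
    omega
  intro b
  have h11 : ((b⁻¹ : G) : G ⧸ M) ∈ MulAction.fixedBy (G ⧸ M) m := by rw [h10]; trivial
  rw [MulAction.mem_fixedBy] at h11
  have h12 : ((m * b⁻¹ : G) : G ⧸ M) = ((b⁻¹ : G) : G ⧸ M) := h11
  have h13 := QuotientGroup.eq.mp h12.symm
  have : b⁻¹⁻¹ * (m * b⁻¹) = b * m * b⁻¹ := by group
  rwa [this] at h13

theorem garrison_aux [Finite G] (χ : IrrCharacter G) {K M : Subgroup G} [hKn : K.Normal]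
    (hK : ∀ g : G, g ∈ K ↔ (χ : G → ℂ) g = (χ : G → ℂ) 1) (hM : IsCoatom M) (hKM : ¬ K ≤ M)
    (hno : ¬ ∃ ψ : IrrCharacter G, charDegree (χ : G → ℂ) < charDegree (ψ : G → ℂ) ∧
      ∃ L : Subgroup G, (∀ g : G, g ∈ L ↔ (ψ : G → ℂ) g = (ψ : G → ℂ) 1) ∧ L < K) {m : G}
    (hm : m ∈ M) (h0 : (χ : G → ℂ) m ≠ 0) : m ∈ M.normalCore := by
  classical
  haveI := Fintype.ofFinite G
  haveI := Fintype.ofFinite M
  have hcov : ∀ (L : Subgroup G) (hL : L.Normal) (hLM : ¬ L ≤ M) (x : G),
      ∃ a ∈ M, a⁻¹ * x ∈ L := by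
    intro L hL hLM x
    have h1 : M ⊔ L = ⊤ := hM.2 _ (lt_of_le_of_ne le_sup_left (fun h => hLM (by
      rw [h]; exact le_sup_right)))
    have h2 : x ∈ M ⊔ L := by rw [h1]; exact mem_top x
    rw [← SetLike.mem_coe, Subgroup.mul_normal M L] at h2
    obtain ⟨a, ha, b, hb, rfl⟩ := h2
    exact ⟨a, ha, by simpa using hb⟩
  have hχM : IsIrrCharacter M (fun a : M => (χ : G → ℂ) a) := by
    apply isIrr_restrict_of_cover χ.2
    intro x
    obtain ⟨a, ha, h⟩ := hcov K hKn hKM x
    exact ⟨a, ha, (hK _).mp h⟩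
  refine vanish_off_core χ.2 ?_ hm h0
  intro ψ hne
  have hne' := classInner_ne_zero_symm hne
  by_contra hcon
  have hψM := isChar_restrict M (irr_isChar ψ.2)
  have hdeg : (ψ : G → ℂ) 1 ≠ (χ : G → ℂ) 1 := by
    intro h1
    apply hcon
    intro m hm
    exact congrFun (char_eq_of_degree hψM hχM hne' h1) ⟨m, hm⟩
  obtain ⟨k, hk⟩ := classInner_char_nat hψM (irr_isChar hχM)
  have h2 := char_mult_degree_le hψM hχM hk (m := charDegree (ψ : G → ℂ))
    (n := charDegree (χ : G → ℂ)) (charDegree_cast (irr_isChar ψ.2)).symm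
    (charDegree_cast (irr_isChar χ.2)).symm
  have hk0 : k ≠ 0 := by
    rintro rfl
    exact hne' (by rw [hk]; simp)
  have h3 : charDegree (χ : G → ℂ) ≤ charDegree (ψ : G → ℂ) :=
    (Nat.le_mul_of_pos_left _ (Nat.pos_of_ne_zero hk0)).trans h2
  have h4 : charDegree (χ : G → ℂ) < charDegree (ψ : G → ℂ) := by
    refine lt_of_le_of_ne h3 fun h => hdeg ?_
    rw [← charDegree_cast (irr_isChar ψ.2), ← charDegree_cast (irr_isChar χ.2), h]
  apply hno
  refine ⟨ψ, h4, charKer (irr_isChar ψ.2), fun g => mem_charKer _, ?_⟩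
  have hLM : charKer (irr_isChar ψ.2) ≤ M := by
    by_contra hLM
    have hψirr : IsIrrCharacter M (fun a : M => (ψ : G → ℂ) a) := by
      apply isIrr_restrict_of_cover ψ.2
      intro x
      obtain ⟨a, ha, h⟩ := hcov _ (charKer_normal (irr_isChar ψ.2)) hLM x
      exact ⟨a, ha, (mem_charKer _).mp h⟩
    by_cases heq : (fun a : M => (ψ : G → ℂ) a) = (fun a : M => (χ : G → ℂ) a)
    · exact hdeg (congrFun heq 1)
    · exact hne' (classInner_of_irr_ne hψirr hχM heq)
  have hLK : charKer (irr_isChar ψ.2) ≤ K := by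
    intro g hg
    have hgM := hLM hg
    rw [mem_charKer] at hg
    rw [hK]
    exact constituent_ker hψM hχM hne' (g := ⟨g, hgM⟩) hg
  exact lt_of_le_of_ne hLK fun h => hKM (h ▸ hLM)

/-- Garrison (Isaacs 12.19) -/
theorem garrison [Finite G] (χ : IrrCharacter G) (K : Subgroup G) [hKn : K.Normal]
    (hK : ∀ g : G, g ∈ K ↔ (χ : G → ℂ) g = (χ : G → ℂ) 1)
    (h : ¬ K ≤ fittingSubgroup G ∨
      (K = fittingSubgroup G ∧ Group.IsSolvable (G ⧸ K) ∧ K ≠ ⊤)) :
    ∃ ψ : IrrCharacter G, charDegree (χ : G → ℂ) < charDegree (ψ : G → ℂ) ∧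
      ∃ L : Subgroup G, (∀ g : G, g ∈ L ↔ (ψ : G → ℂ) g = (ψ : G → ℂ) 1) ∧ L < K := by
  classical
  haveI := Fintype.ofFinite G
  by_contra hno
  have hχ1 : (χ : G → ℂ) 1 ≠ 0 := irr_one_ne_zero χ.2
  rcases h with h | ⟨hKF, hs, hKt⟩
  · -- `K` is not nilpotent
    have hnil : ¬ Group.IsNilpotent K := fun hn => h (H25.le_fitting hKn hn)
    have h1 : ¬ ∀ (p : ℕ) (_ : Fact p.Prime) (P : Sylow p K), (P : Subgroup K).Normal := by
      intro hall
      exact hnil ((Group.isNilpotent_of_finite_tfae.out 0 3).mpr hall)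
    push Not at h1
    obtain ⟨p, hp, P, hP⟩ := h1
    set P' := (P : Subgroup K).map K.subtype with hP'
    have hsyl : H14.IsSylIn p P' K := H14.isSylIn_of_sylow P
    have hNt : normalizer (P' : Set G) ≠ ⊤ := by
      intro ht
      apply hP
      have h2 : P'.Normal := normalizer_eq_top_iff.mp ht
      have h3 : (P : Subgroup K) = P'.subgroupOf K := by
        rw [hP', Subgroup.subgroupOf, Subgroup.comap_map_eq_self_of_injective K.subtype_injective]
      rw [h3]
      infer_instance
    obtain ⟨M, hM, hNM⟩ := (eq_top_or_exists_le_coatom (normalizer (P' : Set G))).resolve_left hNt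
    have hfr : ∀ N : Subgroup G, N.Normal → H14.IsSylIn p P' N → ¬ N ≤ M := by
      intro N hN hsN hNM'
      apply hM.1
      rw [eq_top_iff]
      intro x _
      obtain ⟨n, hn, y, hy, rfl⟩ := H14.frattini_arg hsN (H := ⊤) le_top
        (by rw [normalizer_eq_top_iff.2 hN]) (mem_top x)
      exact mul_mem (hNM' hn) (hNM hy.2)
    have hKM : ¬ K ≤ M := hfr K hKn hsyl
    have hcore : ∀ x ∈ K ⊓ M, x ∈ M.normalCore := fun x hx =>
      garrison_aux χ hK hM hKM hno hx.2 (by rw [(hK x).mp hx.1]; exact hχ1)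
    have hN : (K ⊓ M.normalCore).Normal := inferInstance
    have hle : P' ≤ K ⊓ M.normalCore := by
      intro x hx
      exact ⟨hsyl.le hx, hcore x ⟨hsyl.le hx, hNM (le_normalizer hx)⟩⟩
    exact hfr _ hN (hsyl.mono hle inf_le_left) (inf_le_right.trans (normalCore_le M))
  · subst hKF
    set F := fittingSubgroup G with hF
    have hFnil : Group.IsNilpotent F := H25.fitting_nilpotent
    obtain ⟨E, hEn, hFE, -, hEmin⟩ := H1.exists_chief_above (G := G) (Z := F) (C := ⊤)
      inferInstance (lt_top_iff_ne_top.mpr hKt)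
    -- `E / F` is a `q`-group
    obtain ⟨q, hq, hEq⟩ : ∃ q : ℕ, q.Prime ∧ IsPGroup q (E.map (QuotientGroup.mk' F)) := by
      have h1 := H1.minimal_normal_solvable (G := G ⧸ F) (N := E.map (QuotientGroup.mk' F))
        (hEn.map _ (QuotientGroup.mk'_surjective F))
        (fun h => by
          rw [H1.map_mk'_eq_bot_iff] at h
          exact hFE.not_ge h)
        (fun K hK hKE => by
          by_cases hKb : K = ⊥
          · exact Or.inl hKb
          right
          have h2 : F ≤ K.comap (QuotientGroup.mk' F) := H1.le_comap_mk' F K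
          have h3 : F ≠ K.comap (QuotientGroup.mk' F) := by
            intro h
            apply hKb
            rw [← Subgroup.map_comap_eq_self_of_surjective (QuotientGroup.mk'_surjective F) K, ← h,
              H1.map_mk'_eq_bot_iff]
          have h4 : K.comap (QuotientGroup.mk' F) ≤ E := by
            have h5 := Subgroup.comap_mono (f := QuotientGroup.mk' F) hKE
            rwa [Subgroup.comap_map_eq_self (by rw [QuotientGroup.ker_mk']; exact hFE.le)] at h5
          have h6 := hEmin _ (hK.comap _) (lt_of_le_of_ne h2 h3) h4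
          rw [← h6, Subgroup.map_comap_eq_self_of_surjective (QuotientGroup.mk'_surjective F)])
        inferInstance
      obtain ⟨-, q, hq, h2, -⟩ := h1
      exact ⟨q, hq, h2⟩
    haveI := Fact.mk hq
    obtain ⟨Q, hQ⟩ := H14.exists_isSylIn (p := q) E
    have hEFQ : ∀ x ∈ E, ∃ f ∈ F, ∃ y ∈ Q, x = f * y := by
      have h1 : F ⊔ Q = E := by
        apply le_antisymm (sup_le hFE.le hQ.le)
        have h2 : ¬ q ∣ (F ⊔ Q).relIndex E := by
          intro h
          exact hQ.ndvd (h.trans (Subgroup.relIndex_dvd_of_le_left E le_sup_right))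
        have h3 : (F ⊔ Q).relIndex E ∣ F.relIndex E :=
          Subgroup.relIndex_dvd_of_le_left E le_sup_left
        have h4 : F.relIndex E = Nat.card (E.map (QuotientGroup.mk' F)) := by
          rw [Subgroup.relIndex, Subgroup.index]
          have e : (E ⧸ F.subgroupOf E) ≃ (E.map (QuotientGroup.mk' F)) := by
            have h5 : ((QuotientGroup.mk' F).subgroupMap E).ker = F.subgroupOf E := by
              ext x
              rw [MonoidHom.mem_ker, Subgroup.mem_subgroupOf]
              constructor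
              · intro h
                have := congrArg Subtype.val h
                have h6 : QuotientGroup.mk' F (x : G) = 1 := this
                rwa [QuotientGroup.mk'_apply, QuotientGroup.eq_one_iff] at h6
              · intro h
                apply Subtype.ext
                change QuotientGroup.mk' F (x : G) = 1
                rwa [QuotientGroup.mk'_apply, QuotientGroup.eq_one_iff]
            exact (QuotientGroup.quotientMulEquivOfEq h5.symm).toEquiv.trans
              (QuotientGroup.quotientKerEquivOfSurjective _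
                ((QuotientGroup.mk' F).subgroupMap_surjective E)).toEquiv
          exact Nat.card_congr e
        obtain ⟨n, hn⟩ := hEq.exists_card_eq
        rw [h4, hn] at h3
        obtain ⟨j, -, hj⟩ := (Nat.dvd_prime_pow hq).mp h3
        have h5 : j = 0 := by
          by_contra hj0
          exact h2 (hj ▸ dvd_pow_self q hj0)
        rw [h5, pow_zero] at hj
        exact Subgroup.relIndex_eq_one.mp hj
      intro x hx
      rw [← h1, ← SetLike.mem_coe, Subgroup.normal_mul F Q] at hx
      obtain ⟨f, hf, y, hy, rfl⟩ := hx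
      exact ⟨f, hf, y, hy, rfl⟩
    have hNt : normalizer (Q : Set G) ≠ ⊤ := by
      intro ht
      have h2 : Q.Normal := normalizer_eq_top_iff.mp ht
      have h3 : Q ≤ F := H25.le_fitting h2 hQ.pgroup.isNilpotent
      apply hFE.not_ge
      intro x hx
      obtain ⟨f, hf, y, hy, rfl⟩ := hEFQ x hx
      exact mul_mem hf (h3 hy)
    obtain ⟨M, hM, hNM⟩ := (eq_top_or_exists_le_coatom (normalizer (Q : Set G))).resolve_left hNt
    have hfr : ∀ N : Subgroup G, N.Normal → H14.IsSylIn q Q N → ¬ N ≤ M := by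
      intro N hN hsN hNM'
      apply hM.1
      rw [eq_top_iff]
      intro x _
      obtain ⟨n, hn, y, hy, rfl⟩ := H14.frattini_arg hsN (H := ⊤) le_top
        (by rw [normalizer_eq_top_iff.2 hN]) (mem_top x)
      exact mul_mem (hNM' hn) (hNM hy.2)
    have hQM : Q ≤ M := le_normalizer.trans hNM
    have hFM : ¬ F ≤ M := by
      intro hle
      apply hfr E hEn hQ
      intro x hx
      obtain ⟨f, hf, y, hy, rfl⟩ := hEFQ x hx
      exact mul_mem (hle hf) (hQM hy)
    have hcore : ∀ x ∈ M, (χ : G → ℂ) x ≠ 0 → x ∈ M.normalCore := fun x hx hx0 =>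
      garrison_aux χ hK hM hFM hno hx hx0
    by_cases hN : M.normalCore ⊓ E ≤ F
    · -- `χ` vanishes on `E \ F`
      have h1 : ∀ x ∈ E, x ∉ F → (χ : G → ℂ) x = 0 := by
        intro x hx hxF
        obtain ⟨f, hf, y, hy, rfl⟩ := hEFQ x hx
        have hyF : y ∉ F := fun h => hxF (mul_mem hf h)
        rw [char_ker_mul (irr_isChar χ.2) ((hK f).mp hf)]
        by_contra hy0
        exact hyF (hN ⟨hcore y (hQM hy) hy0, hQ.le hy⟩)
      have h2 := irr_sum_normal_eq χ.2 E 1
      rw [if_neg] at h2
      · simp only [mul_one] at h2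
        have h3 : ∑ n : E, (χ : G → ℂ) n = ∑ n : E, if (n : G) ∈ F then (χ : G → ℂ) 1 else 0 := by
          apply Finset.sum_congr rfl
          intro n _
          split_ifs with hn
          · exact (hK _).mp hn
          · exact h1 n n.2 hn
        rw [h3, ← Finset.sum_filter, Finset.sum_const, nsmul_eq_mul] at h2
        rcases mul_eq_zero.mp h2 with h4 | h4
        · have h5 : (Finset.univ.filter fun n : E => (n : G) ∈ F).card = 0 := by exact_mod_cast h4
          rw [Finset.card_eq_zero, Finset.filter_eq_empty_iff] at h5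
          exact h5 (Finset.mem_univ (1 : E)) (one_mem F)
        · exact hχ1 h4
      · intro hall
        apply hFE.not_ge
        intro x hx
        exact (hK x).mpr (hall x hx)
    · -- `E = F (core M ∩ E)`
      have hNn : (M.normalCore ⊓ E ⊔ F).Normal := inferInstance
      have h1 : M.normalCore ⊓ E ⊔ F = E :=
        hEmin _ hNn (lt_of_le_of_ne le_sup_right (fun h => hN (by rw [h]; exact le_sup_left)))
          (sup_le inf_le_right hFE.le)
      -- `M ∩ F` is normal
      have h2 : (M ⊓ F).Normal := by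
        rw [← normalizer_eq_top_iff]
        have hnc : NormalizerCondition F := Group.normalizerCondition_of_isNilpotent
        have hlt : M.subgroupOf F < ⊤ := by
          rw [lt_top_iff_ne_top, Ne, Subgroup.subgroupOf_eq_top]
          exact hFM
        have h3 := hnc _ hlt
        obtain ⟨x, hx, hxM⟩ := Set.exists_of_ssubset h3
        have hxM' : (x : G) ∉ M := fun h => hxM (Subgroup.mem_subgroupOf.mpr h)
        have hMn : M ≤ normalizer ((M ⊓ F : Subgroup G) : Set G) := by
          intro m hm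
          rw [Subgroup.mem_normalizer_iff]
          intro y
          constructor
          · rintro ⟨hy1, hy2⟩
            exact ⟨M.mul_mem (M.mul_mem hm hy1) (M.inv_mem hm), hKn.conj_mem y hy2 m⟩
          · rintro ⟨hy1, hy2⟩
            have e : y = m⁻¹ * (m * y * m⁻¹) * m⁻¹⁻¹ := by group
            rw [e]
            exact ⟨M.mul_mem (M.mul_mem (M.inv_mem hm) hy1) (M.inv_mem (M.inv_mem hm)),
              hKn.conj_mem _ hy2 m⁻¹⟩
        apply hM.2
        refine lt_of_le_of_ne hMn fun h => hxM' ?_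
        rw [h, Subgroup.mem_normalizer_iff]
        have hx' : x ∈ normalizer ((M.subgroupOf F : Subgroup F) : Set F) := hx
        rw [Subgroup.mem_normalizer_iff] at hx'
        intro y
        constructor
        · rintro ⟨hy1, hy2⟩
          have h4 := (hx' ⟨y, hy2⟩).mp (Subgroup.mem_subgroupOf.mpr hy1)
          exact ⟨Subgroup.mem_subgroupOf.mp h4, F.mul_mem (F.mul_mem x.2 hy2) (F.inv_mem x.2)⟩
        · rintro ⟨hy1, hy2⟩
          have hyF : y ∈ F := by
            have := hKn.conj_mem _ hy2 (x : G)⁻¹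
            have e : (x : G)⁻¹ * (x * y * (x : G)⁻¹) * (x : G)⁻¹⁻¹ = y := by group
            rwa [e] at this
          have h4 := (hx' ⟨y, hyF⟩).mpr (Subgroup.mem_subgroupOf.mpr hy1)
          exact ⟨Subgroup.mem_subgroupOf.mp h4, hyF⟩
      have h3 : (M.normalCore ⊓ E ⊔ M ⊓ F).Normal := inferInstance
      have h4 : M.normalCore ⊓ E ⊔ M ⊓ F ≤ M :=
        sup_le (inf_le_left.trans (normalCore_le M)) inf_le_left
      have h5 : Q ≤ M.normalCore ⊓ E ⊔ M ⊓ F := by
        intro x hx
        have h6 := hQ.le hx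
        rw [← h1, ← SetLike.mem_coe, Subgroup.normal_mul _ F] at h6
        obtain ⟨n, hn, f, hf, rfl⟩ := h6
        have hfM : f ∈ M := by
          have h7 : n⁻¹ * (n * f) ∈ M := mul_mem (inv_mem (normalCore_le M hn.1)) (hQM hx)
          rwa [inv_mul_cancel_left] at h7
        exact mul_mem (mem_sup_left hn) (mem_sup_right ⟨hfM, hf⟩)
      have h6 : M.normalCore ⊓ E ⊔ M ⊓ F ≤ E := sup_le inf_le_right (inf_le_right.trans hFE.le)
      exact hfr _ h3 (hQ.mono h5 h6) h4

end

end Cfsg.Agent.H27
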