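import Cfsg.Agent.H27.Garr

set_option autoImplicit false
set_option linter.style.haveILetI false

/-! # The nilpotent length is at most the number of character degrees -/

universe u

namespace Cfsg.Agent.H27

open Cfsg Cfsg.Agent.H3 Subgroup

/-- the factor `B / A` is nilpotent -/
def NQ {G : Type u} [Group G] (A B : Subgroup G) : Prop :=
  ∀ _ : (A.subgroupOf B).Normal, Group.IsNilpotent (↥B ⧸ A.subgroupOf B)

/-- a normal series of length `m` with nilpotent factors -/
def NilLen (G : Type u) [Group G] (m : ℕ) : Prop :=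
  ∃ N : ℕ → Subgroup G, N 0 = ⊥ ∧ N m = ⊤ ∧ Monotone N ∧ (∀ i, (N i).Normal) ∧
    ∀ i, NQ (N i) (N (i + 1))

section

variable {G : Type u} [Group G]

theorem NQ.comap {F : Subgroup G} [F.Normal] {A B : Subgroup (G ⧸ F)}
    (hn : (A.subgroupOf B).Normal) (h : NQ A B) :
    NQ (A.comap (QuotientGroup.mk' F)) (B.comap (QuotientGroup.mk' F)) := by
  intro hn'
  set π := QuotientGroup.mk' F
  let f : ↥(B.comap π) →* (↥B ⧸ A.subgroupOf B) :=
    (QuotientGroup.mk' (A.subgroupOf B)).comp (π.subgroupComap B)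
  have hker : f.ker = (A.comap π).subgroupOf (B.comap π) := by
    ext x
    rw [MonoidHom.mem_ker, Subgroup.mem_subgroupOf, Subgroup.mem_comap]
    change QuotientGroup.mk' (A.subgroupOf B) (π.subgroupComap B x) = 1 ↔ _
    rw [QuotientGroup.mk'_apply, QuotientGroup.eq_one_iff, Subgroup.mem_subgroupOf]
    rfl
  have hsurj : Function.Surjective f := by
    apply (QuotientGroup.mk'_surjective _).comp
    exact MonoidHom.subgroupComap_surjective_of_surjective π B (QuotientGroup.mk'_surjective F)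
  have e := (QuotientGroup.quotientMulEquivOfEq hker.symm).trans
    (QuotientGroup.quotientKerEquivOfSurjective f hsurj)
  exact (Group.isNilpotent_congr e).mpr (h hn)

theorem NilLen.of_quotient {F : Subgroup G} [F.Normal] (hF : Group.IsNilpotent F) {m : ℕ}
    (h : NilLen (G ⧸ F) m) : NilLen G (m + 1) := by
  obtain ⟨N, h0, h1, h2, h3, h4⟩ := h
  refine ⟨fun i => if i = 0 then ⊥ else (N (i - 1)).comap (QuotientGroup.mk' F), by simp, ?_, ?_,
    ?_, ?_⟩
  · simp [h1]
  · intro i j hij
    by_cases hi : i = 0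
    · simp [hi]
    · have hj : j ≠ 0 := by omega
      simp only [if_neg hi, if_neg hj]
      exact Subgroup.comap_mono (h2 (by omega))
  · intro i
    by_cases hi : i = 0
    · simp only [if_pos hi]; infer_instance
    · simp only [if_neg hi]
      exact (h3 _).comap _
  · intro i
    rcases Nat.eq_zero_or_pos i with rfl | hi
    · have e : (⊥ : Subgroup (G ⧸ F)).comap (QuotientGroup.mk' F) = F := QuotientGroup.ker_mk' F
      change NQ ⊥ ((N 0).comap (QuotientGroup.mk' F))
      rw [h0, e]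
      intro hn
      haveI := hF
      infer_instance
    · obtain ⟨j, rfl⟩ : ∃ j, i = j + 1 := ⟨i - 1, by omega⟩
      change NQ ((N j).comap (QuotientGroup.mk' F)) ((N (j + 1)).comap (QuotientGroup.mk' F))
      haveI := h3 j
      exact NQ.comap inferInstance (h4 j)

theorem NilLen.mono {m n : ℕ} (h : NilLen G m) (hmn : m ≤ n) : NilLen G n := by
  obtain ⟨N, h0, h1, h2, h3, h4⟩ := h
  exact ⟨N, h0, top_le_iff.mp (h1 ▸ h2 hmn), h2, h3, h4⟩

theorem NilLen.of_nilpotent (h : Group.IsNilpotent G) {m : ℕ} (hm : 1 ≤ m) : NilLen G m := by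
  refine ⟨fun i => if i = 0 then ⊥ else ⊤, by simp, by simp [show m ≠ 0 by omega], ?_, ?_, ?_⟩
  · intro i j hij
    by_cases hi : i = 0
    · simp [hi]
    · have hj : j ≠ 0 := by omega
      simp [hi, hj]
  · intro i
    by_cases hi : i = 0
    · simp only [if_pos hi]; infer_instance
    · simp only [if_neg hi]; infer_instance
  · intro i hn
    haveI := h
    infer_instance

theorem finite_cd (G : Type u) [Group G] [Finite G] :
    Finite {d : ℕ // ∃ χ : IrrCharacter G, charDegree (χ : G → ℂ) = d} := by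
  apply Finite.of_surjective
    (fun χ : IrrCharacter G => (⟨charDegree (χ : G → ℂ), χ, rfl⟩ :
      {d : ℕ // ∃ χ : IrrCharacter G, charDegree (χ : G → ℂ) = d}))
  rintro ⟨d, χ, rfl⟩
  exact ⟨χ, rfl⟩

/-- dropping the Fitting subgroup loses a degree -/
theorem card_cd_lt [Finite G] (hs : Group.IsSolvable G)
    (hF : fittingSubgroup G ≠ ⊤) :
    haveI := H25.fitting_normal (G := G)
    Nat.card {d : ℕ // ∃ χ : IrrCharacter (G ⧸ fittingSubgroup G),
      charDegree (χ : (G ⧸ fittingSubgroup G) → ℂ) = d} <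
      Nat.card {d : ℕ // ∃ χ : IrrCharacter G, charDegree (χ : G → ℂ) = d} := by
  classical
  haveI hFn := H25.fitting_normal (G := G)
  set F := fittingSubgroup G with hFdef
  haveI := Fintype.ofFinite (IrrCharacter (G ⧸ F))
  haveI := finite_cd G
  haveI := finite_cd (G ⧸ F)
  -- a character of `G / F` of maximal degree
  have hne : (Finset.univ : Finset (IrrCharacter (G ⧸ F))).Nonempty :=
    ⟨⟨_, isIrr_one⟩, Finset.mem_univ _⟩
  obtain ⟨ξ, -, hξ⟩ := Finset.exists_max_image Finset.univ
    (fun χ : IrrCharacter (G ⧸ F) => charDegree (χ : (G ⧸ F) → ℂ)) hne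
  have hinf : ∀ η : IrrCharacter (G ⧸ F), ∃ χ : IrrCharacter G,
      (∀ g : G, (χ : G → ℂ) g = (η : (G ⧸ F) → ℂ) (QuotientGroup.mk' F g)) := fun η =>
    ⟨⟨_, isIrr_comp_surjective η.2 (QuotientGroup.mk' F) (QuotientGroup.mk'_surjective F)⟩,
      fun g => rfl⟩
  have hdeg : ∀ (η : IrrCharacter (G ⧸ F)) (χ : IrrCharacter G),
      (∀ g : G, (χ : G → ℂ) g = (η : (G ⧸ F) → ℂ) (QuotientGroup.mk' F g)) →
      charDegree (χ : G → ℂ) = charDegree (η : (G ⧸ F) → ℂ) := by
    intro η χ h
    have h1 := h 1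
    rw [map_one, ← charDegree_cast (irr_isChar χ.2), ← charDegree_cast (irr_isChar η.2)] at h1
    exact_mod_cast h1
  obtain ⟨χ, hχ⟩ := hinf ξ
  set K := charKer (irr_isChar χ.2) with hKdef
  haveI hKn : K.Normal := charKer_normal (irr_isChar χ.2)
  have hFK : F ≤ K := by
    intro x hx
    have h1 : QuotientGroup.mk' F x = 1 := by
      rwa [QuotientGroup.mk'_apply, QuotientGroup.eq_one_iff]
    rw [mem_charKer, hχ, hχ, map_one, h1]
  have hG : ∃ ψ : IrrCharacter G, charDegree (χ : G → ℂ) < charDegree (ψ : G → ℂ) := by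
    obtain ⟨ψ, hψ, -⟩ := garrison χ K (fun g => mem_charKer _) (by
      by_cases h : K ≤ F
      · right
        have hKF : K = F := le_antisymm h hFK
        exact ⟨hKF, inferInstance, by rw [hKF]; exact hF⟩
      · exact Or.inl h)
    exact ⟨ψ, hψ⟩
  obtain ⟨ψ, hψ⟩ := hG
  -- the inclusion of degree sets is not surjective
  let f : {d : ℕ // ∃ χ : IrrCharacter (G ⧸ F), charDegree (χ : (G ⧸ F) → ℂ) = d} →
      {d : ℕ // ∃ χ : IrrCharacter G, charDegree (χ : G → ℂ) = d} := fun d =>
    ⟨d.1, by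
      obtain ⟨d, η, rfl⟩ := d
      obtain ⟨χ', hχ'⟩ := hinf η
      exact ⟨χ', hdeg η χ' hχ'⟩⟩
  have hf : Function.Injective f := by
    intro a b hab
    have h1 : (f a).1 = (f b).1 := congrArg Subtype.val hab
    exact Subtype.ext h1
  refine lt_of_le_of_ne (Nat.card_le_card_of_injective f hf) fun heq => ?_
  have hbij : Function.Bijective f := by
    rw [Nat.bijective_iff_injective_and_card]
    exact ⟨hf, heq⟩
  obtain ⟨⟨d, η, rfl⟩, hd⟩ := hbij.2 ⟨charDegree (ψ : G → ℂ), ψ, rfl⟩
  have h1 : charDegree (η : (G ⧸ F) → ℂ) = charDegree (ψ : G → ℂ) := congrArg Subtype.val hd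
  have h2 := hξ η (Finset.mem_univ _)
  rw [← hdeg ξ χ hχ] at h2
  omega

theorem nilLen_of_cd (n : ℕ) : ∀ (G : Type u) [Group G] [Finite G], Group.IsSolvable G →
    Nat.card {d : ℕ // ∃ χ : IrrCharacter G, charDegree (χ : G → ℂ) = d} ≤ n → NilLen G n := by
  induction n with
  | zero =>
    intro G _ _ hs h
    haveI := finite_cd G
    have h1 : 0 < Nat.card {d : ℕ // ∃ χ : IrrCharacter G, charDegree (χ : G → ℂ) = d} := by
      haveI : Nonempty {d : ℕ // ∃ χ : IrrCharacter G, charDegree (χ : G → ℂ) = d} :=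
        ⟨⟨_, ⟨_, isIrr_one⟩, rfl⟩⟩
      exact Nat.card_pos
    omega
  | succ n ih =>
    intro G _ _ hs h
    haveI hFn := H25.fitting_normal (G := G)
    by_cases hF : fittingSubgroup G = ⊤
    · have h1 : Group.IsNilpotent (fittingSubgroup G) := H25.fitting_nilpotent
      rw [hF] at h1
      exact NilLen.of_nilpotent ((Group.isNilpotent_congr Subgroup.topEquiv).mp h1) (by omega)
    · have h1 := card_cd_lt hs hF
      exact NilLen.of_quotient H25.fitting_nilpotent (ih _ inferInstance (by omega))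

end

end Cfsg.Agent.H27
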