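import Cfsg.Agent.H27.GlCan

set_option autoImplicit false

/-! # Values of canonical extensions, coprime cyclic case -/

universe u

namespace Cfsg.Agent.H27

open Subgroup Cfsg Cfsg.Agent.H3 Cfsg.Agent.H11
open scoped ComplexConjugate Pointwise

variable {Γ : Type u} [Group Γ]

/-- the coefficient at `γ` of `c ↦ X (c y)` -/
noncomputable def cf (C : Subgroup Γ) (X : Γ → ℂ) (γ : C → ℂ) (y : Γ) : ℂ :=
  (Nat.card C : ℂ)⁻¹ * ∑ᶠ c : C, X (c * y) * conj (γ c)

theorem cf_eq_inner {C : Subgroup Γ} [Fintype C] (X : Γ → ℂ) (γ : C → ℂ) (y : Γ) :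
    cf C X γ y = classInner (fun c : C => X (c * y)) γ := by
  unfold cf classInner
  rw [finsum_eq_sum_of_fintype]

namespace CopH

variable {K C : Subgroup Γ} {s : Γ}

theorem comm (h : CopH K C s) {c y : Γ} (hc : c ∈ C) (hy : y ∈ zpowers s) : Commute c y := by
  obtain ⟨m, rfl⟩ := mem_zpowers_iff.mp hy
  exact (show Commute s c from ((h.hC c).mp hc).2).symm.zpow_right m

theorem disj [Finite Γ] (h : CopH K C s) {y : Γ} (hy : y ∈ K) (hy' : y ∈ zpowers s) : y = 1 := by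
  have h1 : K ⊓ zpowers s = ⊥ := by
    apply inf_eq_bot_of_coprime
    rw [Nat.card_zpowers]; exact h.hcop
  have : y ∈ K ⊓ zpowers s := ⟨hy, hy'⟩
  rw [h1, mem_bot] at this
  exact this

theorem exists_dec (h : CopH K C s) (d : ↥(C ⊔ zpowers s)) :
    ∃ c ∈ C, ∃ y ∈ zpowers s, (d : Γ) = c * y := by
  have hd := d.2
  rw [← SetLike.mem_coe] at hd
  have h1 : zpowers s ≤ normalizer (C : Set Γ) := by
    rw [zpowers_le, mem_normalizer_iff]
    intro k
    have key : ∀ k, k ∈ C → s * k * s⁻¹ = k := by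
      intro k hk
      rw [((h.hC k).mp hk).2]; group
    constructor
    · intro hk; rw [key k hk]; exact hk
    · intro hk
      have h2 := key _ hk
      have h3 : s * k * s⁻¹ = k := by
        have h4 : s * (s * k * s⁻¹) * s⁻¹ = s * k * s⁻¹ := h2
        exact mul_left_cancel (mul_right_cancel h4)
      rw [h3] at hk; exact hk
  rw [Subgroup.coe_mul_of_right_le_normalizer_left _ _ h1] at hd
  obtain ⟨c, hc, y, hy, he⟩ := Set.mem_mul.mp hd
  exact ⟨c, hc, y, hy, he.symm⟩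

/-- projection of `C × ⟨s⟩` to `C` -/
theorem exists_proj [Finite Γ] (h : CopH K C s) : ∃ π : ↥(C ⊔ zpowers s) →* C,
    ∀ (d : ↥(C ⊔ zpowers s)) (c : C) (y : Γ), y ∈ zpowers s → (d : Γ) = c * y → π d = c := by
  have hex := h.exists_dec
  choose f hf g hg hfg using hex
  have huniq : ∀ c ∈ C, ∀ y ∈ zpowers s, ∀ c' ∈ C, ∀ y' ∈ zpowers s, c * y = c' * y' → c = c' := by
    intro c hc y hy c' hc' y' hy' he
    have h1 : c'⁻¹ * c = y' * y⁻¹ := by
      have : c'⁻¹ * (c * y) * y⁻¹ = c'⁻¹ * (c' * y') * y⁻¹ := by rw [he]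
      have e1 : c'⁻¹ * (c * y) * y⁻¹ = c'⁻¹ * c := by group
      have e2 : c'⁻¹ * (c' * y') * y⁻¹ = y' * y⁻¹ := by group
      rw [e1, e2] at this; exact this
    have h2 : c'⁻¹ * c = 1 := h.disj (h.C_le (C.mul_mem (C.inv_mem hc') hc)) (by
      rw [h1]; exact mul_mem hy' (inv_mem hy))
    exact (inv_mul_eq_one.mp h2).symm
  refine ⟨{ toFun := fun d => ⟨f d, hf d⟩, map_one' := ?_, map_mul' := ?_ }, ?_⟩
  · apply Subtype.ext
    exact huniq _ (hf 1) _ (hg 1) 1 C.one_mem 1 (one_mem _) (by rw [← hfg]; simp)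
  · intro a b
    apply Subtype.ext
    apply huniq _ (hf (a * b)) _ (hg (a * b)) _ (C.mul_mem (hf a) (hf b)) (g a * g b)
      (mul_mem (hg a) (hg b))
    rw [← hfg, Subgroup.coe_mul, hfg a, hfg b]
    have h1 : g a * f b = f b * g a := (h.comm (hf b) (hg a)).symm
    calc f a * g a * (f b * g b) = f a * (g a * f b) * g b := by group
      _ = f a * (f b * g a) * g b := by rw [h1]
      _ = _ := by group
  · intro d c y hy he
    apply Subtype.ext
    exact huniq _ (hf d) _ (hg d) _ c.2 y hy (by rw [← hfg]; exact he)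

theorem C'_normal (h : CopH K C s) : (C.subgroupOf (C ⊔ zpowers s)).Normal := by
  rw [Subgroup.normal_subgroupOf_iff_le_normalizer le_sup_left, sup_le_iff, zpowers_le]
  refine ⟨le_normalizer, ?_⟩
  rw [mem_normalizer_iff]
  intro k
  have key : ∀ k, k ∈ C → s * k * s⁻¹ = k := by
    intro k hk
    rw [((h.hC k).mp hk).2]; group
  constructor
  · intro hk; rw [key k hk]; exact hk
  · intro hk
    have h2 := key _ hk
    have h3 : s * k * s⁻¹ = k := mul_left_cancel (mul_right_cancel h2)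
    rw [h3] at hk; exact hk

theorem hab (C : Subgroup Γ) (s : Γ) [(C.subgroupOf (C ⊔ zpowers s)).Normal] :
    ∀ a b : ↥(C ⊔ zpowers s) ⧸ C.subgroupOf (C ⊔ zpowers s), a * b = b * a := by
  have hcycD : IsCyclic (↥(C ⊔ zpowers s) ⧸ C.subgroupOf (C ⊔ zpowers s)) :=
    comm_of_gen (CycH.D_gen C s)
  letI := IsCyclic.commGroup (α := ↥(C ⊔ zpowers s) ⧸ C.subgroupOf (C ⊔ zpowers s))
  exact fun a b => mul_comm a b

theorem cf_eq_av' [Fintype Γ] (h : CopH K C s) (X : Γ → ℂ) (γ : C → ℂ)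
    {π : ↥(C ⊔ zpowers s) →* C}
    (hπ : ∀ (d : ↥(C ⊔ zpowers s)) (c : C) (y : Γ), y ∈ zpowers s → (d : Γ) = c * y → π d = c)
    (y : ↥(C ⊔ zpowers s)) (hy : (y : Γ) ∈ zpowers s) :
    cf C X γ y = av' (C.subgroupOf (C ⊔ zpowers s)) y
      (fun g => X g * conj (γ (π g))) := by
  unfold cf av'
  rw [Nat.card_congr (subgroupOfEquivOfLe (le_sup_left : C ≤ C ⊔ zpowers s)).toEquiv]
  congr 1
  symm
  refine finsum_eq_of_bijective _
    (subgroupOfEquivOfLe (le_sup_left : C ≤ C ⊔ zpowers s)).bijective (fun n => ?_)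
  have h1 : π (n * y) = subgroupOfEquivOfLe (le_sup_left : C ≤ C ⊔ zpowers s) n :=
    hπ _ _ y hy rfl
  show X ((n : Γ) * y) * conj (γ (π (n * y))) = _
  rw [h1]
  rfl

theorem irr_proj [Fintype Γ] (_h : CopH K C s) (γ : IrrCharacter C)
    {π : ↥(C ⊔ zpowers s) →* C}
    (hπ : ∀ (d : ↥(C ⊔ zpowers s)) (c : C) (y : Γ), y ∈ zpowers s → (d : Γ) = c * y → π d = c) :
    IsIrrCharacter _ (fun d => (γ : C → ℂ) (π d)) := by
  apply isIrr_comp_surjective γ.2 π
  intro c
  exact ⟨⟨c, mem_sup_left c.2⟩, hπ _ c 1 (one_mem _) (by simp)⟩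

/-- The coefficient is a character of `⟨s⟩`. -/
theorem cf_formula [Fintype Γ] (h : CopH K C s) {X : Γ → ℂ} (hX : IsCharacter Γ X)
    (γ : IrrCharacter C) [Fintype (zpowers s →* ℂˣ)] : ∃ (n : (zpowers s →* ℂˣ) → ℕ),
      ∀ y : zpowers s, cf C X γ (y : Γ) = ∑ l : zpowers s →* ℂˣ, (l y : ℂ) * n l := by
  classical
  haveI := h.C'_normal
  have := Fintype.ofFinite ↥(C ⊔ zpowers s)
  have hab := CopH.hab C s
  obtain ⟨π, hπ⟩ := h.exists_proj
  haveI : Finite ((↥(C ⊔ zpowers s) ⧸ C.subgroupOf (C ⊔ zpowers s)) →* ℂˣ) := finite_dual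
  have := Fintype.ofFinite ((↥(C ⊔ zpowers s) ⧸ C.subgroupOf (C ⊔ zpowers s)) →* ℂˣ)
  obtain ⟨n, hn⟩ := pair_formula (N := C.subgroupOf (C ⊔ zpowers s)) hab
    (isChar_restrict (C ⊔ zpowers s) hX) (h.irr_proj γ hπ)
  have hle : zpowers s ≤ C ⊔ zpowers s := le_sup_right
  let q : zpowers s →* (↥(C ⊔ zpowers s) ⧸ C.subgroupOf (C ⊔ zpowers s)) :=
    (QuotientGroup.mk' _).comp (inclusion hle)
  have hq : Function.Bijective q := by
    constructor
    · rw [injective_iff_map_eq_one]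
      intro y hy
      have h1 : (inclusion hle y) ∈ C.subgroupOf (C ⊔ zpowers s) :=
        (QuotientGroup.eq_one_iff _).mp hy
      rw [mem_subgroupOf] at h1
      exact Subtype.ext (h.disj (h.C_le h1) y.2)
    · intro a
      obtain ⟨d, rfl⟩ := QuotientGroup.mk_surjective a
      obtain ⟨c, hc, y, hy, hd⟩ := h.exists_dec d
      refine ⟨⟨y, hy⟩, ?_⟩
      show ((inclusion hle ⟨y, hy⟩ : ↥(C ⊔ zpowers s)) : _ ⧸ C.subgroupOf (C ⊔ zpowers s)) = d
      rw [QuotientGroup.eq, mem_subgroupOf]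
      show y⁻¹ * (d : Γ) ∈ C
      rw [hd, (h.comm hc hy).eq, inv_mul_cancel_left]
      exact hc
  let e := MulEquiv.ofBijective q hq
  refine ⟨fun l => n (l.comp e.symm.toMonoidHom), ?_⟩
  intro y
  have h1 := h.cf_eq_av' X γ hπ ⟨y, mem_sup_right y.2⟩ y.2
  have h2 := hn ⟨y, mem_sup_right y.2⟩
  rw [h1, h2]
  refine Fintype.sum_bijective (fun l => l.comp e.toMonoidHom) ?_ _ _ ?_
  · refine Function.bijective_iff_has_inverse.mpr ⟨fun l => l.comp e.symm.toMonoidHom, ?_, ?_⟩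
    · intro l; ext a; simp
    · intro l; ext a; simp
  · intro l
    have e1 : (l.comp e.toMonoidHom).comp e.symm.toMonoidHom = l := by ext a; simp
    show _ = (((l.comp e.toMonoidHom) y : ℂˣ) : ℂ) *
      (n ((l.comp e.toMonoidHom).comp e.symm.toMonoidHom) : ℂ)
    rw [e1]
    rfl

theorem cf_galSeq [Fintype Γ] (h : CopH K C s) {X : Γ → ℂ} (hX : IsCharacter Γ X)
    (γ : IrrCharacter C) : IsGalSeq (orderOf s) (fun j => cf C X γ (s ^ j)) := by
  classical
  haveI : Finite (zpowers s →* ℂˣ) := finite_dual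
  have := Fintype.ofFinite (zpowers s →* ℂˣ)
  obtain ⟨n, hn⟩ := h.cf_formula hX γ
  have h1 : (fun j => cf C X γ (s ^ j)) = fun j =>
      ∑ l : zpowers s →* ℂˣ, (linIrr l : zpowers s → ℂ) ((⟨s, mem_zpowers s⟩ : zpowers s) ^ j) *
        (n l : ℂ) := by
    funext j
    exact hn (⟨s, mem_zpowers s⟩ ^ j)
  rw [h1]
  apply IsGalSeq.sum
  intro l _
  apply IsGalSeq.mul _ (IsGalSeq.natCast _)
  exact IsGalSeq.char (irr_isChar (linIrr l).2) (orderOf_pos s).ne'
    (Subtype.ext (pow_orderOf_eq_one s))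

section

variable [Fintype Γ] (h : CopH K C s) {X : Γ → ℂ}

theorem hab' (h : CopH K C s) [K.Normal] : ∀ a b : Γ ⧸ K, a * b = b * a := by
  have hcyc : IsCyclic (Γ ⧸ K) := comm_of_gen h.hgen
  letI := IsCyclic.commGroup (α := Γ ⧸ K)
  exact fun a b => mul_comm a b

/-- norm one on the coset `C s` -/
theorem norm_one (h : CopH K C s) (hX : IsIrrCharacter Γ X)
    (hXK : IsIrrCharacter K (fun k : K => X k)) :
    av' C s (fun g => X g * conj (X g)) = 1 := by
  haveI := h.Kn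
  rw [← h.iso (fun g => X g * conj (X g)) (fun u g => by rw [irr_classFun hX])]
  exact av'_self h.hab' _ hX hXK

theorem classFun_coset (h : CopH K C s) (hX : IsClassFunction Γ X) {y : Γ} (hy : y ∈ zpowers s) :
    IsClassFunction C (fun c : C => X (c * y)) := by
  intro c g
  show X ((g * c * g⁻¹ : C) * y) = X (c * y)
  have e : ((g * c * g⁻¹ : C) : Γ) * y = g * (c * y) * (g : Γ)⁻¹ := by
    rw [Subgroup.coe_mul, Subgroup.coe_mul, Subgroup.coe_inv]
    have h1 : (g : Γ)⁻¹ * y = y * (g : Γ)⁻¹ := (h.comm (C.inv_mem g.2) hy).eq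
    rw [mul_assoc ((g : Γ) * c), h1]; group
  rw [e]
  exact hX _ _

theorem exists_cf_ne (h : CopH K C s) (hX : IsIrrCharacter Γ X)
    (hXK : IsIrrCharacter K (fun k : K => X k)) : ∃ γ : IrrCharacter C, cf C X γ s ≠ 0 := by
  classical
  have := Fintype.ofFinite C
  by_contra hcon
  push Not at hcon
  have h1 : (fun c : C => X (c * s)) = 0 := by
    apply classFun_ext_inner (h.classFun_coset (irr_classFun hX) (mem_zpowers s)) classFun_zero
    intro γ
    rw [← cf_eq_inner, hcon, classInner_zero_left]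
  have h2 := h.norm_one hX hXK
  rw [av'_eq_sum, Finset.sum_eq_zero, mul_zero] at h2
  · exact zero_ne_one h2
  · intro c _
    have := congrFun h1 c
    simp only [Pi.zero_apply] at this
    rw [this, zero_mul]

theorem av'_irr_self {C : Subgroup Γ} (π : Γ → C) (γ : IrrCharacter C) (s : Γ)
    (hπ : ∀ c : C, π (c * s) = c) :
    av' C s (fun g => (γ : C → ℂ) (π g) * conj ((γ : C → ℂ) (π g))) = 1 := by
  classical
  have := Fintype.ofFinite C
  rw [av'_eq_sum]
  simp only [hπ]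
  exact classInner_self_of_irr γ.2

theorem cf_le_one (h : CopH K C s) (hX : IsIrrCharacter Γ X)
    (hXK : IsIrrCharacter K (fun k : K => X k)) (γ : IrrCharacter C) :
    ‖cf C X γ s‖ ≤ 1 ∧ (‖cf C X γ s‖ = 1 → ∀ c : C, X (c * s) = cf C X γ s * (γ : C → ℂ) c) := by
  classical
  let π : Γ → C := fun g => if hg : g * s⁻¹ ∈ C then ⟨g * s⁻¹, hg⟩ else 1
  have hπ : ∀ c : C, π (c * s) = c := by
    intro c
    have e : (c : Γ) * s * s⁻¹ = c := by group
    show (if hg : (c : Γ) * s * s⁻¹ ∈ C then (⟨(c : Γ) * s * s⁻¹, hg⟩ : C) else 1) = c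
    rw [dif_pos (by rw [e]; exact c.2)]
    exact Subtype.ext e
  have e1 : cf C X γ s = av' C s (fun g => X g * conj ((γ : C → ℂ) (π g))) := by
    unfold cf av'
    congr 1
    apply finsum_congr
    intro c
    show _ = X (c * s) * conj ((γ : C → ℂ) (π (c * s)))
    rw [hπ]
  have h1 := h.norm_one hX hXK
  have h2 := av'_irr_self π γ s hπ
  rw [e1]
  refine ⟨norm_av'_le s X (fun g => (γ : C → ℂ) (π g)) h1 h2, fun hn c => ?_⟩
  have h3 := eq_of_norm_av' s X (fun g => (γ : C → ℂ) (π g)) h1 h2 hn c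
  simp only [hπ] at h3
  exact h3

theorem cf_norm (h : CopH K C s) (hX : IsIrrCharacter Γ X)
    (hXK : IsIrrCharacter K (fun k : K => X k)) (γ : IrrCharacter C) (hne : cf C X γ s ≠ 0) :
    ‖cf C X γ s‖ = 1 := by
  have h1 := (h.cf_galSeq (irr_isChar hX) γ).norm_eq_one (orderOf_pos s).ne' (m := 1)
    (Nat.coprime_one_left _) (by simpa using hne) (fun j hj => ((h.pow hj).cf_le_one hX hXK γ).1)
  simpa using h1

/-- integrality for canonical extensions -/
theorem cf_int (h : CopH K C s) {χ : IrrCharacter K} (hX : CanExt K χ X) (γ : IrrCharacter C) :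
    (∃ k : ℤ, cf C X γ s = k) ∧ ∀ j : ℕ, j.Coprime (orderOf s) → cf C X γ (s ^ j) = cf C X γ s := by
  haveI := h.Kn
  have hconst : ∀ j : ℕ, j.Coprime (orderOf s) → cf C X γ (s ^ j) = cf C X γ s := by
    intro j hj
    unfold cf
    congr 1
    apply finsum_congr
    intro c
    congr 1
    obtain ⟨m, h1, h2⟩ := Nat.chineseRemainder h.hcop 1 j
    have h3 : ((c : Γ) * s) ^ m = c * s ^ j := by
      rw [(h.comm c.2 (mem_zpowers s)).mul_pow]
      congr 1
      · have h4 : (⟨c, h.C_le c.2⟩ : K) ^ m = ⟨c, h.C_le c.2⟩ := by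
          conv_rhs => rw [← pow_one (⟨c, h.C_le c.2⟩ : K)]
          rw [pow_eq_pow_iff_modEq]
          exact h1.of_dvd (_root_.orderOf_dvd_natCard _)
        exact congrArg Subtype.val h4
      · rw [pow_eq_pow_iff_modEq]; exact h2
    have h4 : m.Coprime (Nat.card Γ) := by
      rw [← Subgroup.card_mul_index K, h.card_index]
      apply Nat.Coprime.mul_right
      · exact (Nat.ModEq.gcd_eq h1).trans (by simp)
      · exact (Nat.ModEq.gcd_eq h2).trans hj
    rw [← h3]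
    exact hX.pow h.hcop' h4 h1 _
  refine ⟨?_, hconst⟩
  obtain ⟨k, hk⟩ := (h.cf_galSeq (irr_isChar hX.irr) γ).int_of_const (orderOf_pos s).ne' (by
    intro m hm
    show cf C X γ (s ^ m) = cf C X γ (s ^ 1)
    rw [pow_one]
    exact hconst m (mem_cop.mp hm).2)
  simp only [pow_one] at hk
  exact ⟨k, hk⟩

theorem CanExt_irrK {χ : IrrCharacter K} (hX : CanExt K χ X) :
    IsIrrCharacter K (fun k : K => X k) := by
  have : (fun k : K => X k) = (χ : K → ℂ) := funext hX.res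
  rw [this]; exact χ.2

/-- Main result on values of the canonical extension. -/
theorem main (h : CopH K C s) {χ : IrrCharacter K} (hX : CanExt K χ X) :
    ∃ (β : IrrCharacter C) (ε : ℤ), (ε = 1 ∨ ε = -1) ∧ cf C X β s = ε ∧
      ∀ (c : C) (t : Γ), zpowers t = zpowers s → X (c * t) = ε * (β : C → ℂ) c := by
  obtain ⟨β, hβ⟩ := h.exists_cf_ne hX.irr (CanExt_irrK hX)
  have h1 := h.cf_norm hX.irr (CanExt_irrK hX) β hβ
  obtain ⟨⟨k, hk⟩, h3⟩ := h.cf_int hX β
  refine ⟨β, k, ?_, hk, ?_⟩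
  · rw [hk, Complex.norm_intCast] at h1
    have h2 : |k| = 1 := by exact_mod_cast h1
    exact (abs_eq zero_le_one).mp h2
  · intro c t ht
    have h4 : ∃ j : ℕ, j.Coprime (orderOf s) ∧ t = s ^ j := by
      have h5 : t ∈ zpowers s := by rw [← ht]; exact mem_zpowers t
      obtain ⟨j, hj⟩ := (mem_powers_iff_mem_zpowers.mpr h5)
      refine ⟨j, ?_, hj.symm⟩
      have h6 : orderOf t = orderOf s := by
        rw [← Nat.card_zpowers, ht, Nat.card_zpowers]
      have hj' : s ^ j = t := hj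
      rw [← hj', orderOf_pow] at h6
      have h7 : 0 < orderOf s := orderOf_pos s
      rw [Nat.Coprime, Nat.gcd_comm]
      by_contra hne
      have h8 : 0 < (orderOf s).gcd j := Nat.gcd_pos_of_pos_left _ h7
      have h9 : orderOf s / (orderOf s).gcd j < orderOf s := Nat.div_lt_self h7 (by omega)
      omega
    obtain ⟨j, hj, rfl⟩ := h4
    have h5 := ((h.pow hj).cf_le_one hX.irr (CanExt_irrK hX) β)
    have h6 : cf C X β (s ^ j) = k := by rw [h3 j hj, hk]
    have h7 := h5.2 (by rw [h3 j hj, h1]) c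
    rw [h7, h6]

end

end CopH

end Cfsg.Agent.H27
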