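import Cfsg.Agent.H27.GlCan2

set_option autoImplicit false

/-! # Values of canonical extensions: consequences -/

universe u

namespace Cfsg.Agent.H27

open Subgroup Cfsg Cfsg.Agent.H3 Cfsg.Agent.H11
open scoped ComplexConjugate Pointwise

variable {Γ : Type u} [Group Γ] {K C : Subgroup Γ} {s : Γ}

theorem inv_self (K : Subgroup Γ) (χ : IrrCharacter K) : Inv (K : Set Γ) K χ := by
  intro x hx k k' hk
  have : k' = (⟨x, hx⟩ : K) * k * (⟨x, hx⟩ : K)⁻¹ := Subtype.ext hk
  rw [this]
  exact irr_classFun χ.2 _ _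

/-- construct `CopH` -/
theorem copH_of {G S C : Subgroup Γ} [Finite Γ] (hnorm : ∀ s ∈ S, ∀ g ∈ G, s * g * s⁻¹ ∈ G)
    (hcop : (Nat.card G).Coprime (Nat.card S)) (htop : G ⊔ S = ⊤) (hcyc : IsCyclic S)
    (hC : C = G ⊓ Subgroup.centralizer (S : Set Γ)) :
    ∃ s : Γ, zpowers s = S ∧ CopH G C s := by
  obtain ⟨⟨s, hs⟩, hs'⟩ := hcyc.exists_generator
  have hz : zpowers s = S := by
    apply le_antisymm
    · rwa [zpowers_le]
    · intro y hy
      obtain ⟨m, hm⟩ := mem_zpowers_iff.mp (hs' ⟨y, hy⟩)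
      exact mem_zpowers_iff.mpr ⟨m, congrArg Subtype.val hm⟩
  refine ⟨s, hz, ?_, ?_, by rw [hz]; exact htop, ?_⟩
  · have h1 : S ≤ normalizer (G : Set Γ) := by
      intro y hy
      rw [mem_normalizer_iff]
      intro g
      refine ⟨hnorm y hy g, fun h => ?_⟩
      have := hnorm y⁻¹ (S.inv_mem hy) _ h
      have e : y⁻¹ * (y * g * y⁻¹) * y⁻¹⁻¹ = g := by group
      rwa [e] at this
    have h2 : (⊤ : Subgroup Γ) ≤ normalizer (G : Set Γ) := by
      rw [← htop, sup_le_iff]; exact ⟨le_normalizer, h1⟩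
    exact normalizer_eq_top_iff.mp (top_le_iff.mp h2)
  · rw [← Nat.card_zpowers, hz]; exact hcop
  · intro k
    rw [hC, mem_inf, mem_centralizer_iff]
    apply and_congr_right
    intro _
    constructor
    · intro h; exact h s hs
    · intro h y hy
      rw [SetLike.mem_coe, ← hz] at hy
      obtain ⟨m, rfl⟩ := mem_zpowers_iff.mp hy
      exact (show Commute s k from h).zpow_left m

theorem CopH.inv_univ (h : CopH K C s) [Finite Γ] {χ : IrrCharacter K}
    (hχ : Inv (zpowers s : Set Γ) K χ) : Inv (Set.univ) K χ := by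
  haveI := h.Kn
  have h1 := inv_sup (P := K) (Q := zpowers s) (G := K) le_normalizer le_normalizer_of_normal
    (inv_self K χ) hχ
  rw [h.hgen] at h1
  exact h1

theorem CopH.isFx (h : CopH K C s) : IsFx K (zpowers s) C := by
  intro x
  rw [h.hC]
  apply and_congr_right
  intro _
  constructor
  · intro hc t ht
    obtain ⟨m, rfl⟩ := mem_zpowers_iff.mp ht
    exact (show Commute s x from hc).zpow_left m
  · intro hc; exact hc s (mem_zpowers s)

theorem CopH.canExt_iff [Finite Γ] (h : CopH K C s) {χ : IrrCharacter K} {X : Γ → ℂ}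
    (hX : IsIrrCharacter Γ X) (hext : ∀ k : K, X k = (χ : K → ℂ) k)
    (hdet : (detOrder X).Coprime (Nat.card (zpowers s))) : CanExt K χ X :=
  ⟨hX, hext, by rw [h.card_index, ← Nat.card_zpowers]; exact hdet⟩

theorem CopH.cf_of_eq (C : Subgroup Γ) [Finite Γ] {X : Γ → ℂ} {β : IrrCharacter C} {ε : ℤ} {t : Γ}
    (hv : ∀ c : C, X (c * t) = ε * (β : C → ℂ) c) : cf C X β t = ε := by
  classical
  have := Fintype.ofFinite Γ
  have := Fintype.ofFinite C
  rw [cf_eq_inner]
  have : (fun c : C => X (c * t)) = fun c => (ε : ℂ) * (β : C → ℂ) c := funext hv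
  rw [this, classInner_mul_left', classInner_self_of_irr β.2, mul_one]
where
  classInner_mul_left' {H : Type u} [Group H] [Fintype H] {a : ℂ} {f g : H → ℂ} :
      classInner (fun c => a * f c) g = a * classInner f g := by
    unfold classInner
    have h1 : ∑ x : H, (a * f x) * conj (g x) = a * ∑ x : H, f x * conj (g x) := by
      rw [Finset.mul_sum]
      exact Finset.sum_congr rfl fun x _ => by ring
    rw [h1]; ring

theorem CopH.mlt_ne [Fintype Γ] (h : CopH K C s) {χ : IrrCharacter K} {X : Γ → ℂ}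
    (hX : IsIrrCharacter Γ X) (hext : ∀ k : K, X k = (χ : K → ℂ) k) {β : IrrCharacter C}
    (hne : cf C X β s ≠ 0) : mlt h.C_le χ β ≠ 0 := by
  classical
  haveI : Finite (zpowers s →* ℂˣ) := finite_dual
  have := Fintype.ofFinite (zpowers s →* ℂˣ)
  obtain ⟨n, hn⟩ := h.cf_formula (irr_isChar hX) β
  intro h0
  apply hne
  have h1 := hn 1
  have h2 : cf C X β ((1 : zpowers s) : Γ) = mlt h.C_le χ β := by
    rw [mlt_spec]
    unfold cf
    congr 1
    apply finsum_congr
    intro c
    rw [← hext]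
    simp
  rw [h2, h0] at h1
  have h3 : ∑ l : zpowers s →* ℂˣ, n l = 0 := by
    have : ((∑ l : zpowers s →* ℂˣ, n l : ℕ) : ℂ) = 0 := by
      push_cast
      simpa using h1.symm
    exact_mod_cast this
  have h4 := hn ⟨s, mem_zpowers s⟩
  rw [show cf C X β s = _ from h4]
  apply Finset.sum_eq_zero
  intro l _
  have h5 : n l = 0 := by
    have := Finset.sum_eq_zero_iff.mp h3 l (Finset.mem_univ l)
    exact this
  rw [h5]; simp

theorem CopH.inj [Fintype Γ] (h : CopH K C s) {χ χ' : IrrCharacter K} {X X' : Γ → ℂ}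
    (hX : IsIrrCharacter Γ X) (hext : ∀ k : K, X k = (χ : K → ℂ) k)
    (hX' : IsIrrCharacter Γ X') (hext' : ∀ k : K, X' k = (χ' : K → ℂ) k)
    {β : IrrCharacter C} {a b : ℂ} (ha : a ≠ 0) (hb : b ≠ 0)
    (hv : ∀ c : C, X (c * s) = a * (β : C → ℂ) c)
    (hv' : ∀ c : C, X' (c * s) = b * (β : C → ℂ) c) : χ = χ' := by
  classical
  haveI := h.Kn
  have := Fintype.ofFinite C
  by_contra hne
  have h1 : av' K s (fun g => X g * conj (X' g)) = 0 := by
    apply av'_ne h.hab' s hX hX'
    by_contra hcon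
    push Not at hcon
    apply hne
    apply Subtype.ext
    funext k
    rw [← hext, ← hext', hcon]
  rw [h.iso (fun g => X g * conj (X' g))
    (fun u g => by rw [irr_classFun hX, irr_classFun hX']), av'_eq_sum] at h1
  have h2 : (Nat.card C : ℂ)⁻¹ * ∑ n : C, X (n * s) * conj (X' (n * s)) =
      a * conj b * classInner (β : C → ℂ) β := by
    unfold classInner
    have h1 : ∑ n : C, X (n * s) * conj (X' (n * s)) =
        a * conj b * ∑ n : C, (β : C → ℂ) n * conj ((β : C → ℂ) n) := by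
      rw [Finset.mul_sum]
      apply Finset.sum_congr rfl
      intro c _
      rw [hv, hv', map_mul]; ring
    rw [h1]; ring
  rw [h2, classInner_self_of_irr β.2, mul_one] at h1
  rcases mul_eq_zero.mp h1 with h3 | h3
  · exact ha h3
  · exact hb ((map_eq_zero _).mp h3)

end Cfsg.Agent.H27
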