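import Cfsg.Agent.H27.GlCan3
import Cfsg.Agent.H3.DegRatio

set_option autoImplicit false

/-! # Counting characters of degree coprime to the index of a normal Hall subgroup -/

universe u

namespace Cfsg.Agent.H27

open Subgroup Cfsg Cfsg.Agent.H3 Cfsg.Agent.H11
open scoped ComplexConjugate Pointwise

variable {Γ : Type u} [Group Γ] {K : Subgroup Γ}

theorem irr_restr_of_cop [Finite Γ] (hK : K.Normal) {χ : Γ → ℂ} (hχ : IsIrrCharacter Γ χ)
    (hc : (charDegree χ).Coprime K.index) : IsIrrCharacter K (fun k : K => χ k) := by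
  classical
  have := Fintype.ofFinite Γ
  have := Fintype.ofFinite K
  have hch := isChar_restrict K (irr_isChar hχ)
  have h0 : (fun k : K => χ k) ≠ 0 := by
    intro h
    have := congrFun h 1
    exact irr_one_ne_zero hχ this
  obtain ⟨θ, hθ⟩ := exists_constituent hch h0
  have hd := charDegree_spec hχ
  have hdθ := charDegree_spec θ.2
  obtain ⟨h1, h2⟩ := ratio_dvd_index hK hχ θ.2 hθ _ _ hd.1 hdθ.1
  have h3 : charDegree χ / charDegree (θ : K → ℂ) = 1 := by
    apply Nat.eq_one_of_dvd_coprimes hc (Nat.div_dvd_of_dvd h1) h2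
  have h4 : charDegree χ = charDegree (θ : K → ℂ) := by
    have := Nat.div_mul_cancel h1
    rw [h3, one_mul] at this
    exact this.symm
  have h5 := isChar_sub_irr hch θ.2 hθ
  obtain ⟨n, ρ, hρ⟩ := h5
  have h6 : (n : ℂ) = 0 := by
    have h7 := congrFun hρ 1
    rw [Representation.char_one] at h7
    simp only [Module.finrank_fintype_fun_eq_card, Fintype.card_fin, Pi.sub_apply] at h7
    rw [hdθ.1, ← h4] at h7
    have h8 : χ ((1 : K) : Γ) = charDegree χ := hd.1
    rw [h8, sub_self] at h7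
    first | exact h7 | exact h7.symm
  have h7 : n = 0 := by exact_mod_cast h6
  subst h7
  have h8 : (fun k : K => χ k) = θ := by
    funext k
    have h9 := congrFun hρ k
    have h10 : ρ.character k = 0 := by
      show LinearMap.trace ℂ _ (ρ k) = 0
      have : ρ k = 0 := Subsingleton.elim _ _
      rw [this, map_zero]
    rw [h10] at h9
    have h11 : χ k - (θ : K → ℂ) k = 0 := by
      first | exact h9 | exact h9.symm
    exact sub_eq_zero.mp h11
  rw [h8]; exact θ.2

theorem cop_of_restr [Finite Γ] (hcop : (Nat.card K).Coprime K.index) {χ : Γ → ℂ}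
    (hχ : IsIrrCharacter Γ χ) (hχK : IsIrrCharacter K (fun k : K => χ k)) :
    (charDegree χ).Coprime K.index := by
  have hd := charDegree_spec hχ
  have hdK := charDegree_spec hχK
  have h1 : charDegree χ = charDegree (fun k : K => χ k) := by
    have h2 : ((charDegree χ : ℕ) : ℂ) = (charDegree (fun k : K => χ k) : ℂ) := by
      rw [← hd.1, ← hdK.1]; rfl
    exact_mod_cast h2
  rw [h1]
  exact Nat.Coprime.coprime_dvd_left (irr_degree_dvd_card hχK hdK.1) hcop

theorem count_cop [Finite Γ] [hK : K.Normal] (hcop : (Nat.card K).Coprime K.index) :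
    Nat.card {χ : IrrCharacter Γ // (charDegree (χ : Γ → ℂ)).Coprime K.index} =
      Nat.card {θ : IrrCharacter K // Inv Set.univ K θ} * Nat.card ((Γ ⧸ K) →* ℂˣ) := by
  classical
  have := Fintype.ofFinite Γ
  have := Fintype.ofFinite K
  rw [← Nat.card_prod]
  have hex : ∀ θ : {θ : IrrCharacter K // Inv Set.univ K θ}, ∃ X, CanExt K θ.1 X := by
    intro θ
    obtain ⟨X, hX, _⟩ := canExt_aux hcop θ.1 θ.2
    exact ⟨X, hX⟩
  choose E hE using hex
  have hEK : ∀ θ, IsIrrCharacter K (fun k : K => E θ k) := fun θ => CopH.CanExt_irrK (hE θ)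
  let tw : ((Γ ⧸ K) →* ℂˣ) → (Γ → ℂ) → (Γ → ℂ) := fun l X g => (l (g : Γ ⧸ K) : ℂ) * X g
  have htw : ∀ l θ (k : K), tw l (E θ) k = (θ.1 : K → ℂ) k := by
    intro l θ k
    show (l ((k : Γ) : Γ ⧸ K) : ℂ) * E θ k = _
    rw [tw_restrict, (hE θ).res]
  have hirr : ∀ l θ, IsIrrCharacter Γ (tw l (E θ)) := fun l θ => isIrr_tw (hE θ).irr l
  have hres : ∀ l θ, IsIrrCharacter K (fun k : K => tw l (E θ) k) := by
    intro l θ
    have : (fun k : K => tw l (E θ) k) = (θ.1 : K → ℂ) := funext (htw l θ)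
    rw [this]; exact θ.1.2
  let F : {θ : IrrCharacter K // Inv Set.univ K θ} × ((Γ ⧸ K) →* ℂˣ) →
      {χ : IrrCharacter Γ // (charDegree (χ : Γ → ℂ)).Coprime K.index} := fun q =>
    ⟨⟨tw q.2 (E q.1), hirr _ _⟩, cop_of_restr hcop (hirr _ _) (hres _ _)⟩
  symm
  refine Nat.card_congr (Equiv.ofBijective F ⟨?_, ?_⟩)
  · rintro ⟨θ, l⟩ ⟨θ', l'⟩ h
    have h1 : tw l (E θ) = tw l' (E θ') := congrArg (fun z => (z.1 : Γ → ℂ)) h
    have h2 : θ = θ' := by
      apply Subtype.ext
      apply Subtype.ext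
      funext k
      rw [← htw l θ k, ← htw l' θ' k, h1]
    subst h2
    have h3 : l = l' := by
      obtain ⟨k1, k2, k3, k4⟩ := gallagher_one hK (hE θ).irr (hEK θ)
      have e : ∀ l : (Γ ⧸ K) →* ℂˣ, tw l (E θ) = hf (l.comp (QuotientGroup.mk' K)) * E θ :=
        fun l => rfl
      have hone : ∀ (l : (Γ ⧸ K) →* ℂˣ) (n : K), hf (l.comp (QuotientGroup.mk' K)) n =
          hf (l.comp (QuotientGroup.mk' K)) 1 := by
        intro l n
        show (l ((n : Γ) : Γ ⧸ K) : ℂ) = (l ((1 : Γ) : Γ ⧸ K) : ℂ)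
        rw [(QuotientGroup.eq_one_iff (n : Γ)).mpr n.2, QuotientGroup.mk_one]
      rcases k1 _ _ (isIrr_hf (l.comp (QuotientGroup.mk' K)))
        (isIrr_hf (l'.comp (QuotientGroup.mk' K))) (hone l) (hone l') with h4 | h4
      · have h5 := hf_injective h4
        refine MonoidHom.ext fun a => ?_
        obtain ⟨g, rfl⟩ := QuotientGroup.mk_surjective a
        exact DFunLike.congr_fun h5 g
      · rw [← e, ← e, ← h1, classInner_self_of_irr (hirr l θ)] at h4
        exact absurd h4 one_ne_zero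
    rw [h3]
  · rintro ⟨χ, hχ⟩
    have h1 := irr_restr_of_cop hK χ.2 hχ
    let θ0 : IrrCharacter K := ⟨_, h1⟩
    have hinv : Inv Set.univ K θ0 := by
      intro x _ k k' hk
      show (χ : Γ → ℂ) k' = (χ : Γ → ℂ) k
      rw [hk]
      exact irr_classFun χ.2 k x
    let θ : {θ : IrrCharacter K // Inv Set.univ K θ} := ⟨θ0, hinv⟩
    obtain ⟨k1, k2, k3, k4⟩ := gallagher_one hK (hE θ).irr (hEK θ)
    have hr : (fun k : K => E θ k) = fun k : K => (χ : Γ → ℂ) k := funext (hE θ).res
    obtain ⟨β, hβ, hβK, hmul⟩ := k3 χ χ.2 (by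
      rw [hr, classInner_self_of_irr h1]; exact one_ne_zero)
    have hE1 : E θ 1 ≠ 0 := irr_one_ne_zero (hE θ).irr
    have hβ1 : β 1 = 1 := by
      have h2 : (χ : Γ → ℂ) 1 = β 1 * E θ 1 := by
        conv_lhs => rw [hmul]
        rfl
      have h3 : E θ 1 = (χ : Γ → ℂ) 1 := (hE θ).res 1
      rw [← h3] at h2
      exact mul_right_cancel₀ hE1 (by rw [one_mul]; exact h2.symm)
    obtain ⟨μ, rfl⟩ := exists_hf (irr_isChar hβ) hβ1
    have hμK : K ≤ μ.ker := by
      intro k hk
      rw [MonoidHom.mem_ker]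
      apply Units.ext
      have := hβK ⟨k, hk⟩
      rw [hβ1] at this
      exact this
    refine ⟨⟨θ, QuotientGroup.lift K μ hμK⟩, ?_⟩
    apply Subtype.ext
    apply Subtype.ext
    show tw (QuotientGroup.lift K μ hμK) (E θ) = χ
    rw [hmul]
    rfl

/-- the count with a complement -/
theorem count_cop' [Finite Γ] [hK : K.Normal] {H : Subgroup Γ}
    (hcop : (Nat.card K).Coprime (Nat.card H)) (hKH : K ⊔ H = ⊤) :
    Nat.card {χ : IrrCharacter Γ // (charDegree (χ : Γ → ℂ)).Coprime (Nat.card H)} =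
      Nat.card {θ : IrrCharacter K // Inv (H : Set Γ) K θ} * Nat.card (H →* ℂˣ) := by
  have h1 : K.IsComplement' H := by
    apply isComplement'_of_disjoint_and_mul_eq_univ
    · rw [disjoint_iff]
      exact inf_eq_bot_of_coprime hcop
    · rw [← Subgroup.normal_mul K H, hKH]; rfl
  have h2 : K.index = Nat.card H := h1.symm.index_eq_card
  have h3 := count_cop (K := K) (by rw [h2]; exact hcop)
  rw [h2] at h3
  rw [h3]
  congr 1
  · refine Nat.card_congr (Equiv.subtypeEquivRight fun θ => ?_)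
    constructor
    · intro h x hx; exact h x (Set.mem_univ x)
    · intro h
      have h4 := inv_sup (P := K) (Q := H) (G := K) le_normalizer le_normalizer_of_normal
        (inv_self K θ) h
      rw [hKH] at h4
      exact h4
  · exact Nat.card_congr (h1.symm.QuotientMulEquiv.monoidHomCongrLeft).toEquiv

end Cfsg.Agent.H27
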