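import Cfsg.Agent.H27.GlSign2

set_option autoImplicit false

/-! # Canonical extensions for cyclic actions with all centralisers equal -/

universe u

namespace Cfsg.Agent.H27

open Subgroup Cfsg Cfsg.Agent.H3 Cfsg.Agent.H11
open scoped ComplexConjugate Pointwise

variable {Γ : Type u} [Group Γ] [Fintype Γ] {K C : Subgroup Γ} {s : Γ} {X : Γ → ℂ}

theorem cf_le_of_norm {y : Γ} (h1 : av' C y (fun g => X g * conj (X g)) = 1)
    (γ : IrrCharacter C) :
    ‖cf C X γ y‖ ≤ 1 ∧ (‖cf C X γ y‖ = 1 → ∀ c : C, X (c * y) = cf C X γ y * (γ : C → ℂ) c) := by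
  classical
  let π : Γ → C := fun g => if hg : g * y⁻¹ ∈ C then ⟨g * y⁻¹, hg⟩ else 1
  have hπ : ∀ c : C, π (c * y) = c := by
    intro c
    have e : (c : Γ) * y * y⁻¹ = c := by group
    show (if hg : (c : Γ) * y * y⁻¹ ∈ C then (⟨(c : Γ) * y * y⁻¹, hg⟩ : C) else 1) = c
    rw [dif_pos (by rw [e]; exact c.2)]
    exact Subtype.ext e
  have e1 : cf C X γ y = av' C y (fun g => X g * conj ((γ : C → ℂ) (π g))) := by
    unfold cf av'
    congr 1
    apply finsum_congr
    intro c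
    show _ = X (c * y) * conj ((γ : C → ℂ) (π (c * y)))
    rw [hπ]
  have h2 := CopH.av'_irr_self π γ y hπ
  rw [e1]
  refine ⟨norm_av'_le y X (fun g => (γ : C → ℂ) (π g)) h1 h2, fun hn c => ?_⟩
  have h3 := eq_of_norm_av' y X (fun g => (γ : C → ℂ) (π g)) h1 h2 hn c
  simp only [hπ] at h3
  exact h3

namespace CopH

theorem isChar_cf (h : CopH K C s) (hX : IsCharacter Γ X) (γ : IrrCharacter C) :
    IsCharacter (zpowers s) (fun y => cf C X γ (y : Γ)) := by
  classical
  haveI : Finite (zpowers s →* ℂˣ) := finite_dual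
  have := Fintype.ofFinite (zpowers s →* ℂˣ)
  obtain ⟨n, hn⟩ := h.cf_formula hX γ
  have h1 : (fun y : zpowers s => cf C X γ (y : Γ)) =
      ∑ l : zpowers s →* ℂˣ, n l • (linIrr l : zpowers s → ℂ) := by
    funext y
    rw [hn y, Finset.sum_apply]
    apply Finset.sum_congr rfl
    intro l _
    rw [Pi.smul_apply, linIrr_apply, nsmul_eq_mul, mul_comm]
  rw [h1]
  exact isChar_sum _ _ fun l _ => isChar_nsmul _ (irr_isChar (linIrr l).2)

theorem norm_one' (h : CopH K C s)
    (hfpf : ∀ x ∈ zpowers s, x ≠ 1 → ∀ k ∈ K, x * k = k * x → k ∈ C)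
    (hX : IsIrrCharacter Γ X) (hXK : IsIrrCharacter K (fun k : K => X k)) {x : Γ}
    (hx : x ∈ zpowers s) (hx1 : x ≠ 1) : av' C x (fun g => X g * conj (X g)) = 1 := by
  haveI := h.Kn
  rw [← iso_of_ctrl h.Kn h.C_le ?_ (fun g => X g * conj (X g))
    (fun u g => by rw [irr_classFun hX])]
  · exact av'_self h.hab' _ hX hXK
  · intro c c' u hc hc' hu he
    obtain ⟨m, h1, h2⟩ := h.exists_exp
    have hxm : x ^ m = x := by
      obtain ⟨i, rfl⟩ := mem_zpowers_iff.mp hx
      rw [← zpow_natCast, zpow_comm, zpow_natCast, h1]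
    have key : ∀ c ∈ C, (c * x) ^ m = x := by
      intro c hc
      rw [(h.comm hc hx).mul_pow, hxm, h2 c (h.C_le hc), one_mul]
    have h4 : u * (c * x) ^ m * u⁻¹ = (c' * x) ^ m := by rw [← he, conj_pow]
    rw [key c hc, key c' hc'] at h4
    exact hfpf x hx hx1 u hu (mul_inv_eq_iff_eq_mul.mp h4).symm

theorem cf_int' (h : CopH K C s) {χ : IrrCharacter K} (hX : CanExt K χ X) (γ : IrrCharacter C)
    {x : Γ} (hx : x ∈ zpowers s) : ∃ k : ℤ, cf C X γ x = k := by
  haveI := h.Kn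
  have hchar := h.isChar_cf (irr_isChar hX.irr) γ
  have hN : orderOf s ≠ 0 := (orderOf_pos s).ne'
  have hxN : (⟨x, hx⟩ : zpowers s) ^ orderOf s = 1 := by
    rw [← Nat.card_zpowers]
    exact pow_card_eq_one'
  have hseq := IsGalSeq.char hchar hN hxN
  obtain ⟨k, hk⟩ := hseq.int_of_const hN (by
    intro j hj
    have hj' := (mem_cop.mp hj).2
    show cf C X γ (x ^ j) = cf C X γ (x ^ 1)
    rw [pow_one]
    unfold cf
    congr 1
    apply finsum_congr
    intro c
    congr 1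
    obtain ⟨m, h1, h2⟩ := Nat.chineseRemainder h.hcop 1 j
    have h3 : ((c : Γ) * x) ^ m = c * x ^ j := by
      rw [(h.comm c.2 hx).mul_pow]
      congr 1
      · have h4 : (⟨c, h.C_le c.2⟩ : K) ^ m = ⟨c, h.C_le c.2⟩ := by
          conv_rhs => rw [← pow_one (⟨c, h.C_le c.2⟩ : K)]
          rw [pow_eq_pow_iff_modEq]
          exact h1.of_dvd (_root_.orderOf_dvd_natCard _)
        exact congrArg Subtype.val h4
      · rw [pow_eq_pow_iff_modEq]
        refine h2.of_dvd ?_
        rw [← Nat.card_zpowers s, ← Subgroup.orderOf_mk x hx]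
        exact _root_.orderOf_dvd_natCard _
    have h4 : m.Coprime (Nat.card Γ) := by
      rw [← Subgroup.card_mul_index K, h.card_index]
      apply Nat.Coprime.mul_right
      · exact (Nat.ModEq.gcd_eq h1).trans (by simp)
      · exact (Nat.ModEq.gcd_eq h2).trans hj'
    rw [← h3]
    exact hX.pow h.hcop' h4 h1 _)
  refine ⟨k, ?_⟩
  rw [← hk]
  show cf C X γ x = cf C X γ (x ^ 1)
  rw [pow_one]

theorem fpf_zero (h : CopH K C s)
    (hfpf : ∀ x ∈ zpowers s, x ≠ 1 → ∀ k ∈ K, x * k = k * x → k ∈ C)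
    {χ : IrrCharacter K} (hX : CanExt K χ X) {β : IrrCharacter C} {ε₀ : ℤ}
    (hβ : ∀ c : C, ∀ t : Γ, zpowers t = zpowers s → X (c * t) = ε₀ * (β : C → ℂ) c)
    {γ : IrrCharacter C} (hγ : γ ≠ β) {x : Γ} (hx : x ∈ zpowers s) (hx1 : x ≠ 1) :
    cf C X γ x = 0 := by
  classical
  have := Fintype.ofFinite C
  by_contra hne
  have hpm : ∀ y ∈ zpowers s, y ≠ 1 → cf C X γ y ≠ 0 → cf C X γ y = 1 ∨ cf C X γ y = -1 := by
    intro y hy hy1 hyn
    obtain ⟨k, hk⟩ := h.cf_int' hX γ hy
    have h1 := (cf_le_of_norm (h.norm_one' hfpf hX.irr (CanExt_irrK hX) hy hy1) γ).1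
    rw [hk] at h1 hyn ⊢
    rw [Complex.norm_intCast] at h1
    have h2 : |k| ≤ 1 := by exact_mod_cast h1
    have h3 : k ≠ 0 := by rintro rfl; exact hyn Int.cast_zero
    have h4 := abs_le.mp h2
    have h5 : k = 1 ∨ k = -1 := by omega
    rcases h5 with rfl | rfl
    · left; simp
    · right; simp
  obtain ⟨y, ⟨hy1, hyn⟩, hyo⟩ := reach_generator (A := zpowers s)
    (fun y => y ≠ 1 ∧ cf C X γ (y : Γ) ≠ 0) (by
      rintro y w p hp ⟨hy1, hyn⟩ hw hyw
      refine ⟨hyw, ?_⟩
      obtain ⟨M, hM⟩ := exists_isPModular hp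
      have hpr := hM.2.1.isPrime
      intro h0
      have h1 := li_char_mul_sub hM (h.isChar_cf (irr_isChar hX.irr) γ)
        (x := w) (y := y) (by
          letI := IsCyclic.commGroup (α := zpowers s)
          exact Commute.all w y) hw
      have h2 : w * y = y * w := by
        letI := IsCyclic.commGroup (α := zpowers s)
        exact mul_comm w y
      rw [h2] at h1
      change MemLocalIdeal M (cf C X γ ((y * w : zpowers s) : Γ) - cf C X γ (y : Γ)) at h1
      rw [h0, zero_sub] at h1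
      rcases hpm y y.2 (fun h => hy1 (Subtype.ext h)) hyn with h3 | h3
      · rw [h3] at h1
        have h4 : MemLocalIdeal M ((1 : ℤ) : ℂ) := by
          have := li_neg h1; rw [neg_neg] at this; simpa using this
        rw [li_intCast_iff hM] at h4
        have h5 : p ∣ 1 := by exact_mod_cast h4
        exact hp.one_lt.ne' (Nat.dvd_one.mp h5)
      · rw [h3] at h1
        have h4 : MemLocalIdeal M ((1 : ℤ) : ℂ) := by
          rw [neg_neg] at h1; simpa using h1
        rw [li_intCast_iff hM] at h4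
        have h5 : p ∣ 1 := by exact_mod_cast h4
        exact hp.one_lt.ne' (Nat.dvd_one.mp h5))
    (x := ⟨x, hx⟩) ⟨fun h => hx1 (congrArg Subtype.val h), hne⟩
  apply hyn
  have hz : zpowers (y : Γ) = zpowers s := by
    apply eq_of_le_of_card_ge
    · rw [zpowers_le]; exact y.2
    · rw [Nat.card_zpowers (y : Γ), Subgroup.orderOf_coe, hyo]
  have h1 : (fun c : C => X (c * (y : Γ))) = fun c => (ε₀ : ℂ) * (β : C → ℂ) c :=
    funext fun c => hβ c y hz
  rw [cf_eq_inner, h1, CopH.cf_of_eq.classInner_mul_left', classInner_irr' β γ, if_neg hγ.symm,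
    mul_zero]

theorem fpf_main (h : CopH K C s) (hs : s ≠ 1)
    (hfpf : ∀ x ∈ zpowers s, x ≠ 1 → ∀ k ∈ K, x * k = k * x → k ∈ C)
    {χ : IrrCharacter K} (hX : CanExt K χ X) {β : IrrCharacter C} {ε₀ : ℤ}
    (hβ : ∀ c : C, ∀ t : Γ, zpowers t = zpowers s → X (c * t) = ε₀ * (β : C → ℂ) c) :
    ∃ ε : ℤ, (ε = 1 ∨ ε = -1) ∧ (∃ μ : zpowers s → ℂ, IsCharacter (zpowers s) μ ∧ μ 1 = 1 ∧
      (∀ x, μ x * μ x = 1) ∧ ∀ c : C, ∀ x : zpowers s, x ≠ 1 →
        X ((c : Γ) * x) = ε * (β : C → ℂ) c * μ x) ∧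
      ∃ ϑ : C → ℂ, IsCharacter C ϑ ∧ ∀ c : C, X c =
        (Nat.card (zpowers s) : ℂ) * ϑ c + ε * (β : C → ℂ) c := by
  classical
  have := Fintype.ofFinite C
  have := Fintype.ofFinite (IrrCharacter C)
  have hval : ∀ x ∈ zpowers s, x ≠ 1 → (cf C X β x = 1 ∨ cf C X β x = -1) ∧
      ∀ c : C, X (c * x) = cf C X β x * (β : C → ℂ) c := by
    intro x hx hx1
    have hn1 := h.norm_one' hfpf hX.irr (CanExt_irrK hX) hx hx1
    have hexp : ∀ c : C, X (c * x) = cf C X β x * (β : C → ℂ) c := by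
      intro c
      have h1 := classFun_expand_apply (h.classFun_coset (irr_classFun hX.irr) hx) c
      rw [h1, Finset.sum_eq_single β]
      · rw [cf_eq_inner]
      · intro γ _ hγ
        rw [← cf_eq_inner, h.fpf_zero hfpf hX hβ hγ hx hx1, zero_mul]
      · intro hb; exact absurd (Finset.mem_univ β) hb
    refine ⟨?_, hexp⟩
    obtain ⟨k, hk⟩ := h.cf_int' hX β hx
    have h1 := (cf_le_of_norm hn1 β).1
    have h2 : cf C X β x ≠ 0 := by
      intro h0
      rw [av'_eq_sum, Finset.sum_eq_zero, mul_zero] at hn1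
      · exact zero_ne_one hn1
      · intro c _
        rw [hexp c, h0, zero_mul, zero_mul]
    rw [hk] at h1 h2 ⊢
    rw [Complex.norm_intCast] at h1
    have h3 : |k| ≤ 1 := by exact_mod_cast h1
    have h4 : k ≠ 0 := by rintro rfl; exact h2 Int.cast_zero
    have h5 := abs_le.mp h3
    have h6 : k = 1 ∨ k = -1 := by omega
    rcases h6 with rfl | rfl
    · left; simp
    · right; simp
  haveI : Nontrivial (zpowers s) := by
    refine ⟨⟨s, mem_zpowers s⟩, 1, fun he => hs (congrArg Subtype.val he)⟩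
  obtain ⟨k, ε, μ, hε, hμ2, hμ, h1⟩ := sign_lemma (A := zpowers s)
    (h.isChar_cf (irr_isChar hX.irr) β)
    (fun x hx => (hval x x.2 (fun he => hx (Subtype.ext he))).1)
  refine ⟨ε, hε, ⟨fun x => (μ x : ℂ), irr_isChar (linIrr μ).2, by simp, hμ2, ?_⟩, ?_⟩
  · intro c x hx
    rw [(hval x x.2 (fun he => hx (Subtype.ext he))).2 c]
    have h5 : cf C X β (x : Γ) = ε * μ x := hμ x hx
    rw [h5]; ring
  · -- multiplicities divisible by the order
    have hn0 : (Nat.card (zpowers s) : ℂ) ≠ 0 := by exact_mod_cast Nat.card_pos.ne'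
    have hdiv : ∀ γ : IrrCharacter C, γ ≠ β → ∃ m : ℕ, cf C X γ 1 = Nat.card (zpowers s) * m := by
      intro γ hγ
      obtain ⟨m, hm⟩ := exists_nat_lin (h.isChar_cf (irr_isChar hX.irr) γ) 1
      refine ⟨m, ?_⟩
      rw [← hm]
      unfold classInner
      rw [mul_inv_cancel_left₀ hn0, Finset.sum_eq_single (1 : zpowers s)]
      · simp
      · intro x _ hx
        show cf C X γ (x : Γ) * _ = 0
        rw [h.fpf_zero hfpf hX hβ hγ x.2 (fun he => hx (Subtype.ext he)), zero_mul]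
      · intro hb; exact absurd (Finset.mem_univ _) hb
    have hall : ∀ γ : IrrCharacter C, ∃ m : ℕ, cf C X γ 1 =
        Nat.card (zpowers s) * m + (if γ = β then (ε : ℂ) else 0) := by
      intro γ
      by_cases hγ : γ = β
      · subst hγ
        refine ⟨k, ?_⟩
        rw [if_pos rfl]
        change cf C X γ 1 = _ at h1
        rw [h1]; ring
      · obtain ⟨m, hm⟩ := hdiv γ hγ
        exact ⟨m, by rw [if_neg hγ, add_zero, hm]⟩
    choose m hm using hall
    refine ⟨∑ γ : IrrCharacter C, m γ • (γ : C → ℂ),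
      isChar_sum _ _ fun γ _ => isChar_nsmul _ (irr_isChar γ.2), ?_⟩
    intro c
    have h2 := classFun_expand_apply (h.classFun_coset (irr_classFun hX.irr)
      (one_mem (zpowers s))) c
    simp only [mul_one] at h2
    rw [h2]
    have h3 : ∀ γ : IrrCharacter C, classInner (fun c : C => X c) (γ : C → ℂ) = cf C X γ 1 := by
      intro γ
      rw [cf_eq_inner]
      simp only [mul_one]
    rw [Finset.sum_apply, Finset.mul_sum]
    have h4 : (ε : ℂ) * (β : C → ℂ) c = ∑ γ : IrrCharacter C, (if γ = β then (ε : ℂ) else 0) *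
        (γ : C → ℂ) c := by
      rw [Finset.sum_eq_single β]
      · rw [if_pos rfl]
      · intro γ _ hγ; rw [if_neg hγ, zero_mul]
      · intro hb; exact absurd (Finset.mem_univ β) hb
    rw [h4, ← Finset.sum_add_distrib]
    apply Finset.sum_congr rfl
    intro γ _
    rw [h3, hm, Pi.smul_apply, nsmul_eq_mul]
    ring

end CopH

end Cfsg.Agent.H27
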