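import Cfsg.Agent.H27.GlSol3
import Cfsg.Agent.H27.GlLem

set_option autoImplicit false

/-! # Invariant constituents of restrictions and inductions -/

universe u

namespace Cfsg.Agent.H27

open Subgroup Cfsg Cfsg.Agent.H3 Cfsg.Agent.H11
open Cfsg.Agent.H26 (irrMap irrMap_apply irrMap_symm_apply irrMap_apply' normConj normConj_coe)
open scoped ComplexConjugate

variable {Γ : Type u} [Group Γ]

theorem irrMap_of_mem {G : Subgroup Γ} {y : Γ} (hy : y ∈ G) (h : y ∈ normalizer (G : Set Γ))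
    (χ : IrrCharacter G) : irrMap (normConj G h) χ = χ := by
  apply Subtype.ext
  funext c
  obtain ⟨c', rfl⟩ := (normConj G h).surjective c
  rw [irrMap_apply']
  have e : normConj G h c' = (⟨y, hy⟩ : G) * c' * (⟨y, hy⟩ : G)⁻¹ := Subtype.ext rfl
  rw [e]
  exact (irr_classFun χ.2 _ _).symm

variable [Finite Γ]

theorem mlt_eq_inner_subgroupOf {G N : Subgroup Γ} (hNG : N ≤ G) [Fintype (N.subgroupOf G)]
    (χ : IrrCharacter G) (θ : IrrCharacter N) :
    classInner (fun h : N.subgroupOf G => (χ : G → ℂ) h)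
      ((irrMap (subgroupOfEquivOfLe hNG)).symm θ : N.subgroupOf G → ℂ) = (mlt hNG χ θ : ℂ) := by
  have := Fintype.ofFinite N
  rw [mlt_eq_classInner]
  exact classInner_comp_equiv (subgroupOfEquivOfLe hNG)
    (fun n : N => (χ : G → ℂ) (inclusion hNG n)) (θ : N → ℂ)

/-- Clifford's theorem -/
theorem clifford_mlt {G N : Subgroup Γ} (hNG : N ≤ G) (hGN : G ≤ normalizer (N : Set Γ))
    (χ : IrrCharacter G) (θ ψ : IrrCharacter N) (h1 : mlt hNG χ θ ≠ 0) (h2 : mlt hNG χ ψ ≠ 0) :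
    ∃ (x : Γ) (_ : x ∈ G) (hx : x ∈ normalizer (N : Set Γ)), irrMap (normConj N hx) θ = ψ := by
  classical
  have := Fintype.ofFinite G
  have hn : (N.subgroupOf G).Normal := (normal_subgroupOf_iff_le_normalizer hNG).mpr hGN
  have := Fintype.ofFinite (N.subgroupOf G)
  have e1 := mlt_eq_inner_subgroupOf hNG χ θ
  have e2 := mlt_eq_inner_subgroupOf hNG χ ψ
  obtain ⟨x, hx⟩ := clifford_inner hn χ.2 ((irrMap (subgroupOfEquivOfLe hNG)).symm θ).2
    (by rw [e1]; exact_mod_cast h1) ((irrMap (subgroupOfEquivOfLe hNG)).symm ψ).2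
    (by rw [e2]; exact_mod_cast h2)
  refine ⟨(x : Γ)⁻¹, G.inv_mem x.2, inv_mem (hGN x.2), ?_⟩
  apply Subtype.ext
  funext n
  rw [irrMap_apply]
  have h3 := congrFun hx ⟨⟨n, hNG n.2⟩, mem_subgroupOf.mpr n.2⟩
  rw [cj_apply] at h3
  have h4 : ((irrMap (subgroupOfEquivOfLe hNG)).symm ψ : N.subgroupOf G → ℂ)
      ⟨⟨n, hNG n.2⟩, mem_subgroupOf.mpr n.2⟩ = (ψ : N → ℂ) n := rfl
  rw [← h4, ← h3]
  refine congrArg (θ : N → ℂ) (Subtype.ext ?_)
  show ((x : Γ)⁻¹)⁻¹ * n * (x : Γ)⁻¹ = x * n * (x : Γ)⁻¹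
  rw [inv_inv]

/-- the action of `N_Γ(N)/N` on the irreducible characters of `N` -/
@[reducible] noncomputable def quoAct (N Y : Subgroup Γ) (hY : Y ≤ normalizer (N : Set Γ))
    [(N.subgroupOf Y).Normal] : MulAction (Y ⧸ N.subgroupOf Y) (IrrCharacter N) :=
  letI := irrAct Y N hY
  MulAction.compHom (IrrCharacter N) (QuotientGroup.lift (N.subgroupOf Y)
    (MulAction.toPermHom Y (IrrCharacter N)) (fun a ha => by
      ext1 θ
      exact irrMap_of_mem (mem_subgroupOf.mp ha) (hY a.2) θ))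

theorem exists_inv_below {S G N : Subgroup Γ} (hSG : S ≤ normalizer (G : Set Γ))
    (hSN : S ≤ normalizer (N : Set Γ)) (hNG : N ≤ G) (hGN : G ≤ normalizer (N : Set Γ))
    (hcop : (N.relIndex G).Coprime (Nat.card S))
    (hs : Group.IsSolvable S ∨ ∀ [(N.subgroupOf G).Normal], Group.IsSolvable (G ⧸ N.subgroupOf G))
    (χ : IrrCharacter G) (hχ : Inv (S : Set Γ) G χ) :
    ∃ θ : IrrCharacter N, mlt hNG χ θ ≠ 0 ∧ Inv (S : Set Γ) N θ := by
  classical
  set Y := normalizer (N : Set Γ) with hYd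
  have hNY : N ≤ Y := le_normalizer
  have hn : (N.subgroupOf Y).Normal := (normal_subgroupOf_iff_le_normalizer hNY).mpr le_rfl
  have hn' : (N.subgroupOf G).Normal := (normal_subgroupOf_iff_le_normalizer hNG).mpr hGN
  letI := quoAct N Y le_rfl
  have hact : ∀ (y : Γ) (hy : y ∈ Y) (θ : IrrCharacter N),
      (QuotientGroup.mk' (N.subgroupOf Y) ⟨y, hy⟩) • θ = irrMap (normConj N hy) θ :=
    fun y hy θ => rfl
  -- a constituent
  obtain ⟨θ, hθ⟩ : ∃ θ : IrrCharacter N, mlt hNG χ θ ≠ 0 := by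
    by_contra hcon
    push Not at hcon
    have := Fintype.ofFinite (IrrCharacter N)
    have h1 := restr_expand hNG χ 1
    rw [Finset.sum_eq_zero (fun η _ => by rw [hcon η]; simp), map_one] at h1
    exact irr_one_ne_zero χ.2 h1
  set A := (S.subgroupOf Y).map (QuotientGroup.mk' (N.subgroupOf Y)) with hA
  set G' := (G.subgroupOf Y).map (QuotientGroup.mk' (N.subgroupOf Y)) with hG'
  have hcA : Nat.card A ∣ Nat.card S := by
    have h1 : Nat.card A ∣ Nat.card (S.subgroupOf Y) := card_map_dvd _ _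
    rwa [Nat.card_congr (subgroupOfEquivOfLe hSN).toEquiv] at h1
  have hcG : Nat.card G' = N.relIndex G := by
    have h1 := relIndex_ker (G.subgroupOf Y) (QuotientGroup.mk' (N.subgroupOf Y))
    rw [QuotientGroup.ker_mk', relIndex_subgroupOf hGN] at h1
    exact h1.symm
  have hnA : A ≤ normalizer (G' : Set (Y ⧸ N.subgroupOf Y)) := by
    apply Cfsg.Agent.H23.le_normalizer_of_conj_mem
    rintro _ ⟨a, ha, rfl⟩ _ ⟨g, hg, rfl⟩
    refine ⟨a * g * a⁻¹, ?_, by rw [map_mul, map_mul, map_inv]⟩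
    exact (mem_normalizer_iff.mp (hSG ha) g).mp hg
  have hmem : ∀ y : Γ, y ∈ G → y ∈ normalizer (G : Set Γ) := fun y hy => le_normalizer hy
  obtain ⟨g, hg, hg2⟩ := Cfsg.Agent.H23.glauberman_exists hnA
    (Nat.Coprime.coprime_dvd_left hcA (by rw [hcG]; exact hcop.symm)) (by
      rcases hs with h | h
      · left
        have := h
        let f : S →* A := ((QuotientGroup.mk' (N.subgroupOf Y)).subgroupMap (S.subgroupOf Y)).comp
          (subgroupOfEquivOfLe hSN).symm.toMonoidHom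
        exact Group.isSolvable_of_surjective (f := f)
          ((MonoidHom.subgroupMap_surjective _ _).comp (subgroupOfEquivOfLe hSN).symm.surjective)
      · right
        have := h
        let f : G →* G' := ((QuotientGroup.mk' (N.subgroupOf Y)).subgroupMap (G.subgroupOf Y)).comp
          (subgroupOfEquivOfLe hGN).symm.toMonoidHom
        have hf : Function.Surjective f :=
          (MonoidHom.subgroupMap_surjective _ _).comp (subgroupOfEquivOfLe hGN).symm.surjective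
        let f' : G ⧸ N.subgroupOf G →* G' := QuotientGroup.lift (N.subgroupOf G) f (by
          intro n hn
          apply Subtype.ext
          show QuotientGroup.mk' (N.subgroupOf Y) _ = 1
          exact (QuotientGroup.eq_one_iff _).mpr (mem_subgroupOf.mpr (mem_subgroupOf.mp hn)))
        refine Group.isSolvable_of_surjective (f := f') ?_
        intro x
        obtain ⟨g, rfl⟩ := hf x
        exact ⟨(g : G ⧸ N.subgroupOf G), rfl⟩) (Ω := IrrCharacter N) θ (by
    rintro _ ⟨⟨a, ha'⟩, ha, rfl⟩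
    have haS : a ∈ S := ha
    have h1 : mlt hNG χ (irrMap (normConj N ha') θ) ≠ 0 := by
      have h2 := mlt_irrMap hNG (hSG haS) ha' χ θ
      rw [(inv_iff_irrMap hSG χ).mp hχ a haS] at h2
      rw [h2]; exact hθ
    obtain ⟨x, hx, hx', hx2⟩ := clifford_mlt hNG hGN χ θ _ hθ h1
    refine ⟨QuotientGroup.mk' (N.subgroupOf Y) ⟨x, hx'⟩, ⟨⟨x, hx'⟩, hx, rfl⟩, ?_⟩
    rw [hact, hact, hx2])
  obtain ⟨⟨x, hx'⟩, hx, rfl⟩ := hg
  have hxG : x ∈ G := hx
  refine ⟨irrMap (normConj N hx') θ, ?_, ?_⟩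
  · have h2 := mlt_irrMap hNG (hmem x hxG) hx' χ θ
    rw [irrMap_of_mem hxG] at h2
    rw [h2]; exact hθ
  · rw [inv_iff_irrMap hSN]
    intro s hs
    have h3 := hg2 (QuotientGroup.mk' (N.subgroupOf Y) ⟨s, hSN hs⟩) ⟨⟨s, hSN hs⟩, hs, rfl⟩
    rw [hact, hact] at h3
    exact h3

end Cfsg.Agent.H27
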