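import Cfsg.Agent.H27.GlInv

set_option autoImplicit false

/-! # Invariant characters above invariant characters, solvable quotient -/

universe u

namespace Cfsg.Agent.H27

open Subgroup Cfsg Cfsg.Agent.H3 Cfsg.Agent.H11
open Cfsg.Agent.H26 (irrMap irrMap_apply irrMap_symm_apply irrMap_apply' normConj normConj_coe)
open scoped ComplexConjugate

section dualact

variable {Q : Type u} [Group Q]

/-- the dual group acts on the characters -/
@[reducible] noncomputable def dualAct [Finite Q] (N : Subgroup Q) [N.Normal] :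
    MulAction ((Q ⧸ N) →* ℂˣ) (IrrCharacter Q) where
  smul l χ := ⟨fun g => (l (g : Q ⧸ N) : ℂ) * (χ : Q → ℂ) g, isIrr_tw χ.2 l⟩
  one_smul χ := by
    apply Subtype.ext
    funext g
    show ((1 : (Q ⧸ N) →* ℂˣ) (g : Q ⧸ N) : ℂ) * (χ : Q → ℂ) g = _
    rw [MonoidHom.one_apply, Units.val_one, one_mul]
  mul_smul l m χ := by
    apply Subtype.ext
    funext g
    show ((l * m : (Q ⧸ N) →* ℂˣ) (g : Q ⧸ N) : ℂ) * (χ : Q → ℂ) g =
      (l (g : Q ⧸ N) : ℂ) * ((m (g : Q ⧸ N) : ℂ) * (χ : Q → ℂ) g)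
    rw [MonoidHom.mul_apply, Units.val_mul, mul_assoc]

end dualact

variable {Γ : Type u} [Group Γ]

section cq

variable {L G N : Subgroup Γ} (hLG : L ≤ normalizer (G : Set Γ))
  (hLN : L ≤ normalizer (N : Set Γ)) [(N.subgroupOf G).Normal]

theorem map_normConj {a : Γ} (hG : a ∈ normalizer (G : Set Γ)) (hN : a ∈ normalizer (N : Set Γ)) :
    (N.subgroupOf G).map (normConj G hG : G →* G) = N.subgroupOf G := by
  ext x
  constructor
  · rintro ⟨y, hy, rfl⟩
    exact (mem_normalizer_iff.mp hN y).mp hy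
  · intro hx
    obtain ⟨y, rfl⟩ := (normConj G hG).surjective x
    exact ⟨y, (mem_normalizer_iff.mp hN y).mpr hx, rfl⟩

/-- the automorphism of the quotient -/
noncomputable def cq (a : L) : (G ⧸ N.subgroupOf G) ≃* (G ⧸ N.subgroupOf G) :=
  QuotientGroup.congr (N.subgroupOf G) (N.subgroupOf G) (normConj G (hLG a.2))
    (map_normConj (hLG a.2) (hLN a.2))

theorem cq_mk (a : L) (g : G) : cq hLG hLN a (g : G ⧸ N.subgroupOf G) =
    (normConj G (hLG a.2) g : G ⧸ N.subgroupOf G) := rfl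

/-- action on the dual of the quotient -/
noncomputable def dq : L →* MulAut ((G ⧸ N.subgroupOf G) →* ℂˣ) where
  toFun a :=
    { toFun := fun l => l.comp (cq hLG hLN a).symm.toMonoidHom
      invFun := fun l => l.comp (cq hLG hLN a).toMonoidHom
      left_inv := fun l => by ext x; simp
      right_inv := fun l => by ext x; simp
      map_mul' := fun l m => rfl }
  map_one' := by
    ext l x
    obtain ⟨g, rfl⟩ := (normConj G (hLG (1 : L).2)).surjective x
    show ((l ((cq hLG hLN 1).symm (cq hLG hLN 1 (g : G ⧸ N.subgroupOf G))) : ℂˣ) : ℂ) =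
      (l (normConj G (hLG (1 : L).2) g : G ⧸ N.subgroupOf G) : ℂˣ)
    rw [MulEquiv.symm_apply_apply]
    have e : normConj G (hLG (1 : L).2) g = g := Subtype.ext (by
      rw [normConj_coe]; simp)
    rw [e]
  map_mul' a b := by
    ext l x
    obtain ⟨g, rfl⟩ := (normConj G (hLG (a * b : L).2)).surjective x
    show ((l ((cq hLG hLN (a * b)).symm (cq hLG hLN (a * b) (g : G ⧸ N.subgroupOf G))) : ℂˣ) : ℂ) =
      (l ((cq hLG hLN b).symm ((cq hLG hLN a).symm
        (cq hLG hLN (a * b) (g : G ⧸ N.subgroupOf G)))) : ℂˣ)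
    rw [MulEquiv.symm_apply_apply]
    have e : cq hLG hLN (a * b) (g : G ⧸ N.subgroupOf G) =
        cq hLG hLN a (cq hLG hLN b (g : G ⧸ N.subgroupOf G)) := by
      rw [cq_mk, cq_mk, cq_mk]
      refine congrArg _ (Subtype.ext ?_)
      rw [normConj_coe, normConj_coe, normConj_coe, Subgroup.coe_mul]
      group
    rw [e, MulEquiv.symm_apply_apply, MulEquiv.symm_apply_apply]

theorem dq_apply (a : L) (l : (G ⧸ N.subgroupOf G) →* ℂˣ) (g : G) :
    dq hLG hLN a l ((normConj G (hLG a.2) g : G) : G ⧸ N.subgroupOf G) = l g := by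
  show l ((cq hLG hLN a).symm (cq hLG hLN a (g : G ⧸ N.subgroupOf G))) = l g
  rw [MulEquiv.symm_apply_apply]

end cq

/-- two characters over the same character of a normal subgroup with abelian quotient -/
theorem exists_tw_eq {Q : Type u} [Group Q] [Fintype Q] {N : Subgroup Q} [N.Normal]
    (hab : ∀ a b : Q ⧸ N, a * b = b * a) (χ χ' : IrrCharacter Q) [Fintype N]
    (h : classInner (fun n : N => (χ' : Q → ℂ) n) (fun n : N => (χ : Q → ℂ) n) ≠ 0) :
    ∃ l : (Q ⧸ N) →* ℂˣ, (χ' : Q → ℂ) =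
      fun g : Q => (l (g : Q ⧸ N) : ℂ) * (χ : Q → ℂ) g := by
  classical
  by_contra hcon
  push Not at hcon
  apply h
  have : Finite ((Q ⧸ N) →* ℂˣ) := finite_dual
  have := Fintype.ofFinite ((Q ⧸ N) →* ℂˣ)
  have h1 := av'_irr_pair (N := N) hab 1 χ'.2 χ.2
  rw [Finset.sum_eq_zero (fun l _ => by rw [if_neg (hcon l), mul_zero])] at h1
  rw [av'_eq_sum] at h1
  unfold classInner
  simp only [mul_one] at h1
  exact h1

variable [Finite Γ]

theorem inner_restr_ne_zero {G N : Subgroup Γ} (hNG : N ≤ G) [Fintype (N.subgroupOf G)]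
    (χ χ' : IrrCharacter G) (θ : IrrCharacter N) (h1 : mlt hNG χ θ ≠ 0) (h2 : mlt hNG χ' θ ≠ 0) :
    classInner (fun n : N.subgroupOf G => (χ' : G → ℂ) n)
      (fun n : N.subgroupOf G => (χ : G → ℂ) n) ≠ 0 := by
  classical
  have := Fintype.ofFinite N
  have := Fintype.ofFinite (IrrCharacter N)
  have e1 : classInner (fun n : N.subgroupOf G => (χ' : G → ℂ) n)
      (fun n : N.subgroupOf G => (χ : G → ℂ) n) =
      classInner (fun n : N => (χ' : G → ℂ) (inclusion hNG n))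
      (fun n : N => (χ : G → ℂ) (inclusion hNG n)) :=
    classInner_comp_equiv (subgroupOfEquivOfLe hNG)
      (fun n : N => (χ' : G → ℂ) (inclusion hNG n)) (fun n : N => (χ : G → ℂ) (inclusion hNG n))
  rw [e1]
  have e2 : (fun n : N => (χ : G → ℂ) (inclusion hNG n)) =
      ∑ η : IrrCharacter N, (mlt hNG χ η : ℂ) • (η : N → ℂ) := by
    funext n
    rw [restr_expand hNG χ n, Finset.sum_apply]
    rfl
  rw [e2, classInner_sum_right]
  have e3 : ∀ η : IrrCharacter N, classInner (fun n : N => (χ' : G → ℂ) (inclusion hNG n))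
      ((mlt hNG χ η : ℂ) • (η : N → ℂ)) = ((mlt hNG χ η * mlt hNG χ' η : ℕ) : ℂ) := by
    intro η
    rw [classInner_smul_right, ← mlt_eq_classInner, Complex.conj_natCast]
    push_cast; ring
  simp only [e3]
  rw [← Nat.cast_sum]
  have h3 : 0 < ∑ η : IrrCharacter N, mlt hNG χ η * mlt hNG χ' η := by
    refine Finset.sum_pos' (fun _ _ => Nat.zero_le _) ⟨θ, Finset.mem_univ _, ?_⟩
    exact Nat.mul_pos (Nat.pos_of_ne_zero h1) (Nat.pos_of_ne_zero h2)
  exact_mod_cast h3.ne'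

/-- The abelian step. -/
theorem exists_inv_above_ab {L G N : Subgroup Γ} (hLG : L ≤ normalizer (G : Set Γ))
    (hLN : L ≤ normalizer (N : Set Γ)) (hNG : N ≤ G) (hGN : G ≤ normalizer (N : Set Γ))
    (hab : ∀ a ∈ G, ∀ b ∈ G, a * b * a⁻¹ * b⁻¹ ∈ N)
    (hcop : ((L ⊓ N).relIndex L).Coprime (N.relIndex G)) (θ : IrrCharacter N)
    (hθ : Inv (L : Set Γ) N θ) : ∃ χ : IrrCharacter G, Inv (L : Set Γ) G χ ∧ mlt hNG χ θ ≠ 0 := by
  classical
  have hn : (N.subgroupOf G).Normal := (normal_subgroupOf_iff_le_normalizer hNG).mpr hGN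
  have hQab : ∀ a b : G ⧸ N.subgroupOf G, a * b = b * a := by
    intro a b
    obtain ⟨a, rfl⟩ := QuotientGroup.mk_surjective a
    obtain ⟨b, rfl⟩ := QuotientGroup.mk_surjective b
    rw [← QuotientGroup.mk_mul, ← QuotientGroup.mk_mul, ← mul_inv_eq_one, ← QuotientGroup.mk_inv,
      ← QuotientGroup.mk_mul, QuotientGroup.eq_one_iff, mem_subgroupOf]
    have := hab a a.2 b b.2
    have e : ((a * b * (b * a)⁻¹ : G) : Γ) = a * b * (a : Γ)⁻¹ * (b : Γ)⁻¹ := by
      push_cast; group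
    rw [e]; exact this
  have hfin : Finite ((G ⧸ N.subgroupOf G) →* ℂˣ) := finite_dual
  obtain ⟨χ₀, hχ₀⟩ := exists_over_mlt hNG θ
  have := Fintype.ofFinite G
  have := Fintype.ofFinite (N.subgroupOf G)
  letI a1 := irrAct L G hLG
  letI a2 := dualAct (N.subgroupOf G)
  have hs1 : ∀ (a : L) (χ : IrrCharacter G), a • χ = irrMap (normConj G (hLG a.2)) χ :=
    fun a χ => rfl
  have hs2 : ∀ (l : (G ⧸ N.subgroupOf G) →* ℂˣ) (χ : IrrCharacter G) (g : G),
      ((l • χ : IrrCharacter G) : G → ℂ) g = (l (g : G ⧸ N.subgroupOf G) : ℂ) * (χ : G → ℂ) g :=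
    fun l χ g => rfl
  have hA0 : ((L ⊓ G).subgroupOf L).Normal := by
    rw [normal_subgroupOf_iff_le_normalizer inf_le_left]
    intro l hl
    rw [mem_normalizer_iff]
    intro x
    rw [mem_inf, mem_inf, mem_normalizer_iff.mp (hLG hl) x,
      mem_normalizer_iff.mp (le_normalizer hl : l ∈ normalizer (L : Set Γ)) x]
  have hcard : Nat.card ((G ⧸ N.subgroupOf G) →* ℂˣ) = N.relIndex G := card_dual hQab
  obtain ⟨l, hl⟩ := glaub_quot (A := L) (H := (G ⧸ N.subgroupOf G) →* ℂˣ) (Ω := IrrCharacter G)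
    (dq hLG hLN) (by
      intro a l χ
      apply Subtype.ext
      funext g
      obtain ⟨g', rfl⟩ := (normConj G (hLG a.2)).surjective g
      rw [hs1, irrMap_apply', hs2, hs2, hs1, irrMap_apply', dq_apply]) ((L ⊓ G).subgroupOf L) (by
      intro a ha χ
      exact irrMap_of_mem (mem_subgroupOf.mp ha).2 (hLG a.2) χ) (by
      intro a ha
      ext l x
      obtain ⟨g', rfl⟩ := (normConj G (hLG a.2)).surjective x
      have h1 := dq_apply hLG hLN a l g'
      have h2 : ((normConj G (hLG a.2) g' : G) : G ⧸ N.subgroupOf G) = g' := by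
        have haG : (a : Γ) ∈ G := (mem_subgroupOf.mp ha).2
        have e : normConj G (hLG a.2) g' = (⟨a, haG⟩ : G) * g' * (⟨a, haG⟩ : G)⁻¹ := Subtype.ext rfl
        rw [e, QuotientGroup.mk_mul, QuotientGroup.mk_mul, QuotientGroup.mk_inv, hQab _ (g' : G ⧸ _)]
        group
      show (((dq hLG hLN a) l ((normConj G (hLG a.2) g' : G) : G ⧸ N.subgroupOf G) : ℂˣ) : ℂ) =
        (l ((normConj G (hLG a.2) g' : G) : G ⧸ N.subgroupOf G) : ℂˣ)
      rw [h1, h2]) (by
      rw [hcard]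
      refine Nat.Coprime.coprime_dvd_left ?_ hcop
      exact relIndex_dvd_of_le_left L (inf_le_inf_left L hNG)) (Or.inr (by
      letI : CommGroup ((G ⧸ N.subgroupOf G) →* ℂˣ) := inferInstance
      infer_instance)) χ₀ (by
      intro a
      have h1 : mlt hNG (irrMap (normConj G (hLG a.2)) χ₀) θ ≠ 0 := by
        have h2 := mlt_irrMap hNG (hLG a.2) (hLN a.2) χ₀ θ
        rw [(inv_iff_irrMap hLN θ).mp hθ a a.2] at h2
        rw [h2]; exact hχ₀
      obtain ⟨l, hl⟩ := exists_tw_eq hQab χ₀ (irrMap (normConj G (hLG a.2)) χ₀)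
        (inner_restr_ne_zero hNG _ _ θ hχ₀ h1)
      exact ⟨l, Subtype.ext hl⟩)
  refine ⟨l • χ₀, ?_, ?_⟩
  · rw [inv_iff_irrMap hLG]
    intro y hy
    exact hl ⟨y, hy⟩
  · have := Fintype.ofFinite N
    rw [mlt_ne_zero_iff] at hχ₀ ⊢
    have e : (fun d : N => ((l • χ₀ : IrrCharacter G) : G → ℂ) ⟨d, hNG d.2⟩) =
        fun d : N => (χ₀ : G → ℂ) ⟨d, hNG d.2⟩ := by
      funext d
      rw [hs2]
      have h3 : ((⟨d, hNG d.2⟩ : G) : G ⧸ N.subgroupOf G) = 1 :=
        (QuotientGroup.eq_one_iff _).mpr (mem_subgroupOf.mpr d.2)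
      rw [h3, map_one, Units.val_one, one_mul]
    rw [e]; exact hχ₀

end Cfsg.Agent.H27
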