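import Cfsg.Agent.H27.GlInv2

set_option autoImplicit false

/-! # Invariant characters above invariant characters, solvable quotient: the chain -/

universe u

namespace Cfsg.Agent.H27

open Subgroup Cfsg Cfsg.Agent.H3 Cfsg.Agent.H11
open Cfsg.Agent.H26 (irrMap irrMap_apply irrMap_symm_apply irrMap_apply' normConj normConj_coe)
open scoped ComplexConjugate

variable {Γ : Type u} [Group Γ] [Finite Γ]

theorem mlt_trans_ne {K C₁ C : Subgroup Γ} (h1 : C₁ ≤ K) (h2 : C ≤ C₁)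
    {χ : IrrCharacter K} {η : IrrCharacter C₁} {ξ : IrrCharacter C} (a : mlt h1 χ η ≠ 0)
    (b : mlt h2 η ξ ≠ 0) : mlt (h2.trans h1) χ ξ ≠ 0 := by
  classical
  have := Fintype.ofFinite (IrrCharacter C₁)
  rw [mlt_comp h1 h2]
  have : 0 < ∑ η : IrrCharacter C₁, mlt h1 χ η * mlt h2 η ξ :=
    Finset.sum_pos' (fun _ _ => Nat.zero_le _) ⟨η, Finset.mem_univ _,
      Nat.mul_pos (Nat.pos_of_ne_zero a) (Nat.pos_of_ne_zero b)⟩
  exact this.ne'

theorem mlt_self_ne {N : Subgroup Γ} (h : N ≤ N) (θ : IrrCharacter N) : mlt h θ θ ≠ 0 := by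
  classical
  have := Fintype.ofFinite N
  intro h0
  have h1 := mlt_eq_classInner h θ θ
  have e : (fun c : N => (θ : N → ℂ) (inclusion h c)) = (θ : N → ℂ) := rfl
  rw [e, classInner_self_of_irr θ.2, h0] at h1
  simp at h1

theorem exists_inv_above {L G N : Subgroup Γ} (hLG : L ≤ normalizer (G : Set Γ))
    (hLN : L ≤ normalizer (N : Set Γ)) (hNG : N ≤ G) [hn : (N.subgroupOf G).Normal]
    (hs : Group.IsSolvable (G ⧸ N.subgroupOf G))
    (hcop : ((L ⊓ N).relIndex L).Coprime (N.relIndex G)) (θ : IrrCharacter N)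
    (hθ : Inv (L : Set Γ) N θ) : ∃ χ : IrrCharacter G, Inv (L : Set Γ) G χ ∧ mlt hNG χ θ ≠ 0 := by
  classical
  obtain ⟨n, hn0⟩ := hs
  let E : ℕ → Subgroup Γ := fun i =>
    ((derivedSeries (G ⧸ N.subgroupOf G) i).comap (QuotientGroup.mk' (N.subgroupOf G))).map G.subtype
  have hmem : ∀ i (x : Γ), x ∈ E i ↔ ∃ hx : x ∈ G,
      ((⟨x, hx⟩ : G) : G ⧸ N.subgroupOf G) ∈ derivedSeries (G ⧸ N.subgroupOf G) i := by
    intro i x
    constructor
    · rintro ⟨y, hy, rfl⟩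
      exact ⟨y.2, hy⟩
    · rintro ⟨hx, h⟩
      exact ⟨⟨x, hx⟩, h, rfl⟩
  have hE0 : E 0 = G := by
    ext x
    rw [hmem, derivedSeries_zero]
    exact ⟨fun h => h.1, fun h => ⟨h, mem_top _⟩⟩
  have hEn : E n = N := by
    ext x
    rw [hmem, hn0]
    constructor
    · rintro ⟨hx, h⟩
      rw [mem_bot, QuotientGroup.eq_one_iff, mem_subgroupOf] at h
      exact h
    · intro h
      refine ⟨hNG h, ?_⟩
      rw [mem_bot, QuotientGroup.eq_one_iff, mem_subgroupOf]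
      exact h
  have hEG : ∀ i, E i ≤ G := fun i => map_subtype_le _
  have hNE : ∀ i, N ≤ E i := by
    intro i x hx
    rw [hmem]
    refine ⟨hNG hx, ?_⟩
    have : (((⟨x, hNG hx⟩ : G) : G ⧸ N.subgroupOf G)) = 1 := by
      rw [QuotientGroup.eq_one_iff, mem_subgroupOf]; exact hx
    rw [this]; exact one_mem _
  have hanti : ∀ i, E (i + 1) ≤ E i := by
    intro i x
    rw [hmem, hmem]
    rintro ⟨hx, h⟩
    exact ⟨hx, derivedSeries_antitone _ (Nat.le_succ i) h⟩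
  have hLE : ∀ i, L ≤ normalizer (E i : Set Γ) := by
    intro i
    apply Cfsg.Agent.H23.le_normalizer_of_conj_mem
    intro l hl x hx
    rw [hmem] at hx ⊢
    obtain ⟨hxG, hx⟩ := hx
    refine ⟨(mem_normalizer_iff.mp (hLG hl) x).mp hxG, ?_⟩
    have h1 : (derivedSeries (G ⧸ N.subgroupOf G) i).map (cq hLG hLN ⟨l, hl⟩).toMonoidHom =
        derivedSeries (G ⧸ N.subgroupOf G) i :=
      (characteristic_iff_map_eq.mp (derivedSeries_characteristic (G ⧸ N.subgroupOf G) i)) _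
    rw [← h1]
    exact ⟨_, hx, rfl⟩
  have hEE : ∀ i, E i ≤ normalizer (E (i + 1) : Set Γ) := by
    intro i
    apply Cfsg.Agent.H23.le_normalizer_of_conj_mem
    intro l hl x hx
    rw [hmem] at hx hl ⊢
    obtain ⟨hxG, hx⟩ := hx
    obtain ⟨hlG, _⟩ := hl
    refine ⟨mul_mem (mul_mem hlG hxG) (inv_mem hlG), ?_⟩
    have h1 := (derivedSeries_normal (G ⧸ N.subgroupOf G) (i + 1)).conj_mem _ hx
      ((⟨l, hlG⟩ : G) : G ⧸ N.subgroupOf G)
    exact h1
  have hcom : ∀ i, ∀ a ∈ E i, ∀ b ∈ E i, a * b * a⁻¹ * b⁻¹ ∈ E (i + 1) := by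
    intro i a ha b hb
    rw [hmem] at ha hb ⊢
    obtain ⟨haG, ha⟩ := ha
    obtain ⟨hbG, hb⟩ := hb
    refine ⟨mul_mem (mul_mem (mul_mem haG hbG) (inv_mem haG)) (inv_mem hbG), ?_⟩
    rw [derivedSeries_succ]
    exact commutator_mem_commutator ha hb
  let P : Subgroup Γ → Prop := fun K =>
    ∀ h : N ≤ K, ∃ ψ : IrrCharacter K, Inv (L : Set Γ) K ψ ∧ mlt h ψ θ ≠ 0
  have hPn : P (E n) := by
    rw [hEn]
    intro h
    exact ⟨θ, hθ, mlt_self_ne h θ⟩
  have hstep : ∀ i, P (E (i + 1)) → P (E i) := by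
    intro i hi h
    obtain ⟨ψ, h1, h2⟩ := hi (hNE (i + 1))
    obtain ⟨χ, h3, h4⟩ := exists_inv_above_ab (hLE i) (hLE (i + 1)) (hanti i) (hEE i) (hcom i) (by
      refine Nat.Coprime.coprime_dvd_left (relIndex_dvd_of_le_left L
        (inf_le_inf_left L (hNE (i + 1)))) (Nat.Coprime.coprime_dvd_right ?_ hcop)
      rw [← relIndex_mul_relIndex N (E i) G (hNE i) (hEG i),
        ← relIndex_mul_relIndex N (E (i + 1)) (E i) (hNE (i + 1)) (hanti i)]
      exact (Dvd.intro_left _ rfl).mul_right _) ψ h1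
    exact ⟨χ, h3, mlt_trans_ne (hanti i) (hNE (i + 1)) h4 h2⟩
  have hall : ∀ k, k ≤ n → P (E (n - k)) := by
    intro k
    induction k with
    | zero => intro _; exact hPn
    | succ k ih =>
      intro hk
      have h1 := ih (by omega)
      have h2 : n - k = (n - (k + 1)) + 1 := by omega
      rw [h2] at h1
      exact hstep _ h1
  have hP0 := hall n le_rfl
  rw [Nat.sub_self, hE0] at hP0
  exact hP0 hNG

end Cfsg.Agent.H27
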