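import Cfsg.Agent.H27.GlPair
import Cfsg.Agent.H27.Galois

set_option autoImplicit false

/-! # Characters of cyclic groups with values ±1 off the identity -/

universe u

namespace Cfsg.Agent.H27

open Subgroup Cfsg Cfsg.Agent.H3 Cfsg.Agent.H11
open scoped ComplexConjugate Pointwise

variable {A : Type u} [Group A] [Fintype A]

theorem char_pow_eq_of_int {a : A → ℂ} (ha : IsCharacter A a) {x : A} {k : ℤ} (hk : a x = k)
    {j : ℕ} (hj : j.Coprime (Nat.card A)) : a (x ^ j) = a x := by
  have h0 : Nat.card A ≠ 0 := Nat.card_pos.ne'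
  have h1 : IsGalSeq (Nat.card A) (fun m => a (x ^ m) + (-k : ℤ)) :=
    (IsGalSeq.char ha h0 pow_card_eq_one').add (IsGalSeq.intCast (-k))
  by_contra hne
  have h2 : (fun m => a (x ^ m) + (-k : ℤ)) j ≠ 0 := by
    intro h
    apply hne
    simp only [Int.cast_neg] at h
    rw [hk]
    linear_combination h
  have h3 := h1.ne_zero_of h0 hj (Nat.coprime_one_left _) h2
  apply h3
  simp only [pow_one, hk, Int.cast_neg]
  ring

theorem eq_of_li {p : ℕ} {M : Ideal AlgInt} (hM : IsPModular p M) (hp2 : p ≠ 2) {a b : ℂ}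
    (ha : a = 1 ∨ a = -1) (hb : b = 1 ∨ b = -1) (h : MemLocalIdeal M (a - b)) : a = b := by
  have hpr := hM.2.1.isPrime
  have key : ¬ MemLocalIdeal M ((2 : ℤ) : ℂ) := by
    rw [li_intCast_iff hM]
    intro hd
    have h1 : p ∣ 2 := by exact_mod_cast hd
    have := (Nat.prime_dvd_prime_iff_eq hM.1 Nat.prime_two).mp h1
    exact hp2 this
  rcases ha with rfl | rfl <;> rcases hb with rfl | rfl
  · rfl
  · exfalso; apply key
    have e : ((2 : ℤ) : ℂ) = 1 - -1 := by norm_num
    rw [e]; exact h
  · exfalso; apply key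
    have e : ((2 : ℤ) : ℂ) = -(-1 - 1) := by norm_num
    rw [e]; exact li_neg h
  · rfl

/-- the key congruence -/
theorem sign_congr [IsCyclic A] {a : A → ℂ} (ha : IsCharacter A a)
    (hv : ∀ x, x ≠ 1 → a x = 1 ∨ a x = -1) {z : A} (hz : z ≠ 1)
    (h1 : ∀ x, x ∉ zpowers z → a (x * z) = a x)
    (h2 : ∀ x, x ∈ zpowers z → x ≠ 1 → a x = a z) :
    ∃ k : ℕ, a 1 = a z + Nat.card A * k := by
  classical
  letI : CommGroup A := IsCyclic.commGroup
  have hA : ∀ x y : A, x * y = y * x := mul_comm
  haveI : Finite (A →* ℂˣ) := finite_dual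
  have := Fintype.ofFinite (A →* ℂˣ)
  -- a linear character nontrivial at `z`
  obtain ⟨l, hl⟩ : ∃ l : A →* ℂˣ, (l z : ℂ) ≠ 1 := by
    by_contra hcon
    push Not at hcon
    have h3 := sum_dual hA z hz
    rw [Finset.sum_congr rfl (fun l _ => hcon l), Finset.sum_const, Finset.card_univ,
      nsmul_eq_mul, mul_one] at h3
    have h4 : Fintype.card (A →* ℂˣ) = 0 := by exact_mod_cast h3
    exact Fintype.card_ne_zero h4
  obtain ⟨k, hk⟩ := exists_nat_lin ha l
  refine ⟨k, ?_⟩
  have hn0 : (Nat.card A : ℂ) ≠ 0 := by exact_mod_cast Nat.card_pos.ne'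
  have h3 : ∑ x : A, a x * conj (l x : ℂ) = Nat.card A * k := by
    rw [← hk]
    unfold classInner
    rw [mul_inv_cancel_left₀ hn0]
  -- split
  rw [← Finset.sum_filter_add_sum_filter_not Finset.univ (fun x => x ∈ zpowers z)] at h3
  have h4 : ∑ x ∈ Finset.univ.filter (fun x => x ∉ zpowers z), a x * conj (l x : ℂ) = 0 := by
    have h5 : ∑ x ∈ Finset.univ.filter (fun x => x ∉ zpowers z), a x * conj (l x : ℂ) =
        conj (l z : ℂ) * ∑ x ∈ Finset.univ.filter (fun x => x ∉ zpowers z),
          a x * conj (l x : ℂ) := by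
      conv_lhs =>
        rw [← Finset.sum_bijective (s := Finset.univ.filter (fun x => x ∉ zpowers z))
          (t := Finset.univ.filter (fun x => x ∉ zpowers z)) (fun x => x * z)
          (Group.mulRight_bijective z)
          (f := fun x => a (x * z) * conj (l (x * z) : ℂ))
          (g := fun x => a x * conj (l x : ℂ))
          (by
            intro x
            rw [Finset.mem_filter, Finset.mem_filter]
            simp only [Finset.mem_univ, true_and]
            rw [not_iff_not]
            constructor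
            · intro h; exact mul_mem h (mem_zpowers z)
            · intro h
              have := mul_mem h (inv_mem (mem_zpowers z))
              rwa [mul_inv_cancel_right] at this) (fun x _ => rfl)]
      rw [Finset.mul_sum]
      apply Finset.sum_congr rfl
      intro x hx
      rw [h1 x (Finset.mem_filter.mp hx).2, map_mul, Units.val_mul, map_mul]
      ring
    have h6 : (1 - conj (l z : ℂ)) * ∑ x ∈ Finset.univ.filter (fun x => x ∉ zpowers z),
          a x * conj (l x : ℂ) = 0 := by linear_combination h5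
    rcases mul_eq_zero.mp h6 with h7 | h7
    · exfalso
      apply hl
      have h8 : conj (l z : ℂ) = 1 := (sub_eq_zero.mp h7).symm
      have := congrArg conj h8
      rwa [Complex.conj_conj, map_one] at this
    · exact h7
  have h5 : ∑ x ∈ Finset.univ.filter (fun x => x ∈ zpowers z), conj (l x : ℂ) = 0 := by
    have h6 : ∑ x ∈ Finset.univ.filter (fun x => x ∈ zpowers z), conj (l x : ℂ) =
        conj (l z : ℂ) * ∑ x ∈ Finset.univ.filter (fun x => x ∈ zpowers z), conj (l x : ℂ) := by
      conv_lhs =>
        rw [← Finset.sum_bijective (s := Finset.univ.filter (fun x => x ∈ zpowers z))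
          (t := Finset.univ.filter (fun x => x ∈ zpowers z)) (fun x => x * z)
          (Group.mulRight_bijective z)
          (f := fun x => conj (l (x * z) : ℂ))
          (g := fun x => conj (l x : ℂ))
          (by
            intro x
            rw [Finset.mem_filter, Finset.mem_filter]
            simp only [Finset.mem_univ, true_and]
            constructor
            · intro h; exact mul_mem h (mem_zpowers z)
            · intro h
              have := mul_mem h (inv_mem (mem_zpowers z))
              rwa [mul_inv_cancel_right] at this) (fun x _ => rfl)]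
      rw [Finset.mul_sum]
      apply Finset.sum_congr rfl
      intro x hx
      rw [map_mul, Units.val_mul, map_mul]
      ring
    have h7 : (1 - conj (l z : ℂ)) * ∑ x ∈ Finset.univ.filter (fun x => x ∈ zpowers z),
          conj (l x : ℂ) = 0 := by linear_combination h6
    rcases mul_eq_zero.mp h7 with h8 | h8
    · exfalso
      apply hl
      have h9 : conj (l z : ℂ) = 1 := (sub_eq_zero.mp h8).symm
      have := congrArg conj h9
      rwa [Complex.conj_conj, map_one] at this
    · exact h8
  have h1m : (1 : A) ∈ Finset.univ.filter (fun x => x ∈ zpowers z) :=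
    Finset.mem_filter.mpr ⟨Finset.mem_univ _, one_mem _⟩
  have h6 : ∑ x ∈ Finset.univ.filter (fun x => x ∈ zpowers z), a x * conj (l x : ℂ) =
      a 1 - a z := by
    rw [← Finset.add_sum_erase _ _ h1m] at h5 ⊢
    have h7 : ∑ x ∈ (Finset.univ.filter (fun x => x ∈ zpowers z)).erase 1, a x * conj (l x : ℂ) =
        a z * ∑ x ∈ (Finset.univ.filter (fun x => x ∈ zpowers z)).erase 1, conj (l x : ℂ) := by
      rw [Finset.mul_sum]
      apply Finset.sum_congr rfl
      intro x hx
      rw [h2 x (Finset.mem_filter.mp (Finset.mem_of_mem_erase hx)).2 (Finset.ne_of_mem_erase hx)]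
    rw [h7]
    simp only [map_one, Units.val_one] at h5 ⊢
    linear_combination (a z) * h5
  rw [h6, h4, add_zero] at h3
  linear_combination h3

/-- finish: from the congruence to the linear character -/
theorem sign_finish [IsCyclic A] {a : A → ℂ} (ha : IsCharacter A a)
    (hv : ∀ x, x ≠ 1 → a x = 1 ∨ a x = -1) {ε : ℤ} (hε : ε = 1 ∨ ε = -1) {k : ℕ}
    (hk : a 1 = ε + Nat.card A * k) :
    ∃ μ : A →* ℂˣ, (∀ x, (μ x : ℂ) * μ x = 1) ∧ ∀ x, x ≠ 1 → a x = ε * μ x := by
  classical
  letI : CommGroup A := IsCyclic.commGroup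
  have hA : ∀ x y : A, x * y = y * x := mul_comm
  haveI : Finite (A →* ℂˣ) := finite_dual
  have := Fintype.ofFinite (A →* ℂˣ)
  have hn0 : (Nat.card A : ℂ) ≠ 0 := by exact_mod_cast Nat.card_pos.ne'
  let ρ : A → ℂ := ∑ l : A →* ℂˣ, (linIrr l : A → ℂ)
  have hρ : IsCharacter A ρ := isChar_sum _ _ fun l _ => irr_isChar (linIrr l).2
  have hρ1 : ρ 1 = Nat.card A := by
    show (∑ l : A →* ℂˣ, (linIrr l : A → ℂ)) 1 = _
    rw [Finset.sum_apply]
    simp only [linIrr_apply, map_one, Units.val_one]
    rw [Finset.sum_const, Finset.card_univ, nsmul_eq_mul, mul_one, ← Nat.card_eq_fintype_card,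
      card_dual hA]
  have hρ0 : ∀ x, x ≠ 1 → ρ x = 0 := by
    intro x hx
    show (∑ l : A →* ℂˣ, (linIrr l : A → ℂ)) x = _
    rw [Finset.sum_apply]
    exact sum_dual hA x hx
  let f : A → ℂ := a - (k : ℤ) • ρ
  have hf : IsGeneralizedCharacter A f := isGen_sub (isGen_of_char ha) (isGen_zsmul _ (isGen_of_char hρ))
  have hf1 : f 1 = ε := by
    show a 1 - ((k : ℤ) • ρ) 1 = ε
    rw [Pi.smul_apply, hρ1, hk]; simp; ring
  have hfx : ∀ x, x ≠ 1 → f x = a x := by
    intro x hx
    show a x - ((k : ℤ) • ρ) x = _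
    rw [Pi.smul_apply, hρ0 x hx]; simp
  have hfv : ∀ x, f x = 1 ∨ f x = -1 := by
    intro x
    by_cases hx : x = 1
    · subst hx; rw [hf1]; rcases hε with rfl | rfl <;> simp
    · rw [hfx x hx]; exact hv x hx
  have hnorm : classInner f f = 1 := by
    unfold classInner
    have : ∀ x, f x * conj (f x) = 1 := by
      intro x
      rcases hfv x with h | h <;> rw [h] <;> simp
    simp only [this]
    rw [Finset.sum_const, Finset.card_univ, nsmul_eq_mul, mul_one, ← Nat.card_eq_fintype_card,
      inv_mul_cancel₀ hn0]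
  have hirr : IsIrrCharacter A (fun x => (ε : ℂ) * f x) := by
    rcases gen_norm_one hf hnorm with h | h
    · rcases hε with rfl | rfl
      · have : (fun x => ((1 : ℤ) : ℂ) * f x) = f := by funext x; simp
        rw [this]; exact h
      · exfalso
        have h2 := charDegree_spec h
        rw [hf1] at h2
        have h3 : ((-1 : ℤ) : ℂ) = ((charDegree f : ℤ) : ℂ) := by rw [h2.1]; simp
        have h4 : (-1 : ℤ) = (charDegree f : ℤ) := by exact_mod_cast h3
        omega
    · rcases hε with rfl | rfl
      · exfalso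
        have h2 := charDegree_spec h
        have h5 : (-f) 1 = -(f 1) := rfl
        rw [h5, hf1] at h2
        have h3 : ((-1 : ℤ) : ℂ) = ((charDegree (-f) : ℤ) : ℂ) := by
          have := h2.1
          push_cast at this ⊢
          exact this
        have h4 : (-1 : ℤ) = (charDegree (-f) : ℤ) := by exact_mod_cast h3
        omega
      · have : (fun x => ((-1 : ℤ) : ℂ) * f x) = -f := by funext x; simp
        rw [this]; exact h
  have hε2 : (ε : ℂ) * ε = 1 := by rcases hε with rfl | rfl <;> simp
  obtain ⟨μ, hμ⟩ := exists_hom_of_char_one (irr_isChar hirr) (by rw [hf1]; exact hε2)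
  have hμx : ∀ x, (μ x : ℂ) = ε * f x := fun x => (congrFun hμ x).symm
  refine ⟨μ, fun x => ?_, fun x hx => ?_⟩
  · rw [hμx]
    have : f x * f x = 1 := by rcases hfv x with h | h <;> rw [h] <;> simp
    linear_combination (f x * f x) * hε2 + this
  · rw [hμx, ← mul_assoc, hε2, one_mul, hfx x hx]

end Cfsg.Agent.H27
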