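import Cfsg.Agent.H27.GlSign
import Cfsg.Agent.H27.GlCan3

set_option autoImplicit false

/-! # Characters of cyclic groups with values ±1 off the identity, II -/

universe u

namespace Cfsg.Agent.H27

open Subgroup Cfsg Cfsg.Agent.H3 Cfsg.Agent.H11
open scoped ComplexConjugate Pointwise

variable {A : Type u} [Group A] [Fintype A]

theorem invol_unique [IsCyclic A] {z y : A} (hz : orderOf z = 2) (hy : orderOf y = 2) : y = z := by
  classical
  by_contra hne
  have h1 := IsCyclic.card_pow_eq_one_le (α := A) (n := 2) (by norm_num)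
  have h2 : ({1, z, y} : Finset A) ⊆ Finset.univ.filter (fun a : A => a ^ 2 = 1) := by
    intro a ha
    rw [Finset.mem_filter]
    refine ⟨Finset.mem_univ _, ?_⟩
    rw [Finset.mem_insert, Finset.mem_insert, Finset.mem_singleton] at ha
    rcases ha with rfl | rfl | rfl
    · exact one_pow 2
    · rw [← hz]; exact pow_orderOf_eq_one _
    · rw [← hy]; exact pow_orderOf_eq_one _
  have hz1 : z ≠ 1 := by rintro rfl; rw [orderOf_one] at hz; omega
  have hy1 : y ≠ 1 := by rintro rfl; rw [orderOf_one] at hy; omega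
  have h3 : ({1, z, y} : Finset A).card = 3 := by
    rw [Finset.card_insert_of_notMem, Finset.card_insert_of_notMem, Finset.card_singleton]
    · rw [Finset.mem_singleton]; exact fun h => hne h.symm
    · rw [Finset.mem_insert, Finset.mem_singleton]
      rintro (h | h)
      · exact hz1 h.symm
      · exact hy1 h.symm
  have h4 := Finset.card_le_card h2
  rw [h3] at h4
  omega

theorem sign_lemma [IsCyclic A] [Nontrivial A] {a : A → ℂ} (ha : IsCharacter A a)
    (hv : ∀ x, x ≠ 1 → a x = 1 ∨ a x = -1) :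
    ∃ (k : ℕ) (ε : ℤ) (μ : A →* ℂˣ), (ε = 1 ∨ ε = -1) ∧ (∀ x, (μ x : ℂ) * μ x = 1) ∧
      (∀ x, x ≠ 1 → a x = ε * μ x) ∧ a 1 = ε + Nat.card A * k := by
  classical
  letI : CommGroup A := IsCyclic.commGroup
  suffices h : ∃ z : A, z ≠ 1 ∧ (∀ x, x ∉ zpowers z → a (x * z) = a x) ∧
      (∀ x, x ∈ zpowers z → x ≠ 1 → a x = a z) by
    obtain ⟨z, hz, h1, h2⟩ := h
    obtain ⟨k, hk⟩ := sign_congr ha hv hz h1 h2
    obtain ⟨ε, hε, he⟩ : ∃ ε : ℤ, (ε = 1 ∨ ε = -1) ∧ a z = ε := by
      rcases hv z hz with h | h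
      · exact ⟨1, Or.inl rfl, by rw [h]; simp⟩
      · exact ⟨-1, Or.inr rfl, by rw [h]; simp⟩
    rw [he] at hk
    obtain ⟨μ, h3, h4⟩ := sign_finish ha hv hε hk
    exact ⟨k, ε, μ, hε, h3, h4, hk⟩
  by_cases hodd : ∃ p : ℕ, p.Prime ∧ p ≠ 2 ∧ p ∣ Nat.card A
  · obtain ⟨p, hp, hp2, hpd⟩ := hodd
    haveI := Fact.mk hp
    obtain ⟨z, hz⟩ := exists_prime_orderOf_dvd_card' p hpd
    obtain ⟨M, hM⟩ := exists_isPModular hp
    have hpr := hM.2.1.isPrime
    have hz1 : z ≠ 1 := by
      rintro rfl; rw [orderOf_one] at hz; exact hp.one_lt.ne hz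
    refine ⟨z, hz1, ?_, ?_⟩
    · intro x hx
      have hx1 : x ≠ 1 := by rintro rfl; exact hx (one_mem _)
      have hxz : x * z ≠ 1 := by
        intro h
        apply hx
        rw [eq_inv_of_mul_eq_one_left h]
        exact inv_mem (mem_zpowers z)
      have h1 := li_char_mul_sub hM ha (Commute.all z x) ⟨1, by rw [pow_one]; exact hz⟩
      rw [mul_comm z x] at h1
      exact eq_of_li hM hp2 (hv _ hxz) (hv _ hx1) h1
    · intro x hx hx1
      have hxp : ∃ k : ℕ, orderOf x = p ^ k := by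
        have h1 : orderOf x ∣ p := by
          rw [← hz]
          obtain ⟨m, rfl⟩ := mem_zpowers_iff.mp hx
          exact orderOf_dvd_of_pow_eq_one (by
            rw [← zpow_natCast, zpow_comm, zpow_natCast, pow_orderOf_eq_one, one_zpow])
        rcases (Nat.dvd_prime hp).mp h1 with h | h
        · exact ⟨0, by rw [h, pow_zero]⟩
        · exact ⟨1, by rw [h, pow_one]⟩
      have h1 := li_char_mul_sub hM ha (Commute.one_right x) hxp
      have h2 := li_char_mul_sub hM ha (Commute.one_right z) ⟨1, by rw [pow_one]; exact hz⟩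
      rw [mul_one] at h1 h2
      have h3 := li_sub h1 h2
      rw [sub_sub_sub_cancel_right] at h3
      exact eq_of_li hM hp2 (hv _ hx1) (hv _ hz1) h3
  · push Not at hodd
    have hcard1 : Nat.card A ≠ 1 := Finite.one_lt_card.ne'
    have h2d : 2 ∣ Nat.card A := by
      obtain ⟨q, hq, hqd⟩ := Nat.exists_prime_and_dvd hcard1
      by_cases h : q = 2
      · rw [← h]; exact hqd
      · exact absurd hqd (hodd q hq h)
    haveI : Fact (Nat.Prime 2) := ⟨Nat.prime_two⟩
    obtain ⟨z, hz⟩ := exists_prime_orderOf_dvd_card' 2 h2d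
    have hz1 : z ≠ 1 := by
      rintro rfl; rw [orderOf_one] at hz; omega
    have hpow : ∃ n, Nat.card A = 2 ^ n := by
      refine ⟨_, Nat.eq_prime_pow_of_unique_prime_dvd Nat.card_pos.ne' ?_⟩
      intro d hd hdd
      by_contra h
      exact hodd d hd h hdd
    refine ⟨z, hz1, ?_, ?_⟩
    · intro x hx
      have hx1 : x ≠ 1 := by rintro rfl; exact hx (one_mem _)
      obtain ⟨n, hn⟩ := hpow
      obtain ⟨i, _, hi⟩ := (Nat.dvd_prime_pow Nat.prime_two).mp
        (hn ▸ orderOf_dvd_natCard x : orderOf x ∣ 2 ^ n)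
      have hi0 : i ≠ 0 := by
        rintro rfl; rw [pow_zero, orderOf_eq_one_iff] at hi; exact hx1 hi
      have hi1 : i ≠ 1 := by
        rintro rfl
        rw [pow_one] at hi
        apply hx
        rw [invol_unique hz hi]
        exact mem_zpowers z
      obtain ⟨j, rfl⟩ : ∃ j, i = j + 2 := ⟨i - 2, by omega⟩
      have h1 : orderOf (x ^ 2 ^ (j + 1)) = 2 := by
        rw [orderOf_pow, hi]
        have : Nat.gcd (2 ^ (j + 2)) (2 ^ (j + 1)) = 2 ^ (j + 1) :=
          Nat.gcd_eq_right (pow_dvd_pow 2 (by omega))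
        rw [this, pow_succ 2 (j + 1), Nat.mul_div_cancel_left _ (by positivity)]
      have h2 : x ^ 2 ^ (j + 1) = z := invol_unique hz h1
      have h3 : x * z = x ^ (2 ^ (j + 1) + 1) := by
        rw [pow_succ, h2, mul_comm]
      rw [h3]
      obtain ⟨k, hk⟩ : ∃ k : ℤ, a x = k := by
        rcases hv x hx1 with h | h
        · exact ⟨1, by rw [h]; simp⟩
        · exact ⟨-1, by rw [h]; simp⟩
      apply char_pow_eq_of_int ha hk
      rw [hn]
      apply Nat.Coprime.pow_right
      rw [Nat.coprime_two_right]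
      exact ⟨2 ^ j, by rw [pow_succ]; ring⟩
    · intro x hx hx1
      have h1 : orderOf x ∣ 2 := by
        rw [← hz]
        obtain ⟨m, rfl⟩ := mem_zpowers_iff.mp hx
        exact orderOf_dvd_of_pow_eq_one (by
          rw [← zpow_natCast, zpow_comm, zpow_natCast, pow_orderOf_eq_one, one_zpow])
      rcases (Nat.dvd_prime Nat.prime_two).mp h1 with h | h
      · exact absurd (orderOf_eq_one_iff.mp h) hx1
      · rw [invol_unique hz h]

/-- Reaching a generator by multiplying with elements of prime power order. -/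
theorem reach_generator [IsCyclic A] (P : A → Prop)
    (hP : ∀ (x w : A) (p : ℕ), p.Prime → P x → (∃ k, orderOf w = p ^ k) → x * w ≠ 1 → P (x * w))
    {x : A} (hx : P x) : ∃ y, P y ∧ orderOf y = Nat.card A := by
  classical
  letI : CommGroup A := IsCyclic.commGroup
  obtain ⟨y, hy, hmax⟩ := (Finset.univ.filter P).exists_max_image orderOf
    ⟨x, Finset.mem_filter.mpr ⟨Finset.mem_univ x, hx⟩⟩
  have hyP := (Finset.mem_filter.mp hy).2
  refine ⟨y, hyP, ?_⟩
  by_contra hne
  obtain ⟨g, hg⟩ := IsCyclic.exists_generator (α := A)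
  have hgo : orderOf g = Nat.card A := orderOf_eq_card_of_forall_mem_zpowers hg
  set n := Nat.card A with hn
  have hn0 : n ≠ 0 := Nat.card_pos.ne'
  have hyn : orderOf y ∣ n := orderOf_dvd_natCard y
  -- a prime with smaller multiplicity
  obtain ⟨p, hp, hpd⟩ : ∃ p : ℕ, p.Prime ∧ ¬ p ^ (n.factorization p) ∣ orderOf y := by
    by_contra hcon
    push Not at hcon
    apply hne
    apply Nat.dvd_antisymm hyn
    rw [← Nat.factorization_le_iff_dvd hn0 (orderOf_pos y).ne']
    intro p
    by_cases hp : p.Prime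
    · exact (hp.pow_dvd_iff_le_factorization (orderOf_pos y).ne').mp (hcon p hp)
    · rw [Nat.factorization_eq_zero_of_not_prime _ hp]; exact Nat.zero_le _
  set q := p ^ (n.factorization p) with hq
  set n' := n / q with hn'
  have hqn : q * n' = n := Nat.ordProj_mul_ordCompl_eq_self n p
  have hco : q.Coprime n' := by
    apply Nat.Coprime.pow_left
    exact Nat.coprime_ordCompl hp hn0
  obtain ⟨m, hm1, hm2⟩ := Nat.chineseRemainder hco 1 0
  have hm2' : n' ∣ m := (Nat.modEq_zero_iff_dvd).mp hm2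
  have hmq : q.Coprime m := by
    have : m.gcd q = 1 := (Nat.ModEq.gcd_eq hm1).trans (by simp)
    rw [Nat.Coprime, Nat.gcd_comm]; exact this
  have hmm : m * m ≡ m [MOD n] := by
    rw [← hqn, ← Nat.modEq_and_modEq_iff_modEq_mul hco]
    constructor
    · simpa using hm1.mul_right m
    · exact ((Nat.modEq_zero_iff_dvd).mpr (hm2'.mul_right m)).trans
        ((Nat.modEq_zero_iff_dvd).mpr hm2').symm
  set u := y⁻¹ * g with hu
  have hun : u ^ n = 1 := pow_card_eq_one'
  have hyun : y ^ n = 1 := pow_card_eq_one'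
  have hgn : g ^ n = 1 := pow_card_eq_one'
  have humm : u ^ (m * m) = u ^ m := by
    rw [pow_eq_pow_iff_modEq]
    exact hmm.of_dvd (orderOf_dvd_of_pow_eq_one hun)
  have hw : ∃ k, orderOf (u ^ m) = p ^ k := by
    have h1 : (u ^ m) ^ q = 1 := by
      rw [← pow_mul]
      obtain ⟨t, rfl⟩ := hm2'
      rw [show n' * t * q = (q * n') * t by ring, hqn, pow_mul, hun, one_pow]
    obtain ⟨k, _, hk⟩ := (Nat.dvd_prime_pow hp).mp (orderOf_dvd_of_pow_eq_one h1)
    exact ⟨k, hk⟩
  -- order of the product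
  have hkey : ∀ k : ℕ, (y * u ^ m) ^ k = 1 → q ∣ k ∧ y ^ k = 1 := by
    intro k hk
    rw [mul_pow] at hk
    have h1 : y ^ (k * m) * u ^ (m * k) = 1 := by
      have h2 : (y ^ k * (u ^ m) ^ k) ^ m = 1 := by rw [hk, one_pow]
      rw [mul_pow, ← pow_mul, ← pow_mul, ← pow_mul] at h2
      rw [show m * (k * m) = m * m * k by ring, pow_mul u, humm, ← pow_mul] at h2
      exact h2
    have h3 : g ^ (k * m) = 1 := by
      have e : g = y * u := by rw [hu]; group
      rw [e, mul_pow, mul_comm k m, mul_comm m k]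
      rw [mul_comm m k] at h1
      exact h1
    have h4 : n ∣ k * m := by rw [← hgo]; exact orderOf_dvd_of_pow_eq_one h3
    have h5 : q ∣ k := by
      apply hmq.dvd_of_dvd_mul_right
      exact (Dvd.intro _ hqn).trans h4
    refine ⟨h5, ?_⟩
    have h6 : u ^ (m * k) = 1 := by
      obtain ⟨t, ht⟩ := h4
      rw [mul_comm m k, ht, pow_mul, hun, one_pow]
    rw [← pow_mul, h6, mul_one] at hk
    exact hk
  have h1 := hkey _ (pow_orderOf_eq_one (y * u ^ m))
  have h2 : orderOf y ∣ orderOf (y * u ^ m) := orderOf_dvd_of_pow_eq_one h1.2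
  have hne1 : y * u ^ m ≠ 1 := by
    intro h
    rw [h, orderOf_one] at h1
    have hq1 : q = 1 := Nat.dvd_one.mp h1.1
    apply hpd
    rw [hq1]; exact one_dvd _
  have h3 := hP y (u ^ m) p hp hyP hw hne1
  have h4 := hmax _ (Finset.mem_filter.mpr ⟨Finset.mem_univ _, h3⟩)
  have h5 : orderOf (y * u ^ m) = orderOf y :=
    le_antisymm h4 (Nat.le_of_dvd (orderOf_pos _) h2)
  rw [h5] at h1
  exact hpd h1.1

end Cfsg.Agent.H27
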