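import Cfsg.Agent.H27.GlInv3
import Cfsg.Agent.H27.GlCan3
import Cfsg.Agent.H27.Kernel

set_option autoImplicit false

/-! # Invariant characters above an invariant character, central case -/

universe u

namespace Cfsg.Agent.H27

open Subgroup Cfsg Cfsg.Agent.H3 Cfsg.Agent.H11
open Cfsg.Agent.H26 (irrMap irrMap_apply irrMap_symm_apply irrMap_apply' normConj normConj_coe)
open scoped ComplexConjugate Pointwise

theorem nat_split (n a : ℕ) (hn : n ≠ 0) :
    ∃ u w, n = u * w ∧ w.Coprime a ∧ u ∣ a ^ n := by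
  obtain ⟨w, hw⟩ := Nat.gcd_dvd_left n (a ^ n)
  refine ⟨n.gcd (a ^ n), w, hw, ?_, Nat.gcd_dvd_right _ _⟩
  set u := n.gcd (a ^ n) with hu
  have hu0 : u ≠ 0 := by
    intro h; rw [h, zero_mul] at hw; exact hn hw
  rw [Nat.coprime_iff_gcd_eq_one]
  by_contra hne
  obtain ⟨p, hp, hpd⟩ := Nat.exists_prime_and_dvd hne
  have hpw : p ∣ w := hpd.trans (Nat.gcd_dvd_left _ _)
  have hpa : p ∣ a := hpd.trans (Nat.gcd_dvd_right _ _)
  set v := u.factorization p with hv
  have h1 : p ^ (v + 1) ∣ n := by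
    rw [hw, pow_succ]
    exact mul_dvd_mul (Nat.ordProj_dvd u p) hpw
  have h2 : v + 1 ≤ n := by
    have h3 := Nat.le_of_dvd (Nat.pos_of_ne_zero hn) h1
    exact (Nat.lt_pow_self hp.one_lt).le.trans h3
  have h3 : p ^ (v + 1) ∣ a ^ n := (pow_dvd_pow_of_dvd hpa (v + 1)).trans (pow_dvd_pow a h2)
  have h4 : p ^ (v + 1) ∣ u := Nat.dvd_gcd h1 h3
  have h5 := (hp.pow_dvd_iff_le_factorization hu0).mp h4
  omega

variable {Γ : Type u} [Group Γ] [Finite Γ]

theorem relIndex_prime_dvd {P Z : Subgroup Γ} (hPZ : P ≤ Z) (hn : Z ≤ normalizer (P : Set Γ))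
    {w : ℕ} (hw : ∀ z ∈ Z, z ^ w ∈ P) {q : ℕ} (hq : q.Prime) (hd : q ∣ P.relIndex Z) : q ∣ w := by
  haveI : (P.subgroupOf Z).Normal := (normal_subgroupOf_iff_le_normalizer hPZ).mpr hn
  haveI := Fact.mk hq
  obtain ⟨y, hy⟩ := exists_prime_orderOf_dvd_card' (G := Z ⧸ P.subgroupOf Z) q hd
  obtain ⟨z, rfl⟩ := QuotientGroup.mk_surjective y
  rw [← hy]
  apply orderOf_dvd_of_pow_eq_one
  rw [← QuotientGroup.mk_pow, QuotientGroup.eq_one_iff, mem_subgroupOf]
  exact hw z z.2

/-- values of a character above a linear character of a central subgroup -/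
theorem central_value {G Z : Subgroup Γ} (hZG : Z ≤ G) (hZ : ∀ z ∈ Z, ∀ x ∈ G, x * z = z * x)
    (ψ : IrrCharacter G) (l : Z →* ℂˣ) (h : mlt hZG ψ (linIrr l) ≠ 0) (z : Z) :
    (ψ : G → ℂ) (inclusion hZG z) = (l z : ℂ) * (ψ : G → ℂ) 1 := by
  classical
  have := Fintype.ofFinite (IrrCharacter Z)
  have hGN : G ≤ normalizer (Z : Set Γ) := by
    apply Cfsg.Agent.H23.le_normalizer_of_conj_mem
    intro x hx z hz
    have : x * z * x⁻¹ = z := by rw [hZ z hz x hx]; group
    rw [this]; exact hz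
  have key : ∀ z : Z, (ψ : G → ℂ) (inclusion hZG z) =
      (mlt hZG ψ (linIrr l) : ℂ) * (l z : ℂ) := by
    intro z
    rw [restr_expand hZG ψ z, Finset.sum_eq_single (linIrr l)]
    · rfl
    · intro η _ hη
      by_cases h0 : mlt hZG ψ η = 0
      · rw [h0]; simp
      · exfalso
        obtain ⟨x, hxG, hx, he⟩ := clifford_mlt hZG hGN ψ (linIrr l) η h h0
        apply hη
        rw [← he]
        apply Subtype.ext
        funext c
        rw [irrMap_apply]
        refine congrArg (linIrr l : Z → ℂ) (Subtype.ext ?_)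
        show x⁻¹ * c * x = c
        rw [mul_assoc, ← hZ c c.2 x hxG]; group
    · intro hb; exact absurd (Finset.mem_univ _) hb
  have h1 := key 1
  rw [map_one, map_one, Units.val_one, mul_one] at h1
  rw [key z, h1]; ring

theorem inv_over_central {G Z : Subgroup Γ} [hG : G.Normal] (hZG : Z ≤ G)
    (hZ : ∀ z ∈ Z, ∀ x : Γ, x * z = z * x) (hcop : G.index.Coprime (Z.relIndex G))
    (hsol : Group.IsSolvable (Γ ⧸ G)) (l : Z →* ℂˣ) :
    ∃ χ : IrrCharacter G, Inv Set.univ G χ ∧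
      ∀ z : Z, (χ : G → ℂ) (inclusion hZG z) = (l z : ℂ) * (χ : G → ℂ) 1 := by
  classical
  set a := G.index with ha
  obtain ⟨u, w, huw, hwa, hua⟩ := nat_split (Nat.card Z) a Nat.card_pos.ne'
  let P : Subgroup Γ :=
    { carrier := {x | x ∈ Z ∧ x ^ u = 1}
      one_mem' := ⟨one_mem _, one_pow _⟩
      mul_mem' := by
        rintro x y ⟨hx, hx'⟩ ⟨hy, hy'⟩
        refine ⟨mul_mem hx hy, ?_⟩
        rw [(show Commute x y from hZ y hy x).mul_pow, hx', hy', one_mul]
      inv_mem' := by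
        rintro x ⟨hx, hx'⟩
        exact ⟨inv_mem hx, by rw [inv_pow, hx', inv_one]⟩ }
  have hPZ : P ≤ Z := fun x hx => hx.1
  have hPc : ∀ z ∈ P, ∀ x : Γ, x * z = z * x := fun z hz x => hZ z (hPZ hz) x
  have hPn : ∀ K : Subgroup Γ, K ≤ normalizer (P : Set Γ) := by
    intro K
    apply Cfsg.Agent.H23.le_normalizer_of_conj_mem
    intro x _ z hz
    have : x * z * x⁻¹ = z := by rw [hPc z hz x]; group
    rw [this]; exact hz
  have hPG : P ≤ G := hPZ.trans hZG
  have hP1 : ∀ q : ℕ, q.Prime → q ∣ Nat.card P → q ∣ u := by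
    intro q hq hd
    haveI := Fact.mk hq
    obtain ⟨y, hy⟩ := exists_prime_orderOf_dvd_card' q hd
    rw [← hy]
    exact orderOf_dvd_of_pow_eq_one (Subtype.ext y.2.2)
  have hP2 : ∀ q : ℕ, q.Prime → q ∣ P.relIndex Z → q ∣ w := by
    intro q hq hd
    refine relIndex_prime_dvd hPZ (hPn Z) (fun z hz => ⟨pow_mem hz w, ?_⟩) hq hd
    rw [← pow_mul, mul_comm, ← huw]
    have : (⟨z, hz⟩ : Z) ^ Nat.card Z = 1 := pow_card_eq_one'
    exact congrArg Subtype.val this
  have hrel : P.relIndex Z * Z.relIndex G = P.relIndex G := relIndex_mul_relIndex P Z G hPZ hZG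
  have hqa : ∀ q : ℕ, q.Prime → q ∣ u → q ∣ a := fun q hq hd =>
    hq.dvd_of_dvd_pow (hd.trans hua)
  have hcop1 : (Nat.card P).Coprime (P.relIndex G) := by
    rw [← hrel]
    apply Nat.Coprime.mul_right
    · apply Nat.Coprime.symm
      apply Nat.coprime_of_dvd
      intro q hq h1 h2
      have h3 := hqa q hq (hP1 q hq h2)
      have h4 := hP2 q hq h1
      exact (Nat.Prime.one_lt hq).ne' (Nat.eq_one_of_dvd_coprimes hwa h4 h3)
    · apply Nat.coprime_of_dvd
      intro q hq h1 h2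
      have h3 := hqa q hq (hP1 q hq h1)
      exact (Nat.Prime.one_lt hq).ne' (Nat.eq_one_of_dvd_coprimes hcop h3 h2)
  have hcop2 : a.Coprime (P.relIndex G) := by
    rw [← hrel]
    apply Nat.Coprime.mul_right _ hcop
    apply Nat.coprime_of_dvd
    intro q hq h1 h2
    exact (Nat.Prime.one_lt hq).ne' (Nat.eq_one_of_dvd_coprimes hwa (hP2 q hq h2) h1)
  -- the complement `H` of `P` in `G`
  haveI hPGn : (P.subgroupOf G).Normal :=
    (normal_subgroupOf_iff_le_normalizer hPG).mpr (hPn G)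
  have hcardP : Nat.card (P.subgroupOf G) = Nat.card P :=
    Nat.card_congr (subgroupOfEquivOfLe hPG).toEquiv
  obtain ⟨H₀, hH₀⟩ := exists_right_complement'_of_coprime (N := P.subgroupOf G)
    (by rw [hcardP]; exact hcop1)
  set H := H₀.map G.subtype with hH
  have hHG : H ≤ G := by
    rintro x ⟨y, _, rfl⟩
    exact y.2
  have hcardH : Nat.card H = P.relIndex G := by
    have h1 : Nat.card H = Nat.card H₀ :=
      (Nat.card_congr (H₀.equivMapOfInjective G.subtype G.subtype_injective).toEquiv).symm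
    rw [h1]
    exact hH₀.symm.index_eq_card.symm
  have hdisj : ∀ x ∈ P, x ∈ H → x = 1 := by
    intro x hx hxH
    have h1 : Nat.Coprime (Nat.card P) (Nat.card H) := by rw [hcardH]; exact hcop1
    have h2 := inf_eq_bot_of_coprime h1
    have h3 : x ∈ P ⊓ H := ⟨hx, hxH⟩
    rw [h2, mem_bot] at h3
    exact h3
  have hdec : ∀ g : G, ∃ p ∈ P, ∃ h ∈ H, (g : Γ) = p * h := by
    intro g
    have h1 := hH₀.mul_eq
    have h2 : g ∈ ((P.subgroupOf G : Subgroup G) : Set G) * (H₀ : Set G) := by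
      rw [h1]; exact Set.mem_univ g
    obtain ⟨p, hp, h, hh, he⟩ := Set.mem_mul.mp h2
    exact ⟨p, mem_subgroupOf.mp hp, h, ⟨h, hh, rfl⟩, by rw [← he]; rfl⟩
  have hHchar : ∀ x ∈ G, x ^ Nat.card H = 1 → x ∈ H := by
    intro x hx hx1
    obtain ⟨p, hp, h, hh, he⟩ := hdec ⟨x, hx⟩
    change x = p * h at he
    have h1 : h ^ Nat.card H = 1 := by
      have : (⟨h, hh⟩ : H) ^ Nat.card H = 1 := pow_card_eq_one'
      exact congrArg Subtype.val this
    rw [he, (show Commute p h from (hPc p hp h).symm).mul_pow, h1, mul_one] at hx1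
    have h2 : p ^ Nat.card P = 1 := by
      have : (⟨p, hp⟩ : P) ^ Nat.card P = 1 := pow_card_eq_one'
      exact congrArg Subtype.val this
    have h3 : orderOf p ∣ Nat.gcd (Nat.card P) (Nat.card H) :=
      Nat.dvd_gcd (orderOf_dvd_of_pow_eq_one h2) (orderOf_dvd_of_pow_eq_one hx1)
    rw [hcardH, hcop1.gcd_eq_one, Nat.dvd_one, orderOf_eq_one_iff] at h3
    rw [he, h3, one_mul]; exact hh
  haveI hHn : H.Normal := by
    refine ⟨fun h hh x => ?_⟩
    apply hHchar _ (hG.conj_mem h (hHG hh) x)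
    rw [conj_pow]
    have : (⟨h, hh⟩ : H) ^ Nat.card H = 1 := pow_card_eq_one'
    rw [show h ^ Nat.card H = 1 from congrArg Subtype.val this]
    group
  have hcardG : Nat.card P * Nat.card H = Nat.card G := by
    rw [hcardH]
    have := Subgroup.card_mul_index (P.subgroupOf G)
    rw [hcardP] at this
    exact this
  have hHrel : H.relIndex G = Nat.card P := by
    have h1 := Subgroup.card_mul_index (H.subgroupOf G)
    rw [Nat.card_congr (subgroupOfEquivOfLe hHG).toEquiv, ← hcardG, mul_comm (Nat.card P)] at h1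
    exact Nat.eq_of_mul_eq_mul_left Nat.card_pos h1
  have hHidx : H.index = Nat.card P * a := by
    rw [← relIndex_mul_index hHG, hHrel]
  obtain ⟨S, hS⟩ := exists_right_complement'_of_coprime (N := H) (by
    rw [hHidx, hcardH]
    exact Nat.Coprime.mul_right hcop1.symm hcop2.symm)
  have hcopS : (Nat.card H).Coprime (Nat.card S) := by
    rw [← hS.symm.index_eq_card, hHidx, hcardH]
    exact Nat.Coprime.mul_right hcop1.symm hcop2.symm
  have hdisjS : ∀ x ∈ H, x ∈ S → x = 1 := by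
    intro x hx hxS
    have h2 := inf_eq_bot_of_coprime hcopS
    have h3 : x ∈ H ⊓ S := ⟨hx, hxS⟩
    rw [h2, mem_bot] at h3
    exact h3
  -- commutators of elements of `G` lie in `H`
  have hGcomm : ∀ x ∈ G, ∀ y ∈ G, x * y * x⁻¹ * y⁻¹ ∈ H := by
    intro x hx y hy
    obtain ⟨p, hp, h, hh, he⟩ := hdec ⟨x, hx⟩
    obtain ⟨p', hp', h', hh', he'⟩ := hdec ⟨y, hy⟩
    change x = p * h at he
    change y = p' * h' at he'
    have e : x * y * x⁻¹ * y⁻¹ = h * h' * h⁻¹ * h'⁻¹ := by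
      have c1 := hPc p hp
      have c2 := hPc p' hp'
      rw [he, he', mul_inv_rev, mul_inv_rev]
      have c1' : ∀ x, x * p⁻¹ = p⁻¹ * x := fun x => by
        rw [eq_inv_mul_iff_mul_eq, ← mul_assoc, ← c1, mul_assoc, mul_inv_cancel, mul_one]
      have c2' : ∀ x, x * p'⁻¹ = p'⁻¹ * x := fun x => by
        rw [eq_inv_mul_iff_mul_eq, ← mul_assoc, ← c2, mul_assoc, mul_inv_cancel, mul_one]
      calc p * h * (p' * h') * (h⁻¹ * p⁻¹) * (h'⁻¹ * p'⁻¹)
          = p * (h * p') * h' * (h⁻¹ * p⁻¹) * (h'⁻¹ * p'⁻¹) := by group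
        _ = p * (p' * h) * h' * (p⁻¹ * h⁻¹) * (p'⁻¹ * h'⁻¹) := by rw [c2 h, c1' h⁻¹, c2' h'⁻¹]
        _ = p * p' * (h * h' * p⁻¹) * (h⁻¹ * p'⁻¹) * h'⁻¹ := by group
        _ = p * p' * (p⁻¹ * (h * h')) * (p'⁻¹ * h⁻¹) * h'⁻¹ := by rw [c1' (h * h'), c2' h⁻¹]
        _ = (p * p' * p⁻¹) * (h * h' * p'⁻¹) * h⁻¹ * h'⁻¹ := by group
        _ = (p' * p * p⁻¹) * (p'⁻¹ * (h * h')) * h⁻¹ * h'⁻¹ := by rw [c2' (h * h'), c2 p]
        _ = _ := by group
    rw [e]
    exact H.mul_mem (H.mul_mem (H.mul_mem hh hh') (H.inv_mem hh)) (H.inv_mem hh')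
  have hSsol : Group.IsSolvable S := by
    let f : S →* Γ ⧸ G := (QuotientGroup.mk' G).comp S.subtype
    haveI : Group.IsSolvable f.ker := by
      apply Group.isSolvable_of_comm
      intro x y
      apply Subtype.ext
      apply Subtype.ext
      have hx : ((x : S) : Γ) ∈ G := (QuotientGroup.eq_one_iff _).mp x.2
      have hy : ((y : S) : Γ) ∈ G := (QuotientGroup.eq_one_iff _).mp y.2
      have h1 := hGcomm _ hx _ hy
      have h2 := hdisjS _ h1 (S.mul_mem (S.mul_mem (S.mul_mem x.1.2 y.1.2) (S.inv_mem x.1.2))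
        (S.inv_mem y.1.2))
      rw [mul_inv_eq_one, mul_inv_eq_iff_eq_mul] at h2
      exact h2
    exact Group.isSolvable_of_ker_le_range f.ker.subtype f (by rw [Subgroup.range_subtype])
  -- invariant character of `H`
  let θ : IrrCharacter (H ⊓ Z : Subgroup Γ) := linIrr (l.comp (inclusion inf_le_right))
  have hcenHZ : ∀ z ∈ H ⊓ Z, ∀ x : Γ, x * z = z * x := fun z hz x => hZ z hz.2 x
  obtain ⟨ψ, hψS, hψ⟩ := exists_inv_over (S := S) (G := H) (N := H ⊓ Z) hSsol
    le_normalizer_of_normal (by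
      apply Cfsg.Agent.H23.le_normalizer_of_conj_mem
      intro x _ z hz
      have : x * z * x⁻¹ = z := by rw [hcenHZ z hz x]; group
      rw [this]; exact hz) inf_le_left (by
      apply Cfsg.Agent.H23.le_normalizer_of_conj_mem
      intro x _ z hz
      have : x * z * x⁻¹ = z := by rw [hcenHZ z hz x]; group
      rw [this]; exact hz) hcopS θ (by
      intro x _ k k' hk
      have : k' = k := by
        apply Subtype.ext
        rw [hk, hcenHZ k k.2 x]; group
      rw [this])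
  have hψinv : Inv Set.univ H ψ := by
    have h1 := inv_sup (P := H) (Q := S) (G := H) le_normalizer le_normalizer_of_normal
      (inv_self H ψ) hψS
    rw [hS.sup_eq_top] at h1
    exact h1
  have hψZ : ∀ y (hy : y ∈ H) (hyZ : y ∈ Z), (ψ : H → ℂ) ⟨y, hy⟩ =
      (l ⟨y, hyZ⟩ : ℂ) * (ψ : H → ℂ) 1 := by
    intro y hy hyZ
    exact central_value (Z := H ⊓ Z) inf_le_left (fun z hz x _ => hcenHZ z hz x) ψ
      (l.comp (inclusion inf_le_right)) hψ ⟨y, hy, hyZ⟩
  -- projections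
  choose q hq p hp hqp using hdec
  have huniq : ∀ c ∈ P, ∀ y ∈ H, ∀ c' ∈ P, ∀ y' ∈ H, c * y = c' * y' → c = c' ∧ y = y' := by
    intro c hc y hy c' hc' y' hy' he
    have h1 : c'⁻¹ * c = y' * y⁻¹ := by
      have : c'⁻¹ * (c * y) * y⁻¹ = c'⁻¹ * (c' * y') * y⁻¹ := by rw [he]
      have e1 : c'⁻¹ * (c * y) * y⁻¹ = c'⁻¹ * c := by group
      have e2 : c'⁻¹ * (c' * y') * y⁻¹ = y' * y⁻¹ := by group
      rw [e1, e2] at this; exact this
    have h2 : c'⁻¹ * c = 1 := hdisj _ (P.mul_mem (P.inv_mem hc') hc) (by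
      rw [h1]; exact H.mul_mem hy' (H.inv_mem hy))
    have h3 : c = c' := (inv_mul_eq_one.mp h2).symm
    refine ⟨h3, ?_⟩
    rw [h3] at he
    exact mul_left_cancel he
  let pH : G →* H :=
    { toFun := fun g => ⟨p g, hp g⟩
      map_one' := by
        apply Subtype.ext
        exact (huniq _ (hq 1) _ (hp 1) 1 P.one_mem 1 H.one_mem (by rw [← hqp]; simp)).2
      map_mul' := by
        intro a b
        apply Subtype.ext
        refine (huniq _ (hq (a * b)) _ (hp (a * b)) (q a * q b)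
          (P.mul_mem (hq a) (hq b)) _ (H.mul_mem (hp a) (hp b)) ?_).2
        rw [← hqp, Subgroup.coe_mul, hqp a, hqp b]
        calc q a * p a * (q b * p b) = q a * (p a * q b) * p b := by group
          _ = q a * (q b * p a) * p b := by rw [hPc _ (hq b)]
          _ = _ := by group }
  let qP : G →* Z :=
    { toFun := fun g => ⟨q g, hPZ (hq g)⟩
      map_one' := by
        apply Subtype.ext
        exact (huniq _ (hq 1) _ (hp 1) 1 P.one_mem 1 H.one_mem (by rw [← hqp]; simp)).1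
      map_mul' := by
        intro a b
        apply Subtype.ext
        refine (huniq _ (hq (a * b)) _ (hp (a * b)) (q a * q b)
          (P.mul_mem (hq a) (hq b)) _ (H.mul_mem (hp a) (hp b)) ?_).1
        rw [← hqp, Subgroup.coe_mul, hqp a, hqp b]
        calc q a * p a * (q b * p b) = q a * (p a * q b) * p b := by group
          _ = q a * (q b * p a) * p b := by rw [hPc _ (hq b)]
          _ = _ := by group }
  have hpHs : Function.Surjective pH := by
    intro h
    refine ⟨⟨h, hHG h.2⟩, Subtype.ext ?_⟩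
    exact (huniq _ (hq _) _ (hp _) 1 P.one_mem h h.2 (by rw [← hqp]; simp)).2
  have hirr : IsIrrCharacter G (fun g => ((l.comp qP) g : ℂ) * (ψ : H → ℂ) (pH g)) :=
    isIrr_mul_hom (isIrr_comp_surjective ψ.2 pH hpHs) (l.comp qP)
  refine ⟨⟨_, hirr⟩, ?_, ?_⟩
  · intro x _ k k' hk
    show ((l.comp qP) k' : ℂ) * (ψ : H → ℂ) (pH k') = ((l.comp qP) k : ℂ) * (ψ : H → ℂ) (pH k)
    have h1 := huniq _ (hq k') _ (hp k') (q k) (hq k) (x * p k * x⁻¹) (hHn.conj_mem _ (hp k) x) (by
      rw [← hqp, hk]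
      calc x * k * x⁻¹ = x * (q k * p k) * x⁻¹ := by rw [← hqp]
        _ = (x * q k) * p k * x⁻¹ := by group
        _ = (q k * x) * p k * x⁻¹ := by rw [hPc _ (hq k)]
        _ = _ := by group)
    have h2 : qP k' = qP k := Subtype.ext h1.1
    have h3 : (ψ : H → ℂ) (pH k') = (ψ : H → ℂ) (pH k) :=
      hψinv x (Set.mem_univ x) (pH k) (pH k') h1.2
    rw [h3, MonoidHom.comp_apply, MonoidHom.comp_apply, h2]
  · intro z
    show ((l.comp qP) (inclusion hZG z) : ℂ) * (ψ : H → ℂ) (pH (inclusion hZG z)) =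
      (l z : ℂ) * (((l.comp qP) 1 : ℂ) * (ψ : H → ℂ) (pH 1))
    have h1 : (z : Γ) = q (inclusion hZG z) * p (inclusion hZG z) := hqp (inclusion hZG z)
    have h2 : p (inclusion hZG z) ∈ Z := by
      have : p (inclusion hZG z) = (q (inclusion hZG z))⁻¹ * z := by rw [h1]; group
      rw [this]
      exact Z.mul_mem (Z.inv_mem (hPZ (hq _))) z.2
    have h3 := hψZ _ (hp (inclusion hZG z)) h2
    have h4 : z = qP (inclusion hZG z) * ⟨p (inclusion hZG z), h2⟩ := Subtype.ext h1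
    have h5 : (l z : ℂ) = (l (qP (inclusion hZG z)) : ℂ) * (l ⟨p (inclusion hZG z), h2⟩ : ℂ) := by
      conv_lhs => rw [h4]
      rw [map_mul, Units.val_mul]
    have h6 : (ψ : H → ℂ) (pH (inclusion hZG z)) =
      (l ⟨p (inclusion hZG z), h2⟩ : ℂ) * (ψ : H → ℂ) 1 := h3
    rw [h6, h5, map_one, map_one, MonoidHom.comp_apply, Units.val_one]
    ring

end Cfsg.Agent.H27
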