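import Cfsg.Agent.H27.GlTri
import Cfsg.Agent.H3.Triple

set_option autoImplicit false

/-! # Invariant characters above an invariant character, general case -/

universe u

namespace Cfsg.Agent.H27

open Subgroup Cfsg Cfsg.Agent.H3 Cfsg.Agent.H11
open scoped ComplexConjugate Pointwise

theorem relIndex_cancel {A B : Type*} [Group A] [Group B] [Finite A] [Finite B]
    {Z G : Subgroup A} {Z' G' : Subgroup B}
    (h1 : Z ≤ G) (h2 : Z' ≤ G') (h3 : G'.index = G.index) (h4 : Z'.index = Z.index) :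
    Z'.relIndex G' = Z.relIndex G := by
  have e1 := relIndex_mul_index h1
  have e2 := relIndex_mul_index h2
  rw [h3, h4, ← e1] at e2
  exact Nat.eq_of_mul_eq_mul_right (Nat.pos_of_ne_zero Subgroup.index_ne_zero_of_finite) e2

/-- invariant linear character of a normal subgroup -/
theorem inv_over_lin {Γ : Type u} [Group Γ] [Finite Γ] {G Z : Subgroup Γ} [hG : G.Normal]
    [hZn : Z.Normal] (hZG : Z ≤ G) (hcop : G.index.Coprime (Z.relIndex G))
    (hsol : Group.IsSolvable (Γ ⧸ G)) (l : Z →* ℂˣ)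
    (hl : ∀ (x : Γ) (z z' : Z), (z' : Γ) = x * z * x⁻¹ → l z' = l z) :
    ∃ χ : IrrCharacter G, Inv Set.univ G χ ∧
      ∀ z : Z, (χ : G → ℂ) (inclusion hZG z) = (l z : ℂ) * (χ : G → ℂ) 1 := by
  classical
  set L := l.ker.map Z.subtype with hL
  have hLmem : ∀ y (hy : y ∈ Z), y ∈ L ↔ l ⟨y, hy⟩ = 1 := by
    intro y hy
    constructor
    · rintro ⟨z, hz, rfl⟩; exact hz
    · intro h; exact ⟨⟨y, hy⟩, h, rfl⟩
  have hLZ : L ≤ Z := by rintro _ ⟨z, _, rfl⟩; exact z.2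
  haveI hLn : L.Normal := by
    refine ⟨fun y hy x => ?_⟩
    have hyZ := hLZ hy
    rw [hLmem _ (hZn.conj_mem y hyZ x), hl x ⟨y, hyZ⟩ _ rfl]
    exact (hLmem y hyZ).mp hy
  let π := QuotientGroup.mk' L
  have hπs : Function.Surjective π := QuotientGroup.mk'_surjective L
  have hker : π.ker = L := QuotientGroup.ker_mk' L
  haveI hG'n : (G.map π).Normal := hG.map π hπs
  have hidx1 : (G.map π).index = G.index := index_map_eq G hπs (by rw [hker]; exact hLZ.trans hZG)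
  have hidx2 : (Z.map π).index = Z.index := index_map_eq Z hπs (by rw [hker]; exact hLZ)
  have hrel : (Z.map π).relIndex (G.map π) = Z.relIndex G :=
    relIndex_cancel hZG (Subgroup.map_mono hZG) hidx1 hidx2
  have hcen : ∀ z ∈ Z.map π, ∀ x : Γ ⧸ L, x * z = z * x := by
    rintro _ ⟨z, hz, rfl⟩ x
    obtain ⟨x, rfl⟩ := QuotientGroup.mk_surjective x
    show ((x : Γ ⧸ L) * (z : Γ ⧸ L)) = (z : Γ ⧸ L) * (x : Γ ⧸ L)
    rw [← QuotientGroup.mk_mul, ← QuotientGroup.mk_mul, QuotientGroup.eq]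
    have hz' : (x * z)⁻¹ * (z * x) ∈ Z := by
      have e : (x * z)⁻¹ * (z * x) = z⁻¹ * (x⁻¹ * z * x⁻¹⁻¹) := by group
      rw [e]
      exact Z.mul_mem (Z.inv_mem hz) (hZn.conj_mem z hz x⁻¹)
    rw [hLmem _ hz']
    have e : (⟨(x * z)⁻¹ * (z * x), hz'⟩ : Z) =
        ⟨z, hz⟩⁻¹ * ⟨x⁻¹ * z * x⁻¹⁻¹, hZn.conj_mem z hz x⁻¹⟩ := by
      apply Subtype.ext
      show (x * z)⁻¹ * (z * x) = z⁻¹ * (x⁻¹ * z * x⁻¹⁻¹)
      group
    rw [e, map_mul, map_inv,
      hl x⁻¹ ⟨z, hz⟩ ⟨x⁻¹ * z * x⁻¹⁻¹, hZn.conj_mem z hz x⁻¹⟩ rfl, inv_mul_cancel]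
  have hsol' : Group.IsSolvable ((Γ ⧸ L) ⧸ G.map π) := by
    haveI := hsol
    let f : Γ ⧸ G →* (Γ ⧸ L) ⧸ G.map π := QuotientGroup.map G (G.map π) π (le_comap_map π G)
    apply Group.isSolvable_of_surjective (f := f)
    intro y
    obtain ⟨y, rfl⟩ := QuotientGroup.mk_surjective y
    obtain ⟨y, rfl⟩ := hπs y
    exact ⟨(y : Γ ⧸ G), rfl⟩
  let fZ : Z →* Z.map π := π.subgroupMap Z
  have hfZ : Function.Surjective fZ := π.subgroupMap_surjective Z
  have hkl : fZ.ker ≤ l.ker := by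
    intro z hz
    rw [MonoidHom.mem_ker] at hz ⊢
    have h1 : π z = 1 := congrArg Subtype.val hz
    have h2 : (z : Γ) ∈ L := by rw [← hker]; exact h1
    exact (hLmem z z.2).mp h2
  let l' : Z.map π →* ℂˣ := (fZ.liftOfSurjective hfZ) ⟨l, hkl⟩
  have hl' : ∀ z : Z, l' (fZ z) = l z := fun z =>
    fZ.liftOfRightInverse_comp_apply _ (Function.rightInverse_surjInv hfZ) ⟨l, hkl⟩ z
  obtain ⟨χ, h1, h2⟩ := inv_over_central (Γ := Γ ⧸ L) (G := G.map π) (Z := Z.map π)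
    (Subgroup.map_mono hZG) hcen (by rw [hidx1, hrel]; exact hcop) hsol' l'
  let fG : G →* G.map π := π.subgroupMap G
  refine ⟨⟨fun g => (χ : G.map π → ℂ) (fG g),
    isIrr_comp_surjective χ.2 fG (π.subgroupMap_surjective G)⟩, ?_, ?_⟩
  · intro x _ k k' hk
    apply h1 (π x) (Set.mem_univ _)
    show π k' = π x * π k * (π x)⁻¹
    rw [hk, map_mul, map_mul, map_inv]
  · intro z
    have h3 := h2 (fZ z)
    rw [hl'] at h3
    show (χ : G.map π → ℂ) (fG (inclusion hZG z)) = (l z : ℂ) * (χ : G.map π → ℂ) (fG 1)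
    rw [map_one]
    exact h3

theorem exists_inv_above2 {Γ : Type u} [Group Γ] [Finite Γ] {G N : Subgroup Γ} [hG : G.Normal]
    [hN : N.Normal] (hNG : N ≤ G) (hcop : G.index.Coprime (N.relIndex G))
    (hsol : Group.IsSolvable (Γ ⧸ G)) (θ : IrrCharacter N) (hθ : Inv Set.univ N θ) :
    ∃ χ : IrrCharacter G, Inv Set.univ G χ ∧ mlt hNG χ θ ≠ 0 := by
  classical
  have := Fintype.ofFinite Γ
  have := Fintype.ofFinite N
  have := Fintype.ofFinite G
  obtain ⟨θ, hθirr⟩ := θ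
  obtain ⟨m, ρ, hρ, rfl⟩ := hθirr
  haveI := nontrivial_of_irr ρ
  obtain ⟨χ0, hχ0, hne⟩ := Cfsg.Agent.H16.exists_over (f := N.subtype) N.subtype_injective
    (ψ := ρ.character) ⟨m, ρ, hρ, rfl⟩
  have hinv : ∀ g : Γ, cj hN g ρ.character = ρ.character := by
    intro g
    funext n
    exact hθ g (Set.mem_univ g) n _ rfl
  obtain ⟨Γ', _, _, π, s, τ, β, hπ, hπs, hxs, hτs, hβ, hβs, hχπ, hker, -⟩ :=
    exists_triple hN ρ hinv hχ0 hne
  -- the scalar
  have hτne : ∀ n, τ (s n) ≠ 0 := by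
    intro n h0
    have h1 : τ (s n) * τ (s n)⁻¹ = 1 := by rw [← map_mul, mul_inv_cancel, map_one]
    rw [h0, zero_mul] at h1
    exact zero_ne_one h1
  have hscal : ∀ y : Γ', ∀ hy : π y ∈ N, ∃ c : ℂ, τ y = c • τ (s ⟨π y, hy⟩) := by
    intro y hy
    obtain ⟨c, hc⟩ := hker ((s ⟨π y, hy⟩)⁻¹ * y) (by
      rw [map_mul, map_inv, hπs]; exact inv_mul_cancel _)
    refine ⟨c, ?_⟩
    have e : y = s ⟨π y, hy⟩ * ((s ⟨π y, hy⟩)⁻¹ * y) := by group
    calc τ y = τ (s ⟨π y, hy⟩ * ((s ⟨π y, hy⟩)⁻¹ * y)) := by rw [← e]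
      _ = τ (s ⟨π y, hy⟩) * (c • LinearMap.id) := by rw [map_mul, hc]
      _ = _ := by rw [mul_smul_comm]; rfl
  have huniq : ∀ (n : N) (a b : ℂ), a • τ (s n) = b • τ (s n) → a = b := by
    intro n a b h
    obtain ⟨v, hv⟩ : ∃ v, τ (s n) v ≠ 0 := by
      by_contra hcon
      push Not at hcon
      exact hτne n (LinearMap.ext hcon)
    have h1 : a • (τ (s n) v) = b • (τ (s n) v) :=
      congrArg (fun T : (Fin m → ℂ) →ₗ[ℂ] (Fin m → ℂ) => T v) h
    have h2 : (a - b) • (τ (s n) v) = 0 := by rw [sub_smul, h1, sub_self]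
    exact sub_eq_zero.mp ((smul_eq_zero.mp h2).resolve_right hv)
  set Y := N.comap π with hY
  set G' := G.comap π with hG'
  have hYG : Y ≤ G' := Subgroup.comap_mono hNG
  choose c hc using fun y : Y => hscal y y.2
  have hc1 : c 1 = 1 := by
    have h1 := hc 1
    have e : (⟨π ((1 : Y) : Γ'), (1 : Y).2⟩ : N) = 1 := Subtype.ext (map_one π)
    apply huniq 1
    rw [e] at h1
    rw [← h1, one_smul, map_one s, Subgroup.coe_one]
  have hcm : ∀ a b, c (a * b) = c a * c b := by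
    intro a b
    have e : (⟨π ((a * b : Y) : Γ'), (a * b).2⟩ : N) = ⟨π a, a.2⟩ * ⟨π b, b.2⟩ :=
      Subtype.ext (map_mul π _ _)
    have h1 := hc (a * b)
    apply huniq (⟨π a, a.2⟩ * ⟨π b, b.2⟩)
    rw [e] at h1
    rw [← h1, Subgroup.coe_mul, map_mul, hc a, hc b, map_mul s, map_mul τ, smul_mul_smul_comm]
  let cH : Y →* ℂ := { toFun := c, map_one' := hc1, map_mul' := hcm }
  let cU : Y →* ℂˣ := cH.toHomUnits
  have hcU : ∀ y, (cU y : ℂ) = c y := fun y => rfl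
  have hcj : ∀ (x : Γ') (z z' : Y), (z' : Γ') = x * z * x⁻¹ → cU z' = cU z := by
    intro x z z' hz
    apply Units.ext
    rw [hcU, hcU]
    apply huniq ⟨π z', z'.2⟩
    refine (hc z').symm.trans ?_
    have e1 : cjN hN (π x) ⟨π z, z.2⟩ = ⟨π z', z'.2⟩ := by
      apply Subtype.ext
      show π x * π z * (π x)⁻¹ = π z'
      rw [hz, map_mul, map_mul, map_inv]
    calc τ z' = τ (x * z * x⁻¹) := by rw [hz]
      _ = τ x * τ z * τ x⁻¹ := by rw [map_mul, map_mul]
      _ = τ x * (c z • τ (s ⟨π z, z.2⟩)) * τ x⁻¹ := by rw [hc z]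
      _ = c z • τ (x * s ⟨π z, z.2⟩ * x⁻¹) := by
          rw [mul_smul_comm, smul_mul_assoc, map_mul, map_mul]
      _ = c z • τ (s ⟨π z', z'.2⟩) := by rw [hxs, e1]
  haveI : Y.Normal := hN.comap π
  haveI : G'.Normal := hG.comap π
  have hidx1 : G'.index = G.index := index_comap_of_surjective G hπ
  have hidx2 : Y.index = N.index := index_comap_of_surjective N hπ
  have hrel : Y.relIndex G' = N.relIndex G := relIndex_cancel hNG hYG hidx1 hidx2
  have hsol' : Group.IsSolvable (Γ' ⧸ G') := by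
    haveI := hsol
    let f : Γ' ⧸ G' →* Γ ⧸ G := QuotientGroup.map G' G π le_rfl
    apply Group.isSolvable_of_isSolvable_injective (f := f)
    rw [injective_iff_map_eq_one]
    intro y hy
    obtain ⟨y, rfl⟩ := QuotientGroup.mk_surjective y
    have h1 : ((π y : Γ) : Γ ⧸ G) = 1 := hy
    rw [QuotientGroup.eq_one_iff] at h1 ⊢
    exact h1
  obtain ⟨η, hη1, hη2⟩ := inv_over_lin (Γ := Γ') (G := G') (Z := Y) hYG
    (by rw [hidx1, hrel]; exact hcop) hsol' cU⁻¹ (by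
      intro x z z' hz
      rw [MonoidHom.inv_apply, MonoidHom.inv_apply, hcj x z z' hz])
  -- the subgroup `s N` in `G'`
  have hsG : ∀ n, s n ∈ G' := fun n => by
    show π (s n) ∈ G
    rw [hπs]; exact hNG n.2
  have hsY : ∀ n, s n ∈ Y := fun n => by
    show π (s n) ∈ N
    rw [hπs]; exact n.2
  let s' : N →* G' := s.codRestrict G' hsG
  have hs'inj : Function.Injective s' := by
    intro a b hab
    have h1 : s a = s b := congrArg Subtype.val hab
    apply Subtype.ext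
    rw [← hπs a, ← hπs b, h1]
  let E : N ≃* s'.range := MonoidHom.ofInjective hs'inj
  have hEn : s'.range.Normal := by
    refine ⟨?_⟩
    rintro _ ⟨n, rfl⟩ x
    refine ⟨cjN hN (π x) n, ?_⟩
    apply Subtype.ext
    exact (hxs x n).symm
  have hcs : ∀ n, c ⟨s n, hsY n⟩ = 1 := by
    intro n
    apply huniq n
    have h1 := hc ⟨s n, hsY n⟩
    have e : (⟨π (s n), hsY n⟩ : N) = n := Subtype.ext (hπs n)
    rw [e] at h1
    rw [← h1, one_smul]
  have := Fintype.ofFinite s'.range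
  have hX : IsCharacter G' (fun g => τ.character g) := isChar_restrict G' ⟨m, τ, rfl⟩
  have hXN : IsIrrCharacter s'.range (fun n : s'.range => τ.character ((n : G') : Γ')) := by
    rw [← isIrr_comp_equiv_iff E]
    have e : (fun n => τ.character (((E n : s'.range) : G') : Γ')) = ρ.character := by
      funext n
      show LinearMap.trace ℂ _ (τ (s n)) = LinearMap.trace ℂ _ (ρ n)
      rw [hτs]
    rw [e]
    exact ⟨m, ρ, hρ, rfl⟩
  have hXirr : IsIrrCharacter G' (fun g => τ.character g) := isIrr_of_restrict hX s'.range hXN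
  obtain ⟨_, k2, _, _⟩ := gallagher_one hEn hXirr hXN
  have hηs : ∀ n : s'.range, (η : G' → ℂ) n = (η : G' → ℂ) 1 := by
    rintro ⟨_, n, rfl⟩
    have h1 := hη2 ⟨s n, hsY n⟩
    rw [MonoidHom.inv_apply, Units.val_inv_eq_inv_val, hcU, hcs, inv_one, one_mul] at h1
    exact h1
  have hprod := k2 η η.2 hηs
  -- deflation to `G`
  let f : G' →* G := π.subgroupComap G
  have hf : Function.Surjective f := π.subgroupComap_surjective_of_surjective G hπ
  have hτz : ∀ z : G', f z = 1 → ∀ hz : (z : Γ') ∈ Y, τ.character z = c ⟨z, hz⟩ * τ.character 1 := by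
    intro z hz hzY
    have h1 := hc ⟨z, hzY⟩
    have e : (⟨π z, hzY⟩ : N) = 1 := Subtype.ext (show π z = 1 from congrArg Subtype.val hz)
    rw [e, map_one s, map_one τ] at h1
    show LinearMap.trace ℂ _ (τ z) = _ * LinearMap.trace ℂ _ (τ 1)
    rw [show τ (z : Γ') = c ⟨z, hzY⟩ • (1 : Module.End ℂ (Fin m → ℂ)) from h1, map_smul, map_one τ,
      smul_eq_mul]
  obtain ⟨ψ, hψ, hψ'⟩ := exists_quotient_irr (N := f.ker) hprod (by
    intro z hz
    have hzY : (z : Γ') ∈ Y := by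
      show π z ∈ N
      have : π z = 1 := congrArg Subtype.val (MonoidHom.mem_ker.mp hz)
      rw [this]; exact N.one_mem
    show (η : G' → ℂ) z * τ.character z = (η : G' → ℂ) 1 * τ.character ((1 : G') : Γ')
    rw [hτz z hz hzY]
    have h1 := hη2 ⟨z, hzY⟩
    rw [MonoidHom.inv_apply, Units.val_inv_eq_inv_val, hcU] at h1
    have h2 : (η : G' → ℂ) z = (c ⟨z, hzY⟩)⁻¹ * (η : G' → ℂ) 1 := h1
    have h3 : c ⟨z, hzY⟩ ≠ 0 := by rw [← hcU]; exact (cU _).ne_zero
    rw [h2, Subgroup.coe_one]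
    field_simp)
  let Q : G' ⧸ f.ker ≃* G := QuotientGroup.quotientKerEquivOfSurjective f hf
  let χ : IrrCharacter G := ⟨fun g => ψ (Q.symm g), (isIrr_comp_equiv_iff Q.symm).mpr hψ⟩
  have hχ : ∀ g : G', (χ : G → ℂ) (f g) = (η : G' → ℂ) g * τ.character (g : Γ') := by
    intro g
    have h1 : Q.symm (f g) = (g : G' ⧸ f.ker) := by
      rw [MulEquiv.symm_apply_eq]; rfl
    show ψ (Q.symm (f g)) = _
    rw [h1, ← hψ' g]
    rfl
  refine ⟨χ, ?_, ?_⟩
  · intro x _ k k' hk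
    obtain ⟨x, rfl⟩ := hπ x
    obtain ⟨k, rfl⟩ := hf k
    have hk' : k' = f (⟨x * k * x⁻¹, by
        show π (x * k * x⁻¹) ∈ G
        rw [map_mul, map_mul, map_inv]
        exact hG.conj_mem _ k.2 _⟩ : G') := by
      apply Subtype.ext
      rw [hk]
      show π x * π k * (π x)⁻¹ = π (x * k * x⁻¹)
      rw [map_mul, map_mul, map_inv]
    rw [hk', hχ, hχ]
    congr 1
    · exact hη1 x (Set.mem_univ x) k _ rfl
    · show τ.character (x * k * x⁻¹) = τ.character k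
      exact char_classFun (⟨m, τ, rfl⟩ : IsCharacter Γ' τ.character) _ _
  · rw [mlt_ne_zero_iff]
    have h1 : (fun n : N => (χ : G → ℂ) ⟨n, hNG n.2⟩) =
        fun n => (η : G' → ℂ) 1 * ρ.character n := by
      funext n
      have h2 : (⟨n, hNG n.2⟩ : G) = f ⟨s n, hsG n⟩ := Subtype.ext (hπs n).symm
      rw [h2, hχ]
      congr 1
      · exact hηs ⟨⟨s n, hsG n⟩, n, rfl⟩
      · show LinearMap.trace ℂ _ (τ (s n)) = LinearMap.trace ℂ _ (ρ n)
        rw [hτs]
    rw [h1, CopH.cf_of_eq.classInner_mul_left',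
      classInner_self_of_irr (⟨m, ρ, hρ, rfl⟩ : IsIrrCharacter N ρ.character), mul_one]
    exact irr_one_ne_zero η.2

end Cfsg.Agent.H27
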