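import Cfsg.Agent.H27.PiKer
import Cfsg.Agent.H27.Util
import Cfsg.Agent.H26.StB
import Cfsg.Agent.H11.Induced2

set_option autoImplicit false

/-! # Dictionary for induced blocks and kernels of blocks in the group algebra -/

universe u

namespace Cfsg.Agent.H27

open Cfsg MonoidAlgebra Cfsg.Agent.H26 Cfsg.Agent.H11 Cfsg.Agent.H3

section alg

variable {k : Type*} [Field k] {G : Type*} [Group G] [Finite G] {p : ℕ} [Fact p.Prime]
  [CharP k p]

/-- The Brauer homomorphism `Z(kH) → Z(kC(D))`. -/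
noncomputable def brH {D H : Subgroup G} (hD : IsPGroup p D) (hDH : D ≤ H) (hc : cz D ≤ H) :
    Zc k H →ₐ[k] Zc k (cz D) where
  toFun z := ⟨br D (z : MonoidAlgebra k G), br_mem_Zc_centralizer (z.2.2.mono hc)⟩
  map_one' := Subtype.ext (br_one D)
  map_mul' a b := Subtype.ext (br_mul hD (a.2.2.mono hDH) (b.2.2.mono hDH))
  map_zero' := Subtype.ext (map_zero _)
  map_add' a b := Subtype.ext (map_add _ _ _)
  commutes' r := by
    apply Subtype.ext
    change br D (algebraMap k (MonoidAlgebra k G) r) = algebraMap k (MonoidAlgebra k G) r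
    rw [Algebra.algebraMap_eq_smul_one, map_smul, br_one]

theorem rst_mem_Zc {H : Subgroup G} {z : MonoidAlgebra k G} (hz : IsFx H z) :
    rst (H : Set G) z ∈ Zc k H := by
  refine mem_Zc.mpr ⟨isSup_rst H z, hz.rst ?_⟩
  intro g hg x
  constructor
  · intro h
    have := H.mul_mem (H.mul_mem (H.inv_mem hg) h) hg
    have e : g⁻¹ * (g * x * g⁻¹) * g = x := by group
    rwa [e] at this
  · intro h
    exact H.mul_mem (H.mul_mem hg h) (H.inv_mem hg)

theorem hom_eq_of_br [IsAlgClosed k] {D H : Subgroup G} (hD : IsPGroup p D) (hDH : D ≤ H)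
    (hc : cz D ≤ H) (ν : Zc k H →ₐ[k] k) (μ : Zc k (cz D) →ₐ[k] k)
    (hbr : brH hD hDH hc (pid ν) * pid μ = pid μ) :
    ν = μ.comp (brH hD hDH hc) := by
  by_contra hne
  have h3 : (μ.comp (brH hD hDH hc)) (pid ν) = 0 := by
    apply apply_pid_of_ne
    exact fun h => hne h.symm
  have h4 : μ (brH hD hDH hc (pid ν) * pid μ) = 1 := by
    rw [hbr, apply_pid_self]
  rw [map_mul] at h4
  have h5 : μ (brH hD hDH hc (pid ν)) = 0 := h3
  rw [h5, zero_mul] at h4
  exact zero_ne_one h4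

theorem br_rst {D H : Subgroup G} (hc : cz D ≤ H) (z : MonoidAlgebra k G) :
    br D (rst (H : Set G) z) = br D z := by
  rw [br_def, br_def, rst_rst]
  congr 1
  congr 1
  exact Set.inter_eq_left.mpr hc

end alg

variable {M : Ideal AlgInt} [hM : M.IsPrime] {G : Type u} [Group G] [Finite G]

/-- Central characters of induced blocks. -/
theorem lam_ind {p : ℕ} (hMp : IsPModular p M) {H : Subgroup G} {b : Set (IrrCharacter H)}
    {B : Set (IrrCharacter G)}
    (hind : IsInducedBlock M H b B) {ξ : IrrCharacter H} (hξ : ξ ∈ b) {χ : IrrCharacter G}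
    (hχ : χ ∈ B) {z : MonoidAlgebra (KF M) G} (hz : z ∈ Zc (KF M) (⊤ : Subgroup G)) :
    lam (MulEquiv.refl H) ξ ⟨rst (H : Set G) z, rst_mem_Zc (hz.2.mono le_top)⟩ =
      lam (Subgroup.topEquiv.symm : G ≃* (⊤ : Subgroup G)) χ ⟨z, hz⟩ := by
  classical
  let _ : Fintype G := Fintype.ofFinite G
  let _ : Fintype H := Fintype.ofFinite H
  obtain ⟨A, hA, hAz⟩ := exists_lift (Subgroup.topEquiv.symm : G ≃* (⊤ : Subgroup G)) hz
  subst hAz
  rw [lam_upf _ χ hA]
  have hresZ : IsZS M (resAlg H A) := ⟨isCen_resAlg H hA.1, fun h => by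
    rw [coeff_resAlg]; exact hA.2 _⟩
  have h1 : upf M (MulEquiv.refl H) (fun x => (resAlg H A).coeff x) =
      rst (H : Set G) (upf M (Subgroup.topEquiv.symm : G ≃* (⊤ : Subgroup G))
        (fun x => A.coeff x)) := by
    apply upf_ext _ (isSup_rst H _)
    intro x
    have h2 : ((MulEquiv.refl H) x : G) = (x : G) := rfl
    rw [h2, coeff_rst_of_mem _ x.2, coeff_resAlg]
    exact coeff_upf (Subgroup.topEquiv.symm : G ≃* (⊤ : Subgroup G)) (fun x => A.coeff x) (x : G)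
  have h3 : lam (MulEquiv.refl H) ξ ⟨_, upf_isZS_mem (MulEquiv.refl H) hresZ⟩ =
      rd M (omega (ξ : H → ℂ) (resAlg H A)) := lam_upf _ ξ hresZ _
  have h4 : (⟨rst (H : Set G) (upf M (Subgroup.topEquiv.symm : G ≃* (⊤ : Subgroup G))
        (fun x => A.coeff x)), rst_mem_Zc (hz.2.mono le_top)⟩ : Zc (KF M) H) =
      ⟨_, upf_isZS_mem (MulEquiv.refl H) hresZ⟩ := Subtype.ext h1.symm
  rw [h4, h3]
  have h5 := li_omega_resAlg_sub hMp H hind hξ hχ hA
  exact (rd_eq_iff (lr_omega hresZ ξ.2) (lr_omega hA χ.2)).mpr h5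

/-- Conversely, if the central characters match then the block is induced. -/
theorem isInduced_of_lam {p : ℕ} (hMp : IsPModular p M) {H : Subgroup G}
    {b : Set (IrrCharacter H)} {B : Set (IrrCharacter G)}
    (hb : IsPBlock M b) (hB : IsPBlock M B) {ξ : IrrCharacter H} (hξ : ξ ∈ b)
    {χ : IrrCharacter G} (hχ : χ ∈ B)
    (h : ∀ (z : MonoidAlgebra (KF M) G) (hz : z ∈ Zc (KF M) (⊤ : Subgroup G)),
      lam (MulEquiv.refl H) ξ ⟨rst (H : Set G) z, rst_mem_Zc (hz.2.mono le_top)⟩ =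
      lam (Subgroup.topEquiv.symm : G ≃* (⊤ : Subgroup G)) χ ⟨z, hz⟩) :
    IsInducedBlock M H b B := by
  classical
  let _ : Fintype G := Fintype.ofFinite G
  let _ : Fintype H := Fintype.ofFinite H
  apply isInducedBlock_of_mem hMp hb hB hξ hχ
  intro g
  have hA := isZS_csum (M := M) g
  have h0 := h _ (upf_isZS_mem (Subgroup.topEquiv.symm : G ≃* (⊤ : Subgroup G)) hA)
  rw [lam_upf _ χ hA] at h0
  have hresZ : IsZS M (resAlg H (csum g)) := ⟨isCen_resAlg H hA.1, fun h => by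
    rw [coeff_resAlg]; exact hA.2 _⟩
  have h1 : upf M (MulEquiv.refl H) (fun x => (resAlg H (csum g)).coeff x) =
      rst (H : Set G) (upf M (Subgroup.topEquiv.symm : G ≃* (⊤ : Subgroup G))
        (fun x => (csum g).coeff x)) := by
    apply upf_ext _ (isSup_rst H _)
    intro x
    have h2 : ((MulEquiv.refl H) x : G) = (x : G) := rfl
    rw [h2, coeff_rst_of_mem _ x.2, coeff_resAlg]
    exact coeff_upf (Subgroup.topEquiv.symm : G ≃* (⊤ : Subgroup G))
      (fun x => (csum g).coeff x) (x : G)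
  have h3 : lam (MulEquiv.refl H) ξ ⟨_, upf_isZS_mem (MulEquiv.refl H) hresZ⟩ =
      rd M (omega (ξ : H → ℂ) (resAlg H (csum g))) := lam_upf _ ξ hresZ _
  have h4 : (⟨rst (H : Set G) (upf M (Subgroup.topEquiv.symm : G ≃* (⊤ : Subgroup G))
        (fun x => (csum g).coeff x)), rst_mem_Zc
          ((upf_isZS_mem (Subgroup.topEquiv.symm : G ≃* (⊤ : Subgroup G)) hA).2.mono le_top)⟩ :
            Zc (KF M) H) =
      ⟨_, upf_isZS_mem (MulEquiv.refl H) hresZ⟩ := Subtype.ext h1.symm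
  rw [h4, h3] at h0
  have h6 := (rd_eq_iff (lr_omega hresZ ξ.2) (lr_omega hA χ.2)).mp h0
  rwa [omega_resAlg_csum, omega_csum (irr_classFun χ.2)] at h6

/-- A member of the block and the Brauer homomorphism. -/
theorem lam_eq_of_br {p : ℕ} [Fact p.Prime] [CharP (KF M) p] {H D : Subgroup G}
    {b : Set (IrrCharacter H)} (hb : IsPBlock M b) {ξ : IrrCharacter H} (hξ : ξ ∈ b)
    (hD : IsPGroup p D) (hDH : D ≤ H) (hc : cz D ≤ H)
    (μ : Zc (KF M) (cz D) →ₐ[KF M] KF M)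
    (hbr : br D (EH M H b) * (pid μ : Zc (KF M) (cz D)) = (pid μ : Zc (KF M) (cz D)))
    (w : Zc (KF M) H) :
    lam (MulEquiv.refl H) ξ w = μ (brH hD hDH hc w) := by
  classical
  have h1 : (⟨EH M H b, EH_mem_Zc H b⟩ : Zc (KF M) H) = pid (lam (MulEquiv.refl H) ξ) :=
    Eb_eq_pid (MulEquiv.refl H) hb hξ
  have h2 : lam (MulEquiv.refl H) ξ = μ.comp (brH hD hDH hc) := by
    apply hom_eq_of_br
    rw [← h1]
    exact Subtype.ext hbr
  rw [h2]
  rfl

/-- Pairs of an inducing block are pairs of the induced block. -/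
theorem inB_of_ind {p : ℕ} [Fact p.Prime] (hMp : IsPModular p M) [CharP (KF M) p]
    {H D : Subgroup G} {b : Set (IrrCharacter H)} {B : Set (IrrCharacter G)}
    (hind : IsInducedBlock M H b B) (hD : IsPGroup p D) (hDH : D ≤ H) (hc : cz D ≤ H)
    {e : MonoidAlgebra (KF M) G} (he : IsBlk (cz D) e) (hbe : br D (EH M H b) * e = e) :
    InB p (EG M B) D e := by
  classical
  let _ : Fintype G := Fintype.ofFinite G
  let _ : Fintype H := Fintype.ofFinite H
  obtain ⟨μ, rfl⟩ := he.exists_pid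
  obtain ⟨ξ, hξ⟩ := isPBlock_nonempty hind.1
  obtain ⟨χ, hχ⟩ := isPBlock_nonempty hind.2.1
  refine ⟨isBlk_EG hind.2.1, ⟨hD, he⟩, ?_⟩
  have h1 := lam_ind hMp hind hξ hχ (EG_mem_Zc B)
  rw [lam_eq_of_br hind.1 hξ hD hDH hc μ hbe] at h1
  have h2 : lam (Subgroup.topEquiv.symm : G ≃* (⊤ : Subgroup G)) χ ⟨EG M B, EG_mem_Zc B⟩ = 1 := by
    rw [lam_Eb _ χ hind.2.1, if_pos hχ]
  rw [h2] at h1
  have h3 : (brH hD hDH hc ⟨rst (H : Set G) (EG M B),
      rst_mem_Zc ((EG_mem_Zc B).2.mono le_top)⟩ : Zc (KF M) (cz D)) =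
      ⟨br D (EG M B), br_mem_Zc_centralizer ((EG_mem_Zc B).2.mono le_top)⟩ := by
    apply Subtype.ext
    exact br_rst hc _
  rw [h3] at h1
  exact congrArg Subtype.val (idem_mul_pid (e := (⟨br D (EG M B),
    br_mem_Zc_centralizer ((EG_mem_Zc B).2.mono le_top)⟩ : Zc (KF M) (cz D)))
    (Subtype.ext (isFx_br_idem hD (EG_isFx B D) (isBlk_EG hind.2.1).idem)) μ h1)

/-- Existence of the induced block if `C(D) ≤ H` for some `D ≤ H` with `br D b ≠ 0`. -/
theorem exists_induced {p : ℕ} [Fact p.Prime] (hMp : IsPModular p M) [CharP (KF M) p]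
    {H D : Subgroup G} {b : Set (IrrCharacter H)} (hb : IsPBlock M b)
    (hD : IsPGroup p D) (hDH : D ≤ H) (hc : cz D ≤ H)
    (hne : br D (EH M H b) ≠ 0) : InducedBlockDefined M H b := by
  classical
  let _ : Fintype G := Fintype.ofFinite G
  let _ : Fintype H := Fintype.ofFinite H
  have hfx : IsFx (cz D) (EH M H b) := (EH_mem_Zc H b).2.mono hc
  have hid : br D (EH M H b) * br D (EH M H b) = br D (EH M H b) :=
    isFx_br_idem hD ((EH_mem_Zc H b).2.mono hDH) (isBlk_EH hb).idem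
  obtain ⟨e, he, hbe⟩ := exists_blk_of_ne_zero (br_mem_Zc_centralizer hfx) hid hne
  obtain ⟨μ, rfl⟩ := he.exists_pid
  obtain ⟨ξ, hξ⟩ := isPBlock_nonempty hb
  obtain ⟨χ, hχ⟩ := exists_lam (Subgroup.topEquiv.symm : G ≃* (⊤ : Subgroup G))
    (μ.comp (brH hD le_top le_top))
  refine ⟨blockOf M (χ : G → ℂ), ?_⟩
  have hχB : χ ∈ blockOf M (χ : G → ℂ) := mem_blockOf_self χ
  apply isInduced_of_lam hMp hb ⟨χ, rfl⟩ hξ hχB
  intro z hz
  rw [lam_eq_of_br hb hξ hD hDH hc μ hbe, hχ]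
  change μ _ = μ (brH hD le_top le_top ⟨z, hz⟩)
  congr 1
  apply Subtype.ext
  exact br_rst hc _

/-- Kernel of a block in terms of the averaging idempotent. -/
theorem lam_av {p : ℕ} [Fact p.Prime] (hMp : IsPModular p M) {H K : Subgroup G} (hKH : K ≤ H)
    (hn : H ≤ nz K) (hK : ¬ p ∣ Nat.card K) (ξ : IrrCharacter H) :
    lam (MulEquiv.refl H) ξ ⟨av (KF M) K, av_mem_Zc hKH hn⟩ = 1 ↔
      ∀ x : H, (x : G) ∈ K → (ξ : H → ℂ) x = (ξ : H → ℂ) 1 := by
  classical
  let _ : Fintype G := Fintype.ofFinite G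
  let _ : Fintype H := Fintype.ofFinite H
  have hp := hMp.1
  set K' : Subgroup H := K.subgroupOf H with hK'
  have hK'n : K'.Normal := by
    constructor
    intro n hn' g
    rw [Subgroup.mem_subgroupOf] at hn' ⊢
    exact (Subgroup.mem_normalizer_iff.mp (hn g.2) _).mp hn'
  have hcard : Nat.card K' = Nat.card K :=
    Nat.card_congr (Subgroup.subgroupOfEquivOfLe hKH).toEquiv
  have hlr : MemLocalRing M ((Nat.card K : ℂ)⁻¹) := lr_inv_natCast hMp hK
  set A : MonoidAlgebra ℂ H := toAlg (fun h : H => if h ∈ K' then (Nat.card K : ℂ)⁻¹ else 0)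
    with hA
  have hZ : IsZS M A := by
    refine ⟨isCen_toAlg ?_, ?_⟩
    · intro x y
      have : y * x * y⁻¹ ∈ K' ↔ x ∈ K' := by
        constructor
        · intro h
          have := hK'n.conj_mem _ h y⁻¹
          have e : y⁻¹ * (y * x * y⁻¹) * y⁻¹⁻¹ = x := by group
          rwa [e] at this
        · intro h
          exact hK'n.conj_mem _ h y
      simp only [this]
    · intro x
      rw [hA, coeff_toAlg]
      split_ifs
      · exact hlr
      · exact lr_zero M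
  have h1 : upf M (MulEquiv.refl H) (fun x => A.coeff x) = av (KF M) K := by
    apply upf_ext _ ((isSup_av K).mono hKH)
    intro x
    have h2 : ((MulEquiv.refl H) x : G) = (x : G) := rfl
    rw [h2, hA, coeff_toAlg, av, MonoidAlgebra.coeff_smul, Finsupp.smul_apply, coeff_sg]
    have h3 : x ∈ K' ↔ (x : G) ∈ K := Subgroup.mem_subgroupOf
    have hne : (Nat.card K : ℂ) ≠ 0 := by exact_mod_cast Nat.card_pos.ne'
    have h4 : (Nat.card K : KF M)⁻¹ = rd M ((Nat.card K : ℂ)⁻¹) := by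
      have h5 : rd M ((Nat.card K : ℂ)⁻¹ * (Nat.card K : ℂ)) = 1 := by
        rw [inv_mul_cancel₀ hne, rd_one]
      rw [rd_mul hlr (lr_natCast M _), rd_natCast] at h5
      exact (eq_inv_of_mul_eq_one_left h5).symm
    by_cases h : (x : G) ∈ K
    · rw [if_pos h, if_pos (h3.mpr h), smul_eq_mul, mul_one, h4]
    · rw [if_neg h, if_neg (fun h' => h (h3.mp h')), smul_zero, rd_zero]
  have h2 : lam (MulEquiv.refl H) ξ ⟨_, upf_isZS_mem (MulEquiv.refl H) hZ⟩ =
      rd M (omega (ξ : H → ℂ) A) := lam_upf _ ξ hZ _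
  have h3 : (⟨av (KF M) K, av_mem_Zc hKH hn⟩ : Zc (KF M) H) =
      ⟨_, upf_isZS_mem (MulEquiv.refl H) hZ⟩ := Subtype.ext h1.symm
  rw [h3, h2]
  have h4 : omega (ξ : H → ℂ) A = (Nat.card K : ℂ)⁻¹ * (∑ n : K', (ξ : H → ℂ) (n * 1)) /
      (ξ : H → ℂ) 1 := by
    unfold omega
    rw [lin_apply]
    simp only [hA, coeff_toAlg, ite_mul, zero_mul, mul_one]
    rw [← Finset.sum_filter, ← Finset.mul_sum]
    congr 2
    rw [Finset.sum_subtype (p := (· ∈ K'))]
    intro g; simp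
  have hne : (Nat.card K : ℂ) ≠ 0 := by exact_mod_cast Nat.card_pos.ne'
  have h5 := irr_sum_normal_eq ξ.2 K' 1
  have h5' : ∑ n : K', (ξ : H → ℂ) (n * 1) = if (∀ n ∈ K', (ξ : H → ℂ) n = (ξ : H → ℂ) 1) then
      (Nat.card K' : ℂ) * (ξ : H → ℂ) 1 else 0 := by
    convert h5
  rw [h4, h5']
  have h6 : (∀ n ∈ K', (ξ : H → ℂ) n = (ξ : H → ℂ) 1) ↔
      ∀ x : H, (x : G) ∈ K → (ξ : H → ℂ) x = (ξ : H → ℂ) 1 := by
    constructor
    · intro h x hx
      exact h x (Subgroup.mem_subgroupOf.mpr hx)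
    · intro h n hn
      exact h n (Subgroup.mem_subgroupOf.mp hn)
  rw [← h6]
  constructor
  · intro h
    by_contra hcon
    rw [if_neg hcon, mul_zero, zero_div, rd_zero] at h
    exact zero_ne_one h
  · intro h
    rw [if_pos h, hcard]
    have h0 := H3.irr_one_ne_zero ξ.2
    have : (Nat.card K : ℂ)⁻¹ * ((Nat.card K : ℂ) * (ξ : H → ℂ) 1) / (ξ : H → ℂ) 1 = 1 := by
      field_simp
    rw [this, rd_one]

theorem av_mul_EH_iff {p : ℕ} [Fact p.Prime] (hMp : IsPModular p M) [CharP (KF M) p]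
    {H K : Subgroup G} (hKH : K ≤ H)
    (hn : H ≤ nz K) (hK : ¬ p ∣ Nat.card K) {b : Set (IrrCharacter H)} (hb : IsPBlock M b) :
    av (KF M) K * EH M H b = EH M H b ↔
      ∀ x : H, (x : G) ∈ K → x ∈ blockKer b := by
  have hcard : (Nat.card K : KF M) ≠ 0 := (card_ne_zero_iff (p := p) K).mpr hK
  let _ : Fintype H := Fintype.ofFinite H
  constructor
  · intro h x hx ξ hξ
    have h1 := (Eb_mul_eq_iff (MulEquiv.refl H) hb hξ (av_mem_Zc hKH hn) (av_idem hcard)).mp h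
    exact (lam_av hMp hKH hn hK ξ).mp h1 x hx
  · intro h
    obtain ⟨ξ, hξ⟩ := isPBlock_nonempty hb
    apply (Eb_mul_eq_iff (MulEquiv.refl H) hb hξ (av_mem_Zc hKH hn) (av_idem hcard)).mpr
    exact (lam_av hMp hKH hn hK ξ).mpr fun x hx => h x hx ξ hξ

end Cfsg.Agent.H27
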