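import Mathlib
import Cfsg.Agent.H27.Md23
import Cfsg.Agent.H26.Sec
import Cfsg.Agent.H27.Util

set_option autoImplicit false
set_option linter.style.haveILetI false
set_option linter.unusedSectionVars false

/-!
# Projective characters vanish on the singular elements
-/

namespace Cfsg.Agent.H27.Me

open Module Cfsg Cfsg.Agent.H11 Cfsg.Agent.H26 Cfsg.Agent.H3 Cfsg.Agent.H27 Cfsg.Agent.H27.Md
open scoped ComplexConjugate

universe u

variable {G : Type u} [Group G] [Fintype G] {M : Ideal AlgInt} [hM : M.IsPrime] {p : ℕ}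
  [hp : Fact p.Prime]

/-- classes of `p`-regular elements -/
abbrev RegC (p : ℕ) (G : Type u) [Group G] : Type u :=
  {c : ConjClasses G // ∃ y : G, ConjClasses.mk y = c ∧ ¬ p ∣ orderOf y}

noncomputable def rep (c : RegC p G) : G := Classical.choose c.2

omit [Fintype G] hp in
theorem rep_mk (c : RegC p G) : ConjClasses.mk (rep c) = c.1 := (Classical.choose_spec c.2).1

omit [Fintype G] hp in
theorem rep_reg (c : RegC p G) : ¬ p ∣ orderOf (rep c) := (Classical.choose_spec c.2).2

theorem card_le (hMp : IsPModular p M) (D : PD G M) : D.n ≤ Nat.card (RegC p G) := by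
  classical
  haveI : Fintype (RegC p G) := Fintype.ofFinite _
  have hli : LinearIndependent (KF M)
      (fun (i : Fin D.n) (c : RegC p G) => tra D.π i (rep c)) := by
    rw [Fintype.linearIndependent_iff]
    intro a ha i
    have h1 : ∀ g : G, ∑ j, a j * tra D.π j g = 0 := by
      intro g
      obtain ⟨z, y, hzy, hcomm, hz, hy⟩ := exists_isPPart hp.out g
      have h2 := congrFun ha ⟨ConjClasses.mk y, y, rfl, hy⟩
      simp only [Finset.sum_apply, Pi.smul_apply, smul_eq_mul, Pi.zero_apply] at h2
      rw [← h2]
      apply Finset.sum_congr rfl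
      intro j _
      congr 1
      rw [← hzy, tra_reg hMp D.π j hcomm hz]
      exact tra_conj D.π j (ConjClasses.mk_eq_mk_iff_isConj.mp (rep_mk _)).symm
    have h3 : ∑ j, a j * (D.π (redG (D.X i)) j).trace = 0 := by
      simp only [← ev_tra]
      have h4 : ∑ j, a j * ev (redG (D.X i)) (tra D.π j) =
          ev (redG (D.X i)) (∑ j, a j • tra D.π j) := by
        rw [map_sum]
        simp only [map_smul, smul_eq_mul]
      rw [h4]
      have h0 : ∑ j, a j • tra D.π j = 0 := by
        ext g
        simpa using h1 g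
      rw [h0, map_zero]
    rw [Finset.sum_eq_single i] at h3
    · have h4 : (e00 (K := KF M) (D.pos i)).trace = 1 := by
        unfold e00
        rw [Matrix.trace_vecMulVec]
        simp
      rw [D.hX, Pi.single_eq_same, h4, mul_one] at h3
      exact h3
    · intro j _ hj
      rw [D.hX, Pi.single_eq_of_ne hj, Matrix.trace_zero, mul_zero]
    · intro h; exact absurd (Finset.mem_univ _) h
  have h5 := hli.fintype_card_le_finrank
  rwa [Fintype.card_fin, Module.finrank_fintype_fun_eq_card, ← Nat.card_eq_fintype_card] at h5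

theorem dec (hMp : IsPModular p M) (D : PD G M) {y : G} (hy : ¬ p ∣ orderOf y) :
    ∃ c : Fin D.n → ℂ, ∀ θ : IrrCharacter G,
      (θ : G → ℂ) y = ∑ i, c i * (vl (D.X i) θ : ℂ) := by
  classical
  let E := Subgroup.zpowers y
  haveI : Fintype E := Fintype.ofFinite _
  haveI : Fintype (IrrCharacter E) := Fintype.ofFinite _
  have hE : ¬ p ∣ Nat.card E := by rw [Nat.card_zpowers]; exact hy
  have hEc : ∀ a b : E, a * b = b * a := by
    intro a b
    exact mul_comm' a b
  have hone : ∀ l : IrrCharacter E, (l : E → ℂ) 1 = 1 := by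
    intro l
    haveI : IsMulCommutative E := ⟨⟨hEc⟩⟩
    exact irr_degree_one_of_comm l.2
  choose μ hμ using fun l : IrrCharacter E => exists_hom_of_one (irr_isChar l.2) (hone l)
  choose x hx hx2 using fun l : IrrCharacter E => exists_xl (M := M) hMp E hE (μ l)
  let y' : E := ⟨y, Subgroup.mem_zpowers y⟩
  refine ⟨fun i => ∑ l : IrrCharacter E, (l : E → ℂ) y' * (D.r (redG (x l)) i : ℂ), ?_⟩
  intro θ
  have h1 : ∀ l : IrrCharacter E, (vl (x l) θ : ℂ) =
      (Nat.card E : ℂ)⁻¹ * ∑ e : E, conj ((l : E → ℂ) e) * (θ : G → ℂ) e := by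
    intro l
    rw [← vl_spec (hx l), hx2]
    congr 1
    apply Finset.sum_congr rfl
    intro e _
    congr 1
    rw [← char_inv (irr_isChar l.2), hμ]
  have h2 : ∑ l : IrrCharacter E, (l : E → ℂ) y' * (vl (x l) θ : ℂ) = (θ : G → ℂ) y := by
    simp only [h1]
    have h3 : ∑ l : IrrCharacter E, (l : E → ℂ) y' * ((Nat.card E : ℂ)⁻¹ *
        ∑ e : E, conj ((l : E → ℂ) e) * (θ : G → ℂ) e) =
        (Nat.card E : ℂ)⁻¹ * ∑ e : E, (θ : G → ℂ) e *
          ∑ l : IrrCharacter E, (l : E → ℂ) y' * conj ((l : E → ℂ) e) := by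
      simp only [Finset.mul_sum]
      rw [Finset.sum_comm]
      apply Finset.sum_congr rfl
      intro e _
      apply Finset.sum_congr rfl
      intro l _
      ring
    rw [h3]
    have h4 : ∀ e : E, ∑ l : IrrCharacter E, (l : E → ℂ) y' * conj ((l : E → ℂ) e) =
        if y' = e then (Nat.card E : ℂ) else 0 := by
      intro e
      rw [column_orth]
      have h5 : IsConj y' e ↔ y' = e := by
        constructor
        · intro h
          obtain ⟨c, hc⟩ := isConj_iff.mp h
          rw [← hc, hEc c y', mul_inv_cancel_right]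
        · rintro rfl; exact IsConj.refl _
      simp only [h5]
      split_ifs
      · have h6 : Subgroup.centralizer ({y'} : Set E) = ⊤ := by
          rw [eq_top_iff]
          intro a _
          rw [Subgroup.mem_centralizer_singleton_iff]
          exact hEc a y'
        rw [h6, Subgroup.card_top]
      · rfl
    simp only [h4]
    rw [Finset.sum_eq_single y']
    · rw [if_pos rfl, mul_comm, mul_assoc, mul_inv_cancel₀, mul_one]
      exact Nat.cast_ne_zero.mpr Nat.card_pos.ne'
    · intro e _ he
      rw [if_neg (Ne.symm he), mul_zero]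
    · intro h; exact absurd (Finset.mem_univ _) h
  rw [← h2]
  simp only [Finset.sum_mul]
  rw [Finset.sum_comm]
  apply Finset.sum_congr rfl
  intro l _
  rw [D.thmK (hx l) θ]
  push_cast
  rw [Finset.mul_sum]
  apply Finset.sum_congr rfl
  intro i _
  ring

variable [Fintype (IrrCharacter G)]

/-- the projective indecomposable characters -/
noncomputable def Ph (D : PD G M) (i : Fin D.n) : G → ℂ :=
  fun g => ∑ θ : IrrCharacter G, (vl (D.X i) θ : ℂ) * (θ : G → ℂ) g

noncomputable def Wc (c : RegC p G) : G → ℂ :=
  fun g => ∑ θ : IrrCharacter G, conj ((θ : G → ℂ) (rep c)) * (θ : G → ℂ) g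

open Classical in
theorem Wc_val (c : RegC p G) (g : G) : Wc c g = if IsConj g (rep c) then
    (Nat.card (Subgroup.centralizer ({g} : Set G)) : ℂ) else 0 := by
  have h := column_orth g (rep c)
  calc Wc c g = ∑ χ : IrrCharacter G, (χ : G → ℂ) g * conj ((χ : G → ℂ) (rep c)) := by
        unfold Wc
        apply Finset.sum_congr rfl
        intro θ _
        ring
    _ = _ := by rw [h]; split_ifs <;> rfl

theorem Ph_main (hMp : IsPModular p M) (D : PD G M) :
    LinearIndependent ℂ (Ph D) ∧ ∀ i g, p ∣ orderOf g → Ph D i g = 0 := by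
  classical
  haveI : Fintype (RegC p G) := Fintype.ofFinite _
  have hW : LinearIndependent ℂ (Wc (G := G) (p := p)) := by
    rw [Fintype.linearIndependent_iff]
    intro a ha c
    have h1 := congrFun ha (rep c)
    simp only [Finset.sum_apply, Pi.smul_apply, smul_eq_mul, Pi.zero_apply] at h1
    rw [Finset.sum_eq_single c] at h1
    · rw [Wc_val, if_pos (IsConj.refl _)] at h1
      exact (mul_eq_zero.mp h1).resolve_right (Nat.cast_ne_zero.mpr Nat.card_pos.ne')
    · intro c' _ hc'
      rw [Wc_val, if_neg, mul_zero]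
      intro h
      apply hc'
      apply Subtype.ext
      rw [← rep_mk c', ← rep_mk c]
      exact (ConjClasses.mk_eq_mk_iff_isConj.mpr h).symm
    · intro h; exact absurd (Finset.mem_univ _) h
  have hle : Submodule.span ℂ (Set.range (Wc (G := G) (p := p))) ≤
      Submodule.span ℂ (Set.range (Ph D)) := by
    rw [Submodule.span_le]
    rintro _ ⟨c, rfl⟩
    obtain ⟨a, ha⟩ := dec hMp D (rep_reg c)
    have h1 : Wc c = ∑ i, conj (a i) • Ph D i := by
      ext g
      simp only [Wc, Finset.sum_apply, Pi.smul_apply, smul_eq_mul, Ph, Finset.mul_sum]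
      rw [Finset.sum_comm]
      apply Finset.sum_congr rfl
      intro θ _
      rw [ha θ, map_sum, Finset.sum_mul]
      apply Finset.sum_congr rfl
      intro i _
      rw [map_mul, Complex.conj_natCast]
      ring
    rw [SetLike.mem_coe, h1]
    exact Submodule.sum_mem _ fun i _ => Submodule.smul_mem _ _
      (Submodule.subset_span ⟨i, rfl⟩)
  have hU := finrank_span_eq_card hW
  have hV : finrank ℂ (Submodule.span ℂ (Set.range (Ph D))) ≤ D.n := by
    have := finrank_range_le_card (R := ℂ) (Ph D)
    rwa [Fintype.card_fin] at this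
  have hn := card_le hMp D
  rw [Nat.card_eq_fintype_card] at hn
  have heq := Submodule.eq_of_le_of_finrank_le hle (by rw [hU]; exact hV.trans hn)
  refine ⟨?_, ?_⟩
  · rw [linearIndependent_iff_card_le_finrank_span]
    unfold Set.finrank
    rw [← heq, hU, Fintype.card_fin]
    exact hn
  · intro i g hg
    have h1 : Ph D i ∈ Submodule.span ℂ (Set.range (Wc (G := G) (p := p))) := by
      rw [heq]; exact Submodule.subset_span ⟨i, rfl⟩
    generalize Ph D i = f at h1 ⊢
    induction h1 using Submodule.span_induction with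
    | mem x hx =>
      obtain ⟨c, rfl⟩ := hx
      rw [Wc_val, if_neg]
      intro h
      obtain ⟨a, ha⟩ := isConj_iff.mp h
      apply rep_reg c
      rw [← ha]
      have h2 : orderOf (a * g * a⁻¹) = orderOf g := by
        have := orderOf_injective (MulAut.conj a).toMonoidHom (MulAut.conj a).injective g
        simpa using this
      rw [h2]; exact hg
    | zero => rfl
    | add x y _ _ hx hy => rw [Pi.add_apply, hx, hy, add_zero]
    | smul a x _ hx => rw [Pi.smul_apply, hx, smul_zero]

end Cfsg.Agent.H27.Me
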