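import Mathlib
import Cfsg.Agent.H27.Me1
import Cfsg.Agent.H3.Ind

set_option autoImplicit false
set_option linter.style.haveILetI false
set_option linter.unusedSectionVars false

/-!
# Traces of automorphisms on the regular part of a block are natural numbers
-/

namespace Cfsg.Agent.H27.Me

open Module Cfsg Cfsg.Agent.H11 Cfsg.Agent.H26 Cfsg.Agent.H3 Cfsg.Agent.H27 Cfsg.Agent.H27.Md
open scoped ComplexConjugate

universe u

variable {G : Type u} [Group G] [Fintype G] {M : Ideal AlgInt} [hM : M.IsPrime] {p : ℕ}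
  [hp : Fact p.Prime]

/-- composition with an automorphism -/
noncomputable def cmp (α : G ≃* G) (θ : IrrCharacter G) : IrrCharacter G :=
  ⟨(θ : G → ℂ) ∘ α, (isIrr_comp_equiv_iff α).mpr θ.2⟩

theorem cmp_apply (α : G ≃* G) (θ : IrrCharacter G) (g : G) :
    (cmp α θ : G → ℂ) g = (θ : G → ℂ) (α g) := rfl

theorem exists_R (D : PD G M) (α : G ≃* G) (i : Fin D.n) : ∃ r : Fin D.n → ℕ,
    ∀ θ : IrrCharacter G, vl (D.X i) (cmp α θ) = ∑ k, r k * vl (D.X k) θ := by
  classical
  let x : MonoidAlgebra (locRing M) G :=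
    MonoidAlgebra.mapDomainRingHom (locRing M) (α : G →* G) (D.X i)
  have hx : x * x = x := by
    simp only [x]
    rw [← map_mul, D.idem]
  refine ⟨D.r (redG x), fun θ => ?_⟩
  rw [← D.thmK hx θ]
  have h1 := vl_spec (D.idem i) (cmp α θ)
  have h2 := vl_spec hx θ
  have h3 : lin (θ : G → ℂ) (cxG x) = lin (cmp α θ : G → ℂ) (cxG (D.X i)) := by
    rw [lin_apply, lin_apply]
    symm
    refine Fintype.sum_equiv α.toEquiv _ _ fun g => ?_
    have h4 : x.coeff (α g) = (D.X i).coeff g := Finsupp.mapDomain_apply α.injective _ g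
    have h5 : (cxG x).coeff (α g) = (cxG (D.X i)).coeff g := by
      rw [MonoidAlgebra.coeff_mapRingHom, MonoidAlgebra.coeff_mapRingHom, h4]
    change _ = (cxG x).coeff (α g) * (θ : G → ℂ) (α g)
    rw [h5, cmp_apply]
  rw [h1, h2] at h3
  exact_mod_cast h3.symm

open Classical in
theorem exists_P (D : PD G M) {B : Set (IrrCharacter G)} (hB : IsPBlock M B) (i : Fin D.n) :
    ∃ r : Fin D.n → ℕ, ∀ θ : IrrCharacter G,
      (if θ ∈ B then vl (D.X i) θ else 0) = ∑ k, r k * vl (D.X k) θ := by
  have hc : EB hB * D.X i = D.X i * EB hB := by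
    apply cxG_inj
    rw [map_mul, map_mul, cxG_EB]
    exact isCen_commute (isCen_fIdem B) _
  have hx : (EB hB * D.X i) * (EB hB * D.X i) = EB hB * D.X i := by
    calc (EB hB * D.X i) * (EB hB * D.X i) = EB hB * (D.X i * EB hB) * D.X i := by
          simp only [mul_assoc]
      _ = (EB hB * EB hB) * (D.X i * D.X i) := by rw [← hc]; simp only [mul_assoc]
      _ = EB hB * D.X i := by rw [EB_idem, D.idem]
  refine ⟨D.r (redG (EB hB * D.X i)), fun θ => ?_⟩
  rw [← D.thmK hx θ]
  have h1 := vl_spec (D.idem i) θ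
  have h2 := vl_spec hx θ
  rw [map_mul, cxG_EB] at h2
  split_ifs with h
  · rw [lin_fIdem_mul_of_mem h, h1] at h2
    exact_mod_cast h2
  · rw [lin_fIdem_mul_of_not_mem h] at h2
    exact_mod_cast h2

variable [Fintype (IrrCharacter G)]

theorem trace_nat (hMp : IsPModular p M) {B : Set (IrrCharacter G)} (hB : IsPBlock M B)
    (α : G ≃* G) [DecidablePred (· ∈ B)] [DecidablePred (fun y : G => ¬ p ∣ orderOf y)] :
    ∃ m : ℕ, ∑ y : G with ¬ p ∣ orderOf y, ∑ θ : IrrCharacter G with θ ∈ B,
      (θ : G → ℂ) (α y) * conj ((θ : G → ℂ) y) = (Nat.card G : ℂ) * m := by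
  classical
  obtain ⟨D⟩ := exists_PD (G := G) (M := M)
  obtain ⟨hli, hvan⟩ := Ph_main hMp D
  choose R hR using exists_R D α
  choose P hP using exists_P D hB
  have hdec : ∀ y : G, ∃ c : Fin D.n → ℂ, ¬ p ∣ orderOf y → ∀ θ : IrrCharacter G,
      (θ : G → ℂ) y = ∑ i, c i * (vl (D.X i) θ : ℂ) := by
    intro y
    by_cases hy : ¬ p ∣ orderOf y
    · obtain ⟨c, hc⟩ := dec hMp D hy
      exact ⟨c, fun _ => hc⟩
    · exact ⟨0, fun h => absurd h hy⟩
  choose c hc using hdec
  -- the biorthogonality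
  let β : Fin D.n → Fin D.n → ℂ := fun i l =>
    ∑ y : G with ¬ p ∣ orderOf y, c y i * conj (Ph D l y)
  have hβ1 : ∀ (θ : IrrCharacter G) l, ∑ i, β i l * (vl (D.X i) θ : ℂ) =
      (Nat.card G : ℂ) * (vl (D.X l) θ : ℂ) := by
    intro θ l
    have e1 : ∑ i, β i l * (vl (D.X i) θ : ℂ) =
        ∑ y : G with ¬ p ∣ orderOf y, (θ : G → ℂ) y * conj (Ph D l y) := by
      simp only [β, Finset.sum_mul]
      rw [Finset.sum_comm]
      apply Finset.sum_congr rfl
      intro y hy
      rw [hc y (Finset.mem_filter.mp hy).2 θ, Finset.sum_mul]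
      apply Finset.sum_congr rfl
      intro i _
      ring
    have e2 : ∑ y : G with ¬ p ∣ orderOf y, (θ : G → ℂ) y * conj (Ph D l y) =
        ∑ y : G, (θ : G → ℂ) y * conj (Ph D l y) := by
      rw [Finset.sum_filter]
      apply Finset.sum_congr rfl
      intro y _
      split_ifs with h
      · rw [hvan l y h, map_zero, mul_zero]
      · rfl
    rw [e1, e2]
    have e3 : ∑ y : G, (θ : G → ℂ) y * conj (Ph D l y) =
        ∑ ψ : IrrCharacter G, (vl (D.X l) ψ : ℂ) * ((Nat.card G : ℂ) *
          classInner (θ : G → ℂ) (ψ : G → ℂ)) := by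
      simp only [Ph, map_sum, Finset.mul_sum]
      rw [Finset.sum_comm]
      apply Finset.sum_congr rfl
      intro ψ _
      rw [← mul_assoc]
      unfold classInner
      rw [← mul_assoc, mul_assoc (vl (D.X l) ψ : ℂ), mul_inv_cancel₀
        (Nat.cast_ne_zero.mpr Nat.card_pos.ne'), mul_one, Finset.mul_sum]
      apply Finset.sum_congr rfl
      intro y _
      rw [map_mul, Complex.conj_natCast]
      ring
    rw [e3, Finset.sum_eq_single θ]
    · rw [classInner_self_of_irr θ.2]; ring
    · intro ψ _ hψ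
      rw [classInner_of_irr_ne θ.2 ψ.2 (fun h => hψ (Subtype.ext h).symm), mul_zero, mul_zero]
    · intro h; exact absurd (Finset.mem_univ _) h
  have hβ : ∀ i l, β i l = if i = l then (Nat.card G : ℂ) else 0 := by
    intro i l
    have h1 : ∑ i, (β i l - if i = l then (Nat.card G : ℂ) else 0) • Ph D i = 0 := by
      ext g
      simp only [Finset.sum_apply, Pi.smul_apply, smul_eq_mul, Pi.zero_apply, sub_mul, ite_mul,
        zero_mul, Finset.sum_sub_distrib, Finset.sum_ite_eq', Finset.mem_univ, if_true]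
      rw [sub_eq_zero]
      unfold Ph
      simp only [Finset.mul_sum]
      rw [Finset.sum_comm]
      apply Finset.sum_congr rfl
      intro θ _
      rw [← mul_assoc, ← hβ1 θ l, Finset.sum_mul]
      apply Finset.sum_congr rfl
      intro i _
      ring
    have h2 := (Fintype.linearIndependent_iff.mp hli) _ h1 i
    exact sub_eq_zero.mp h2
  have hP' : ∀ k (θ : IrrCharacter G), (if θ ∈ B then vl (D.X k) θ else 0) =
      ∑ l, P k l * vl (D.X l) θ := by
    intro k θ
    rw [← hP k θ]
    split_ifs <;> rfl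
  refine ⟨∑ i, ∑ k, R i k * P k i, ?_⟩
  have hval : ∀ y : G, ¬ p ∣ orderOf y → ∀ θ : IrrCharacter G,
      (if θ ∈ B then (θ : G → ℂ) (α y) else 0) =
        ∑ i, ∑ l, c y i * (∑ k, (R i k : ℂ) * (P k l : ℂ)) * (vl (D.X l) θ : ℂ) := by
    intro y hy θ
    have e1 : (if θ ∈ B then (θ : G → ℂ) (α y) else 0) =
        ∑ i, c y i * ∑ k, (R i k : ℂ) * ((if θ ∈ B then vl (D.X k) θ else 0 : ℕ) : ℂ) := by
      split_ifs with h
      · rw [← cmp_apply, hc y hy (cmp α θ)]
        apply Finset.sum_congr rfl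
        intro i _
        rw [hR i θ]
        push_cast
        rfl
      · simp
    rw [e1]
    apply Finset.sum_congr rfl
    intro i _
    simp only [hP']
    push_cast
    simp only [Finset.mul_sum, Finset.sum_mul]
    rw [Finset.sum_comm]
    apply Finset.sum_congr rfl
    intro l _
    apply Finset.sum_congr rfl
    intro k _
    ring
  have hS : ∑ y : G with ¬ p ∣ orderOf y, ∑ θ : IrrCharacter G with θ ∈ B,
      (θ : G → ℂ) (α y) * conj ((θ : G → ℂ) y) =
      ∑ i, ∑ l, (∑ k, (R i k : ℂ) * (P k l : ℂ)) * β i l := by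
    have e1 : ∀ y ∈ Finset.univ.filter (fun y : G => ¬ p ∣ orderOf y),
        ∑ θ : IrrCharacter G with θ ∈ B, (θ : G → ℂ) (α y) * conj ((θ : G → ℂ) y) =
        ∑ i, ∑ l, (∑ k, (R i k : ℂ) * (P k l : ℂ)) * (c y i * conj (Ph D l y)) := by
      intro y hy
      have hy' := (Finset.mem_filter.mp hy).2
      rw [Finset.sum_filter]
      have e2 : ∀ θ : IrrCharacter G, (if θ ∈ B then (θ : G → ℂ) (α y) * conj ((θ : G → ℂ) y)
          else 0) = (∑ i, ∑ l, c y i * (∑ k, (R i k : ℂ) * (P k l : ℂ)) *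
            (vl (D.X l) θ : ℂ)) * conj ((θ : G → ℂ) y) := by
        intro θ
        rw [← hval y hy' θ]
        split_ifs <;> simp
      rw [Finset.sum_congr rfl fun θ _ => e2 θ]
      simp only [Finset.sum_mul]
      rw [Finset.sum_comm]
      apply Finset.sum_congr rfl
      intro i _
      rw [Finset.sum_comm]
      apply Finset.sum_congr rfl
      intro l _
      simp only [Ph, map_sum, Finset.mul_sum, Finset.sum_mul, map_mul, Complex.conj_natCast]
      rw [Finset.sum_comm]
      apply Finset.sum_congr rfl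
      intro k _
      apply Finset.sum_congr rfl
      intro θ _
      ring
    rw [Finset.sum_congr rfl e1, Finset.sum_comm]
    apply Finset.sum_congr rfl
    intro i _
    rw [Finset.sum_comm]
    apply Finset.sum_congr rfl
    intro l _
    simp only [β, Finset.mul_sum]
  rw [hS]
  simp only [hβ, mul_ite, mul_zero, Finset.sum_ite_eq, Finset.mem_univ, if_true]
  push_cast
  rw [Finset.mul_sum]
  apply Finset.sum_congr rfl
  intro i _
  ring

end Cfsg.Agent.H27.Me
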