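import Mathlib
import Cfsg.Agent.H27.Me2
import Cfsg.Agent.H27.Galois

set_option autoImplicit false
set_option linter.style.haveILetI false
set_option linter.unusedSectionVars false

/-!
# Counting p-rational characters
-/

namespace Cfsg.Agent.H27.Me

open Module Cfsg Cfsg.Agent.H11 Cfsg.Agent.H26 Cfsg.Agent.H3 Cfsg.Agent.H27 Cfsg.Agent.H27.Md
open scoped ComplexConjugate

universe u

variable {G : Type u} [Group G] [Fintype G] {M : Ideal AlgInt} {p : ℕ} [hp : Fact p.Prime]

/-- conjugation by an element which maps a power of `x` to `x` -/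
theorem exists_alpha {x t : G} {k : ℕ} (ht : t * x ^ k * t⁻¹ = x) :
    ∃ α : Subgroup.centralizer ({x} : Set G) ≃* Subgroup.centralizer ({x} : Set G),
      ∀ y, ((α y : Subgroup.centralizer ({x} : Set G)) : G) = t * y * t⁻¹ := by
  classical
  let f : Subgroup.centralizer ({x} : Set G) →* Subgroup.centralizer ({x} : Set G) :=
    { toFun := fun y => ⟨t * y * t⁻¹, by
        rw [Subgroup.mem_centralizer_singleton_iff]
        have h1 : (y : G) * x = x * y := Subgroup.mem_centralizer_singleton_iff.mp y.2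
        have h2 : (y : G) * x ^ k = x ^ k * y := (Commute.pow_right (show Commute (y : G) x from h1) k)
        calc t * y * t⁻¹ * x = t * y * t⁻¹ * (t * x ^ k * t⁻¹) := by rw [ht]
          _ = t * (y * x ^ k) * t⁻¹ := by group
          _ = t * (x ^ k * y) * t⁻¹ := by rw [h2]
          _ = (t * x ^ k * t⁻¹) * (t * y * t⁻¹) := by group
          _ = x * (t * y * t⁻¹) := by rw [ht]⟩
      map_one' := by
        apply Subtype.ext
        simp
      map_mul' := by
        intro a b
        apply Subtype.ext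
        simp [mul_assoc] }
  have hf : Function.Injective f := by
    intro a b h
    have h1 : t * a * t⁻¹ = t * b * t⁻¹ := congrArg Subtype.val h
    exact Subtype.ext (mul_left_cancel (mul_right_cancel h1))
  exact ⟨MulEquiv.ofBijective f (Finite.injective_iff_bijective.mp hf), fun y => rfl⟩

section sums

variable [Fintype (IrrCharacter G)] {B : Set (IrrCharacter G)} [DecidablePred (· ∈ B)]

noncomputable def FF (B : Set (IrrCharacter G)) [DecidablePred (· ∈ B)] (k : ℕ) (g : G) : ℂ :=
  ∑ χ : IrrCharacter G with χ ∈ B, (χ : G → ℂ) (g ^ k) * conj ((χ : G → ℂ) g)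

/-- the contribution of one `p`-element -/
theorem contr (hM : IsPModular p M) (hB : IsPBlock M B) {x : G}
    (hx : ∃ j : ℕ, orderOf x = p ^ j) {k m : ℕ} (hk : k ≡ 1 [MOD m])
    (hm : ∀ y : G, ¬ p ∣ orderOf y → orderOf y ∣ m)
    [Fintype (Subgroup.centralizer ({x} : Set G))]
    [DecidablePred (fun y : Subgroup.centralizer ({x} : Set G) => ¬ p ∣ orderOf y)] :
    ∃ N : ℕ, ∑ y : Subgroup.centralizer ({x} : Set G) with ¬ p ∣ orderOf y,
      FF B k (x * y) = N := by
  classical
  haveI := hM.2.1.isPrime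
  haveI : Fintype (IrrCharacter (Subgroup.centralizer ({x} : Set G))) := Fintype.ofFinite _
  have hyk : ∀ y : G, ¬ p ∣ orderOf y → y ^ k = y := by
    intro y hy
    have := (pow_eq_pow_iff_modEq (x := y) (n := k) (m := 1)).mpr (hk.of_dvd (hm y hy))
    rwa [pow_one] at this
  have hcomm : ∀ y : Subgroup.centralizer ({x} : Set G), Commute x (y : G) := fun y =>
    (Subgroup.mem_centralizer_singleton_iff.mp y.2).symm
  have hpow : ∀ y : Subgroup.centralizer ({x} : Set G), ¬ p ∣ orderOf y →
      (x * (y : G)) ^ k = x ^ k * y := by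
    intro y hy
    rw [(hcomm y).mul_pow, hyk y (by rwa [Subgroup.orderOf_coe])]
  by_cases hc : IsConj (x ^ k) x
  · obtain ⟨t, ht⟩ := isConj_iff.mp hc
    obtain ⟨α, hα⟩ := exists_alpha ht
    have e1 : ∀ y ∈ Finset.univ.filter (fun y : Subgroup.centralizer ({x} : Set G) =>
        ¬ p ∣ orderOf y), FF B k (x * y) =
        ∑ b ∈ (blks M (Subgroup.centralizer ({x} : Set G))).filter
        (fun b => IsInducedBlock M (Subgroup.centralizer ({x} : Set G)) b B),
        ∑ θ : IrrCharacter (Subgroup.centralizer ({x} : Set G)) with θ ∈ b,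
          (θ : Subgroup.centralizer ({x} : Set G) → ℂ) (α y) *
            conj ((θ : Subgroup.centralizer ({x} : Set G) → ℂ) y) := by
      intro y hy
      have hy' := (Finset.mem_filter.mp hy).2
      have hαy : ¬ p ∣ orderOf (α y) := by rwa [MulEquiv.orderOf_eq]
      rw [← section_pairing hM hB hx (α y) y hαy hy']
      unfold FF
      apply Finset.sum_congr rfl
      intro χ _
      congr 1
      rw [hpow y hy', hα]
      have h1 : x * (t * (y : G) * t⁻¹) = t * (x ^ k * y) * t⁻¹ := by
        calc x * (t * (y : G) * t⁻¹) = (t * x ^ k * t⁻¹) * (t * (y : G) * t⁻¹) := by rw [ht]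
          _ = t * (x ^ k * y) * t⁻¹ := by group
      rw [h1, irr_classFun χ.2]
    rw [Finset.sum_congr rfl e1, Finset.sum_comm]
    have e2 : ∀ b ∈ (blks M (Subgroup.centralizer ({x} : Set G))).filter
        (fun b => IsInducedBlock M (Subgroup.centralizer ({x} : Set G)) b B), ∃ m : ℕ,
        ∑ y : Subgroup.centralizer ({x} : Set G) with ¬ p ∣ orderOf y,
          ∑ θ : IrrCharacter (Subgroup.centralizer ({x} : Set G)) with θ ∈ b,
          (θ : Subgroup.centralizer ({x} : Set G) → ℂ) (α y) *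
            conj ((θ : Subgroup.centralizer ({x} : Set G) → ℂ) y) = (m : ℂ) := by
      intro b hb
      obtain ⟨m, hm⟩ := trace_nat hM (Finset.mem_filter.mp hb).2.1 α
      exact ⟨Nat.card (Subgroup.centralizer ({x} : Set G)) * m, by rw [hm]; push_cast; rfl⟩
    have e3 : ∀ s : Finset (Set (IrrCharacter (Subgroup.centralizer ({x} : Set G)))),
        ∀ f : Set (IrrCharacter (Subgroup.centralizer ({x} : Set G))) → ℂ,
        (∀ b ∈ s, ∃ m : ℕ, f b = m) → ∃ m : ℕ, ∑ b ∈ s, f b = m := by
      intro s f hs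
      induction s using Finset.induction_on with
      | empty => exact ⟨0, by simp⟩
      | insert b s hb ih =>
        obtain ⟨m1, h1⟩ := hs b (Finset.mem_insert_self _ _)
        obtain ⟨m2, h2⟩ := ih fun b hb => hs b (Finset.mem_insert_of_mem hb)
        exact ⟨m1 + m2, by rw [Finset.sum_insert hb, h1, h2]; push_cast; rfl⟩
    exact e3 _ _ e2
  · refine ⟨0, ?_⟩
    rw [Nat.cast_zero]
    apply Finset.sum_eq_zero
    intro y hy
    have hy' := (Finset.mem_filter.mp hy).2
    have hyG : ¬ p ∣ orderOf (y : G) := by rwa [Subgroup.orderOf_coe]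
    obtain ⟨j, hj⟩ := hx
    have hp1 : IsPPart p (x ^ k * (y : G)) (x ^ k) := by
      refine ⟨y, rfl, (hcomm y).pow_left k, ?_, hyG⟩
      have h1 : orderOf (x ^ k) ∣ p ^ j := by
        rw [← hj]; exact orderOf_pow_dvd k
      obtain ⟨i, _, hi⟩ := (Nat.dvd_prime_pow hp.out).mp h1
      exact ⟨i, hi⟩
    have hp2 : IsPPart p (x * (y : G)) x := ⟨y, rfl, hcomm y, ⟨j, hj⟩, hyG⟩
    have h1 := block_orthogonality hM hp1 hp2 hc hB
    rw [finsum_mem_irr] at h1
    unfold FF
    rw [← h1]
    apply Finset.sum_congr rfl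
    intro χ _
    rw [hpow y hy', char_inv (irr_isChar χ.2)]

end sums

theorem main (hM : IsPModular p M) {B : Set (IrrCharacter G)} (hB : IsPBlock M B) {k m : ℕ}
    (hcop : Nat.Coprime k (Nat.card G)) (hk : k ≡ 1 [MOD m])
    (hm : ∀ y : G, ¬ p ∣ orderOf y → orderOf y ∣ m) :
    blockRank p B ≤ Nat.card {χ : IrrCharacter G // χ ∈ B ∧
      ∀ g : G, (χ : G → ℂ) (g ^ k) = (χ : G → ℂ) g} := by
  classical
  haveI := hM.2.1.isPrime
  haveI : Fintype (IrrCharacter G) := Fintype.ofFinite _
  have hG : (Nat.card G : ℂ) ≠ 0 := Nat.cast_ne_zero.mpr Nat.card_pos.ne'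
  choose pp hpp using fun g : G => exists_isPPart hp.out g
  have hyk : ∀ y : G, ¬ p ∣ orderOf y → y ^ k = y := by
    intro y hy
    have := (pow_eq_pow_iff_modEq (x := y) (n := k) (m := 1)).mpr (hk.of_dvd (hm y hy))
    rwa [pow_one] at this
  -- the trace
  have h1 : (Nat.card G : ℂ) * (Nat.card {χ : IrrCharacter G // χ ∈ B ∧
      ∀ g : G, (χ : G → ℂ) (g ^ k) = (χ : G → ℂ) g} : ℂ) = ∑ g : G, FF B k g := by
    unfold FF
    rw [Finset.sum_comm]
    have e1 : ∀ χ ∈ Finset.univ.filter (fun χ : IrrCharacter G => χ ∈ B),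
        ∑ g : G, (χ : G → ℂ) (g ^ k) * conj ((χ : G → ℂ) g) =
        if ∀ g : G, (χ : G → ℂ) (g ^ k) = (χ : G → ℂ) g then (Nat.card G : ℂ) else 0 := by
      intro χ _
      have e2 : ∑ g : G, (χ : G → ℂ) (g ^ k) * conj ((χ : G → ℂ) g) =
          (Nat.card G : ℂ) * classInner (fun g => (χ : G → ℂ) (g ^ k)) (χ : G → ℂ) := by
        unfold classInner
        rw [← mul_assoc, mul_inv_cancel₀ hG, one_mul]
      rw [e2]
      split_ifs with h
      · have e3 : (fun g => (χ : G → ℂ) (g ^ k)) = (χ : G → ℂ) := funext h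
        rw [e3, classInner_self_of_irr χ.2, mul_one]
      · rw [classInner_of_irr_ne (isIrr_pow_coprime χ.2 hcop) χ.2 (fun h' => h (congrFun h')),
          mul_zero]
    rw [Finset.sum_congr rfl e1, ← Finset.sum_filter, Finset.sum_const, Finset.filter_filter,
      nsmul_eq_mul, mul_comm]
    congr 2
    rw [Nat.card_eq_fintype_card, Fintype.card_subtype]
  -- decomposition
  have h2 : ∑ g : G, FF B k g = ∑ x : G, ∑ g : G with pp g = x, FF B k g :=
    (Finset.sum_fiberwise _ _ _).symm
  have h3 : ∀ x : G, ∃ N : ℕ, ∑ g : G with pp g = x, FF B k g = N := by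
    intro x
    by_cases hx : ∃ j : ℕ, orderOf x = p ^ j
    · haveI : Fintype (Subgroup.centralizer ({x} : Set G)) := Fintype.ofFinite _
      obtain ⟨N, hN⟩ := contr hM hB hx hk hm
      refine ⟨N, ?_⟩
      rw [← hN]
      symm
      refine Finset.sum_bij (fun (y : Subgroup.centralizer ({x} : Set G)) _ => x * (y : G))
        ?_ ?_ ?_ ?_
      · intro y hy
        have hy' := (Finset.mem_filter.mp hy).2
        rw [Finset.mem_filter]
        refine ⟨Finset.mem_univ _, ?_⟩
        refine isPPart_unique hp.out (hpp _) ⟨y, rfl, ?_, hx, by rwa [Subgroup.orderOf_coe]⟩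
        exact (Subgroup.mem_centralizer_singleton_iff.mp y.2).symm
      · intro y _ z _ h
        exact Subtype.ext (mul_left_cancel h)
      · intro g hg
        have hg' := (Finset.mem_filter.mp hg).2
        have h4 := hpp g
        rw [hg'] at h4
        obtain ⟨y, hy, hcm, _, hyr⟩ := h4
        refine ⟨⟨y, Subgroup.mem_centralizer_singleton_iff.mpr hcm.symm⟩, ?_, hy⟩
        rw [Finset.mem_filter]
        refine ⟨Finset.mem_univ _, ?_⟩
        rwa [Subgroup.orderOf_mk]
      · intro y _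
        rfl
    · refine ⟨0, ?_⟩
      rw [Nat.cast_zero]
      apply Finset.sum_eq_zero
      intro g hg
      exfalso
      have hg' := (Finset.mem_filter.mp hg).2
      apply hx
      rw [← hg']
      obtain ⟨_, _, _, h4, _⟩ := hpp g
      exact h4
  choose N hN using h3
  have h4 : (Nat.card G : ℂ) * (blockRank p B : ℂ) = (N 1 : ℂ) := by
    rw [← hN 1, blockRank_sum hM hB]
    have e1 : (Finset.univ.filter fun g : G => ¬ p ∣ orderOf g) =
        Finset.univ.filter fun g : G => pp g = 1 := by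
      ext g
      simp only [Finset.mem_filter, Finset.mem_univ, true_and]
      constructor
      · intro h
        exact isPPart_unique hp.out (hpp g) ⟨g, one_mul g, Commute.one_left g,
          ⟨0, by simp⟩, h⟩
      · intro h
        have h5 := hpp g
        rw [h] at h5
        obtain ⟨y, hy, _, _, hyr⟩ := h5
        rw [one_mul] at hy
        rw [← hy]; exact hyr
    rw [← e1]
    apply Finset.sum_congr rfl
    intro g hg
    unfold FF
    rw [hyk g (Finset.mem_filter.mp hg).2]
  have h5 : Nat.card G * Nat.card {χ : IrrCharacter G // χ ∈ B ∧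
      ∀ g : G, (χ : G → ℂ) (g ^ k) = (χ : G → ℂ) g} = ∑ x : G, N x := by
    have : ((Nat.card G * Nat.card {χ : IrrCharacter G // χ ∈ B ∧
      ∀ g : G, (χ : G → ℂ) (g ^ k) = (χ : G → ℂ) g} : ℕ) : ℂ) = ((∑ x : G, N x : ℕ) : ℂ) := by
      push_cast
      rw [h1, h2, Finset.sum_congr rfl fun x _ => hN x]
    exact_mod_cast this
  have h6 : Nat.card G * blockRank p B = N 1 := by exact_mod_cast h4
  have h7 : N 1 ≤ ∑ x : G, N x :=
    Finset.single_le_sum (fun x _ => Nat.zero_le _) (Finset.mem_univ 1)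
  rw [← h5, ← h6] at h7
  exact Nat.le_of_mul_le_mul_left h7 Nat.card_pos

/-- S4712 -/
theorem st4712 (hodd : p ≠ 2) (hM : IsPModular p M) {B : Set (IrrCharacter G)}
    (hB : IsPBlock M B) : blockRank p B ≤ Nat.card {χ : IrrCharacter G // χ ∈ B ∧
      ∀ k : ℕ, Nat.Coprime k (Nat.card G) →
        k ≡ 1 [MOD Nat.card G / p ^ (Nat.card G).factorization p] →
        ∀ g : G, (χ : G → ℂ) (g ^ k) = (χ : G → ℂ) g} := by
  classical
  set n := Nat.card G with hn
  set a := n.factorization p with ha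
  set m := n / p ^ a with hmdef
  have hn0 : n ≠ 0 := Nat.card_pos.ne'
  have hfac : p ^ a * m = n := Nat.ordProj_mul_ordCompl_eq_self _ _
  have hpm : ¬ p ∣ m := Nat.not_dvd_ordCompl hp.out hn0
  have hco : Nat.Coprime (p ^ a) m :=
    Nat.Coprime.pow_left _ ((Nat.Prime.coprime_iff_not_dvd hp.out).mpr hpm)
  haveI := ZMod.isCyclic_units_of_prime_pow p hp.out hodd a
  haveI : NeZero (p ^ a) := ⟨pow_ne_zero _ hp.out.ne_zero⟩
  obtain ⟨w, hw⟩ := IsCyclic.exists_generator (α := (ZMod (p ^ a))ˣ)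
  obtain ⟨k, hk1, hk2⟩ := Nat.chineseRemainder hco ((w : ZMod (p ^ a)).val) 1
  have hkw : (k : ZMod (p ^ a)) = w := by
    rw [(ZMod.natCast_eq_natCast_iff _ _ _).mpr hk1, ZMod.natCast_zmod_val]
  have hkp : Nat.Coprime k (p ^ a) := by
    rw [← ZMod.isUnit_iff_coprime, hkw]
    exact w.isUnit
  have hkm : Nat.Coprime k m := by
    have h1 := hk2.gcd_eq
    rw [Nat.gcd_one_left] at h1
    exact h1
  have hcop : Nat.Coprime k n := by
    rw [← hfac]; exact Nat.Coprime.mul_right hkp hkm
  have hm : ∀ y : G, ¬ p ∣ orderOf y → orderOf y ∣ m := by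
    intro y hy
    have h1 : orderOf y ∣ p ^ a * m := by rw [hfac]; exact orderOf_dvd_natCard y
    exact (Nat.Coprime.pow_right a
      ((Nat.Prime.coprime_iff_not_dvd hp.out).mpr hy).symm).dvd_of_dvd_mul_left h1
  refine (main hM hB hcop hk2 hm).trans (le_of_eq ?_)
  apply Nat.card_congr
  apply Equiv.subtypeEquivRight
  intro χ
  constructor
  · rintro ⟨hχB, hχ⟩
    refine ⟨hχB, ?_⟩
    intro k' hk' hk'1 g
    have hj : ∀ j : ℕ, ∀ g : G, (χ : G → ℂ) (g ^ (k ^ j)) = (χ : G → ℂ) g := by
      intro j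
      induction j with
      | zero => intro g; rw [pow_zero, pow_one]
      | succ j ih => intro g; rw [pow_succ, pow_mul, hχ, ih]
    have hk'p : Nat.Coprime k' (p ^ a) := by
      rw [← hfac] at hk'
      exact Nat.Coprime.coprime_mul_right_right hk'
    have hu : IsUnit (k' : ZMod (p ^ a)) := (ZMod.isUnit_iff_coprime k' (p ^ a)).mpr hk'p
    obtain ⟨w', hw'⟩ := hu
    obtain ⟨j, hjw⟩ := (mem_powers_iff_mem_zpowers.mpr (hw w'))
    have hmod : k' ≡ k ^ j [MOD n] := by
      rw [← hfac]
      refine (Nat.modEq_and_modEq_iff_modEq_mul hco).mp ⟨?_, ?_⟩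
      · rw [← ZMod.natCast_eq_natCast_iff, Nat.cast_pow, hkw, ← hw', ← hjw]
        push_cast
        rfl
      · have h1 := hk2.pow j
        rw [one_pow] at h1
        exact hk'1.trans h1.symm
    have h2 : g ^ k' = g ^ (k ^ j) :=
      (pow_eq_pow_iff_modEq (x := g)).mpr (hmod.of_dvd (orderOf_dvd_natCard g))
    rw [h2, hj]
  · rintro ⟨hχB, hχ⟩
    exact ⟨hχB, hχ k hcop hk2⟩

end Cfsg.Agent.H27.Me
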