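import Cfsg.Agent.H27.Avg

set_option autoImplicit false

/-! # `π'`-cores in the kernel of Brauer pairs -/

namespace Cfsg.Agent.H27

open MonoidAlgebra Cfsg.Agent.H26

variable {k : Type*} [Field k] {G : Type*} [Group G] [Finite G] {p : ℕ} [Fact p.Prime]
  [CharP k p]

/-- `O_{π'}(C(Q))` acts trivially on the block `f`. -/
def PK (π : Set ℕ) (Q : Subgroup G) (f : MonoidAlgebra k G) : Prop :=
  av k (pk π (cz Q)) * f = f

theorem card_pk_ne_zero {π : Set ℕ} (hp : p ∈ π) (H : Subgroup G) :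
    (Nat.card (pk π H) : k) ≠ 0 :=
  (card_ne_zero_iff (p := p) _).mpr ((piP_pk π H).not_dvd hp)

theorem av_pk_mem (π : Set ℕ) (H : Subgroup G) : av k (pk π H) ∈ Zc k H :=
  av_mem_Zc (pk_le π H) (le_nz_pk π H)

/-- A subgroup `K` normalized by `R`, with `C_K(R)` a normal `π'`-subgroup of `C(R)`. -/
theorem av_inf_mul {π : Set ℕ} (hp : p ∈ π) {K R : Subgroup G} {g : MonoidAlgebra k G}
    (hK : PiP π K) (hn : cz R ≤ nz K) (hg : PK π R g) :
    av k (K ⊓ cz R) * g = g := by
  have h1 : K ⊓ cz R ≤ pk π (cz R) := by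
    apply le_pk inf_le_right
    · intro x hx
      rw [Subgroup.mem_normalizer_iff]
      intro y
      have h2 := Subgroup.mem_normalizer_iff.mp (hn hx) y
      rw [Subgroup.mem_inf, Subgroup.mem_inf, ← h2]
      constructor
      · rintro ⟨a, b⟩
        exact ⟨a, (cz R).mul_mem ((cz R).mul_mem hx b) ((cz R).inv_mem hx)⟩
      · rintro ⟨a, b⟩
        refine ⟨a, ?_⟩
        have := (cz R).mul_mem ((cz R).mul_mem ((cz R).inv_mem hx) b) hx
        have e : x⁻¹ * (x * y * x⁻¹) * x = y := by group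
        rwa [e] at this
    · exact hK.mono inf_le_left
  have h2 : (Nat.card (K ⊓ cz R : Subgroup G) : k) ≠ 0 :=
    (card_ne_zero_iff (p := p) _).mpr ((hK.mono inf_le_left).not_dvd hp)
  calc av k (K ⊓ cz R) * g = av k (K ⊓ cz R) * (av k (pk π (cz R)) * g) := by rw [hg]
    _ = av k (pk π (cz R)) * g := by rw [← mul_assoc, av_mul_av h1 h2]
    _ = g := hg

/-- Descent of the kernel condition. -/
theorem PK.down {π : Set ℕ} (hp : p ∈ π) {Q R : Subgroup G} {f g : MonoidAlgebra k G}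
    (h : NSub p Q f R g) (hg : PK π R g) : PK π Q f := by
  obtain ⟨hQf, hRg, hQR, hRN, hfR, hfg⟩ := h
  have hnR : R ≤ nz (pk π (cz Q)) :=
    hRN.trans ((normalizer_le_normalizer_centralizer Q).trans (nz_le_nz_pk π (cz Q)))
  rcases hQf.2.mul_eq_or (av_pk_mem π (cz Q)) (av_idem (card_pk_ne_zero hp (cz Q))) with h0 | h1
  · exfalso
    have h2 : br R (av k (pk π (cz Q)) * f) = 0 := by rw [h0, map_zero]
    rw [br_mul hRg.1 (isFx_av hnR) hfR, br_av hRg.1 hnR] at h2
    have h3 : av k (pk π (cz Q) ⊓ cz R) * g = g :=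
      av_inf_mul hp (piP_pk π _) ((cz_anti hQR).trans (le_nz_pk π (cz Q))) hg
    apply hRg.2.ne_zero
    calc g = av k (pk π (cz Q) ⊓ cz R) * g := h3.symm
      _ = av k (pk π (cz Q) ⊓ cz R) * (br R f * g) := by rw [hfg]
      _ = 0 := by rw [← mul_assoc, h2, zero_mul]
  · exact h1

theorem PK.down' {π : Set ℕ} (hp : p ∈ π) {Q R : Subgroup G} {f g : MonoidAlgebra k G}
    (h : PLE p Q f R g) (hg : PK π R g) : PK π Q f := by
  have key : ∀ a b : Subgroup G × MonoidAlgebra k G, Relation.ReflTransGen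
      (fun a b : Subgroup G × MonoidAlgebra k G => NSub p a.1 a.2 b.1 b.2) a b →
      PK π b.1 b.2 → PK π a.1 a.2 := by
    intro a b hab hb
    induction hab with
    | refl => exact hb
    | tail _ h2 ih =>
      rename_i b c _
      have h2' : NSub p b.1 b.2 c.1 c.2 := h2
      exact ih (PK.down hp h2' hb)
  exact key (Q, f) (R, g) h hg

theorem PK.cj {π : Set ℕ} {Q : Subgroup G} {f : MonoidAlgebra k G} (h : PK π Q f) (x : G) :
    PK π (cg Q x) (H26.cj x f) := by
  unfold PK at h ⊢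
  rw [← cg_cz, ← cg_pk, ← cj_av, ← map_mul, h]

theorem PK.of_cj {π : Set ℕ} {Q : Subgroup G} {f : MonoidAlgebra k G} {x : G}
    (h : PK π (cg Q x) (H26.cj x f)) : PK π Q f := by
  have h2 := h.cj x⁻¹
  rw [cg_cg, inv_mul_cancel, cj_inv_cj] at h2
  have e1 : cg Q 1 = Q := by ext x; simp [mem_cg]
  rwa [e1] at h2

/-- `C(Q)` has a normal Hall `π'`-subgroup. -/
def HallP (π : Set ℕ) (Q : Subgroup G) : Prop :=
  ∀ x ∈ cz Q, (∀ q : ℕ, q.Prime → q ∣ orderOf x → q ∉ π) → x ∈ pk π (cz Q)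

/-- Ascent of the kernel condition and of the Hall condition. -/
theorem PK.up {π : Set ℕ} {Q R : Subgroup G} {f g : MonoidAlgebra k G}
    (h : NSub p Q f R g) (hf : PK π Q f) (hH : HallP π Q) : PK π R g ∧ HallP π R := by
  obtain ⟨hQf, hRg, hQR, hRN, hfR, hfg⟩ := h
  have hnR : R ≤ nz (pk π (cz Q)) :=
    hRN.trans ((normalizer_le_normalizer_centralizer Q).trans (nz_le_nz_pk π (cz Q)))
  have hle : pk π (cz Q) ⊓ cz R ≤ pk π (cz R) := by
    apply le_pk inf_le_right
    · intro x hx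
      rw [Subgroup.mem_normalizer_iff]
      intro y
      have h2 := Subgroup.mem_normalizer_iff.mp
        (((cz_anti hQR).trans (le_nz_pk π (cz Q))) hx) y
      rw [Subgroup.mem_inf, Subgroup.mem_inf, ← h2]
      constructor
      · rintro ⟨a, b⟩
        exact ⟨a, (cz R).mul_mem ((cz R).mul_mem hx b) ((cz R).inv_mem hx)⟩
      · rintro ⟨a, b⟩
        refine ⟨a, ?_⟩
        have := (cz R).mul_mem ((cz R).mul_mem ((cz R).inv_mem hx) b) hx
        have e : x⁻¹ * (x * y * x⁻¹) * x = y := by group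
        rwa [e] at this
    · exact (piP_pk π _).mono inf_le_left
  have hge : pk π (cz R) ≤ pk π (cz Q) ⊓ cz R := by
    refine le_inf ?_ (pk_le π _)
    intro x hx
    apply hH x (cz_anti hQR (pk_le π _ hx))
    intro q hq hd
    apply piP_pk π (cz R) q hq
    have h1 : orderOf (⟨x, hx⟩ : pk π (cz R)) = orderOf x := Subgroup.orderOf_mk x hx
    rw [← h1] at hd
    exact hd.trans (orderOf_dvd_natCard _)
  have he := le_antisymm hge hle
  constructor
  · unfold PK
    rw [he]
    have h1 : br R (av k (pk π (cz Q)) * f) = br R f := by rw [hf]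
    rw [br_mul hRg.1 (isFx_av hnR) hfR, br_av hRg.1 hnR] at h1
    calc av k (pk π (cz Q) ⊓ cz R) * g = av k (pk π (cz Q) ⊓ cz R) * (br R f * g) := by rw [hfg]
      _ = g := by rw [← mul_assoc, h1, hfg]
  · intro x hx hxo
    apply hle
    exact ⟨hH x (cz_anti hQR hx) hxo, hx⟩

theorem PK.up' {π : Set ℕ} {Q R : Subgroup G} {f g : MonoidAlgebra k G}
    (h : PLE p Q f R g) (hf : PK π Q f) (hH : HallP π Q) : PK π R g ∧ HallP π R := by
  have key : ∀ a b : Subgroup G × MonoidAlgebra k G, Relation.ReflTransGen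
      (fun a b : Subgroup G × MonoidAlgebra k G => NSub p a.1 a.2 b.1 b.2) a b →
      (PK π a.1 a.2 ∧ HallP π a.1) → (PK π b.1 b.2 ∧ HallP π b.1) := by
    intro a b hab ha
    induction hab with
    | refl => exact ha
    | tail _ h2 ih =>
      rename_i b c _
      have h2' : NSub p b.1 b.2 c.1 c.2 := h2
      exact PK.up h2' ih.1 ih.2
  exact key (Q, f) (R, g) h ⟨hf, hH⟩

variable [IsAlgClosed k]

/-- The kernel condition for a maximal pair implies it for all pairs. -/
theorem PK.all {π : Set ℕ} (hp : p ∈ π) {E e f : MonoidAlgebra k G} {P Q : Subgroup G}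
    (hm : MaxB p E P e) (he : PK π P e) (hf : InB p E Q f) : PK π Q f := by
  obtain ⟨x, hx⟩ := hm.exists_conj hf
  exact (PK.down' hp hx he).of_cj

/-- If it holds for one pair with normal Hall subgroup, it holds for the maximal pairs. -/
theorem PK.max {π : Set ℕ} {E e f : MonoidAlgebra k G} {P Q : Subgroup G}
    (hm : MaxB p E P e) (hf : InB p E Q f) (hpk : PK π Q f) (hH : HallP π Q) : PK π P e := by
  obtain ⟨P', e', hm', hle⟩ := hf.exists_maxB
  have h1 := PK.up' hle hpk hH
  obtain ⟨x, hx⟩ := hm.exists_conj hm'.1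
  have hm'' : MaxB p E (cg P' x) (H26.cj x e') := by
    refine ⟨hm'.1.cj x, ?_⟩
    intro R g hR hRle
    have h2 := hm'.2 (cg R x⁻¹) (H26.cj x⁻¹ g) (hR.cj x⁻¹) (by
      have := hRle.cj x⁻¹
      change PLE p (cg (cg P' x) x⁻¹) (H26.cj x⁻¹ (H26.cj x e')) _ _ at this
      rw [cg_cg, inv_mul_cancel, cj_inv_cj] at this
      have e1 : cg P' 1 = P' := by ext x; simp [mem_cg]
      rwa [e1] at this)
    rw [← h2, cg_cg, mul_inv_cancel]
    ext x; simp [mem_cg]
  have h3 := hm''.2 P e hm.1 hx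
  have h4 : PK π (cg P' x) (H26.cj x e') := h1.1.cj x
  rcases hx.cases_head with ⟨h5, h6⟩ | ⟨R, g, h5, h6, h7⟩
  · rw [← h5, ← h6]; exact h4
  · exfalso
    have := h5.trans_le h7.le
    rw [← h3] at this
    exact lt_irrefl _ this

/-- The kernel condition for a subgroup `H` containing `C(Q)`. -/
theorem PK.lift {π : Set ℕ} (hp : p ∈ π) {Q H : Subgroup G} {e b : MonoidAlgebra k G}
    (hb : IsBlk H b) (hQ : IsPGroup p Q) (hQH : Q ≤ H) (hc : cz Q ≤ H) (he : e ≠ 0)
    (hbe : br Q b * e = e) (hpk : PK π Q e) : av k (pk π H) * b = b := by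
  rcases hb.mul_eq_or (av_pk_mem π H) (av_idem (card_pk_ne_zero hp H)) with h0 | h1
  · exfalso
    have hn : Q ≤ nz (pk π H) := hQH.trans (le_nz_pk π H)
    have h2 : br Q (av k (pk π H) * b) = 0 := by rw [h0, map_zero]
    rw [br_mul hQ (isFx_av hn) (hb.isFx.mono hQH), br_av hQ hn] at h2
    have h3 : av k (pk π H ⊓ cz Q) * e = e :=
      av_inf_mul hp (piP_pk π _) (hc.trans (le_nz_pk π H)) hpk
    apply he
    calc e = av k (pk π H ⊓ cz Q) * e := h3.symm
      _ = av k (pk π H ⊓ cz Q) * (br Q b * e) := by rw [hbe]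
      _ = 0 := by rw [← mul_assoc, h2, zero_mul]
  · exact h1

/-- `O_{π'}(N(D)) = O_{π'}(C(D))` for a `p`-subgroup `D`. -/
theorem pk_nz_eq {π : Set ℕ} (hp : p ∈ π) {D : Subgroup G} (hD : IsPGroup p D) :
    pk π (nz D) = pk π (cz D) := by
  apply le_antisymm
  · apply le_pk
    · -- `O_{π'}(N(D))` centralizes `D`
      intro x hx
      rw [Subgroup.mem_centralizer_iff]
      intro d hd
      have hdisj : Disjoint (pk π (nz D)) D := by
        have hcop : Nat.Coprime (Nat.card (pk π (nz D))) (Nat.card D) := by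
          obtain ⟨n, hn⟩ := (IsPGroup.iff_card.mp hD)
          rw [hn]
          apply Nat.Coprime.pow_right
          exact ((Nat.Prime.coprime_iff_not_dvd Fact.out).mpr ((piP_pk π _).not_dvd hp)).symm
        exact disjoint_iff.mpr (Subgroup.inf_eq_bot_of_coprime hcop)
      have h1 : d * x * d⁻¹ * x⁻¹ ∈ pk π (nz D) := by
        apply Subgroup.mul_mem _ _ (Subgroup.inv_mem _ hx)
        exact (Subgroup.mem_normalizer_iff.mp (le_nz_pk π (nz D) (Subgroup.le_normalizer hd)) x).mp hx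
      have h2 : d * x * d⁻¹ * x⁻¹ ∈ D := by
        have hx' := Subgroup.mem_normalizer_iff.mp (pk_le π _ hx) d⁻¹
        have := D.mul_mem hd (hx'.mp (D.inv_mem hd))
        simpa [mul_assoc] using this
      have h3 := Subgroup.disjoint_def.mp hdisj h1 h2
      rw [mul_inv_eq_one, mul_inv_eq_iff_eq_mul] at h3
      exact h3
    · exact (centralizer_le_normalizer' D).trans (le_nz_pk π _)
    · exact piP_pk π _
  · apply le_pk
    · exact (pk_le π _).trans (centralizer_le_normalizer' D)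
    · exact (normalizer_le_normalizer_centralizer D).trans (nz_le_nz_pk π (cz D))
    · exact piP_pk π _

end Cfsg.Agent.H27
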