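import Cfsg.Agent.H27.IndDict
import Cfsg.Agent.H11.Misc1

set_option autoImplicit false

/-! # `π'`-cores in kernels of blocks: applications -/

universe u

namespace Cfsg.Agent.H27

open Cfsg MonoidAlgebra Cfsg.Agent.H26 Cfsg.Agent.H11 Cfsg.Agent.H3

variable {M : Ideal AlgInt} [hM : M.IsPrime] {G : Type u} [Group G] [Finite G]
  {p : ℕ} [Fact p.Prime] [CharP (KF M) p]

/-- The maximal pairs attached to a Brauer correspondent. -/
theorem exists_maxPair (hMp : IsPModular p M) {B : Set (IrrCharacter G)} {D : Subgroup G}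
    (hBD : IsDefectGroup p M B D) {B₁ : Set (IrrCharacter (nz D))}
    (hB₁ : IsInducedBlock M (nz D) B₁ B)
    (hB₁D : IsDefectGroup p M B₁ (D.subgroupOf (nz D))) :
    ∃ e, IsBlk (cz D) e ∧ EH M (nz D) B₁ * e = e ∧ MaxB p (EG M B) D e := by
  have hdef := (isDefectGroup_iff_EH hB₁.1 Subgroup.le_normalizer).mp hB₁D
  have hDp : IsPGroup p D := hdef.2.1
  have hmem := (isBlk_EH hB₁.1).mem
  have hidem := (isBlk_EH hB₁.1).idem
  have hbr : br D (EH M (nz D) B₁) = EH M (nz D) B₁ :=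
    br_idem_eq hDp Subgroup.le_normalizer le_rfl hmem hidem
  have hfx : IsFx (cz D) (EH M (nz D) B₁) := hmem.2.mono (centralizer_le_normalizer' D)
  obtain ⟨e, he, hbe⟩ := exists_blk_of_ne_zero (br_mem_Zc_centralizer hfx)
    (isFx_br_idem hDp (hmem.2.mono Subgroup.le_normalizer) hidem) hdef.2.2.1
  have hin : InB p (EG M B) D e :=
    inB_of_ind hMp hB₁ hDp Subgroup.le_normalizer (centralizer_le_normalizer' D) he hbe
  rw [hbr] at hbe
  exact ⟨e, he, hbe, hin.maxB_of_isDef ((isDefectGroup_iff_EG hB₁.2.1).mp hBD)⟩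

/-- The kernel condition on the Brauer correspondent, in terms of the pair. -/
theorem ker_iff_PK (hMp : IsPModular p M) {π : Set ℕ} (hp : p ∈ π) {D : Subgroup G}
    (hDp : IsPGroup p D) {B₁ : Set (IrrCharacter (nz D))} (hB₁ : IsPBlock M B₁)
    {e : MonoidAlgebra (KF M) G} (he : IsBlk (cz D) e) (hbe : EH M (nz D) B₁ * e = e) :
    (∀ n : nz D, n ∈ piCore {q | q ∉ π} (nz D) → n ∈ blockKer B₁) ↔ PK π D e := by
  have hmem := (isBlk_EH hB₁).mem
  have hidem := (isBlk_EH hB₁).idem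
  have h0 : (∀ n : nz D, n ∈ piCore {q | q ∉ π} (nz D) → n ∈ blockKer B₁) ↔
      av (KF M) (pk π (nz D)) * EH M (nz D) B₁ = EH M (nz D) B₁ := by
    rw [av_mul_EH_iff hMp (pk_le π _) (le_nz_pk π _) ((piP_pk π _).not_dvd hp) hB₁]
    constructor
    · intro h x hx
      exact h x ((mem_pk x.2).mp hx)
    · intro h x hx
      exact h x ((mem_pk x.2).mpr hx)
  rw [h0]
  constructor
  · intro h
    rw [pk_nz_eq hp hDp] at h
    unfold PK
    calc av (KF M) (pk π (cz D)) * e
        = av (KF M) (pk π (cz D)) * (EH M (nz D) B₁ * e) := by rw [hbe]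
      _ = e := by rw [← mul_assoc, h, hbe]
  · intro h
    apply PK.lift hp (isBlk_EH hB₁) hDp Subgroup.le_normalizer (centralizer_le_normalizer' D)
      he.ne_zero _ h
    rw [br_idem_eq hDp Subgroup.le_normalizer le_rfl hmem hidem, hbe]

end Cfsg.Agent.H27
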