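import Mathlib
import Cfsg.Agent.H26.AugNil

/-!
# Primitive idempotents in finite dimensional algebras; corner units (helper27)
-/

set_option autoImplicit false
set_option linter.unusedSimpArgs false
set_option linter.unusedSectionVars false
set_option linter.unusedVariables false

namespace Cfsg.Agent.H27.Star

section Abs

variable {k : Type*} [Field k] {A : Type*} [Ring A] [Algebra k A]

/-- `x` is a unit of the corner ring of `e`. -/
def CU (e x : A) : Prop :=
  e * x = x ∧ x * e = x ∧ ∃ y, e * y = y ∧ y * e = y ∧ x * y = e ∧ y * x = e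

/-- local corner: every element is nilpotent or a unit -/
def LocE (e : A) : Prop :=
  e * e = e ∧ e ≠ 0 ∧ ∀ a, e * a = a → a * e = a → IsNilpotent a ∨ CU e a

theorem cu_self {e : A} (he : e * e = e) : CU e e := ⟨he, he, e, he, he, he, he⟩

theorem exists_cu {e : A} (he : LocE e) {ι : Type*} (s : Finset ι) (a : ι → A)
    (h1 : ∀ i ∈ s, e * a i = a i) (h2 : ∀ i ∈ s, a i * e = a i) {c : A} (hc : CU e c)
    (hs : ∑ i ∈ s, a i = c) : ∃ i ∈ s, CU e (a i) := by
  classical
  obtain ⟨hee, hne, hloc⟩ := he
  induction s using Finset.induction_on generalizing c with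
  | empty =>
    exfalso
    obtain ⟨-, -, y, -, -, h5, -⟩ := hc
    rw [Finset.sum_empty] at hs
    rw [← hs, zero_mul] at h5
    exact hne h5.symm
  | insert i s hi ih =>
    obtain ⟨c1, c2, c', c3, c4, c5, c6⟩ := hc
    rw [Finset.sum_insert hi] at hs
    have hi1 := h1 i (Finset.mem_insert_self i s)
    have hi2 := h2 i (Finset.mem_insert_self i s)
    have hr1 : e * ∑ j ∈ s, a j = ∑ j ∈ s, a j := by
      rw [Finset.mul_sum]
      exact Finset.sum_congr rfl fun j hj => h1 j (Finset.mem_insert_of_mem hj)
    have hr2 : (∑ j ∈ s, a j) * e = ∑ j ∈ s, a j := by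
      rw [Finset.sum_mul]
      exact Finset.sum_congr rfl fun j hj => h2 j (Finset.mem_insert_of_mem hj)
    rcases hloc (c' * a i) (by rw [← mul_assoc, c3]) (by rw [mul_assoc, hi2]) with hn | hu
    · -- nilpotent
      set n := c' * a i with hn'
      have hn1 : e * n = n := by rw [hn', ← mul_assoc, c3]
      have hn2 : n * e = n := by rw [hn', mul_assoc, hi2]
      obtain ⟨N, hN⟩ := hn
      set g : A := ∑ j ∈ Finset.range N, n ^ j with hg
      have hg1 : (1 - n) * g = 1 := by
        have h := mul_neg_geom_sum n N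
        rw [hg, h, hN, sub_zero]
      have hg2 : g * (1 - n) = 1 := by
        have h := geom_sum_mul_neg n N
        rw [hg, h, hN, sub_zero]
      have hcomm : Commute e g := by
        apply Commute.sum_right
        intro j _
        apply Commute.pow_right
        show e * n = n * e
        rw [hn1, hn2]
      have hv : c' * ∑ j ∈ s, a j = e - n := by
        have h : ∑ j ∈ s, a j = c - a i := by rw [← hs]; abel
        rw [h, mul_sub, c6]
      have hen : e - n = (1 - n) * e := by rw [sub_mul, one_mul, hn2]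
      have hen' : e - n = e * (1 - n) := by rw [mul_sub, mul_one, hn1]
      have hw1 : (e - n) * (e * g) = e := by
        rw [hen, mul_assoc, ← mul_assoc e e g, hee, hcomm.eq, ← mul_assoc, hg1, one_mul]
      have hw2 : (e * g) * (e - n) = e := by
        rw [hen', hcomm.eq, mul_assoc, ← mul_assoc e e, hee, ← mul_assoc, ← hcomm.eq, mul_assoc,
          hg2, mul_one]
      have hrest : CU e (∑ j ∈ s, a j) := by
        refine ⟨hr1, hr2, e * g * c', ?_, ?_, ?_, ?_⟩
        · rw [← mul_assoc, ← mul_assoc, hee]
        · rw [mul_assoc, c4]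
        · have h : ∑ j ∈ s, a j = c * (e - n) := by
            rw [← hv, ← mul_assoc, c5, hr1]
          rw [h, mul_assoc, ← mul_assoc (e - n), hw1, c3, c5]
        · rw [mul_assoc, hv, hw2]
      obtain ⟨j, hj, hj'⟩ := ih (fun j hj => h1 j (Finset.mem_insert_of_mem hj))
        (fun j hj => h2 j (Finset.mem_insert_of_mem hj)) hrest rfl
      exact ⟨j, Finset.mem_insert_of_mem hj, hj'⟩
    · refine ⟨i, Finset.mem_insert_self i s, hi1, hi2, ?_⟩
      obtain ⟨-, -, d, d1, d2, d3, d4⟩ := hu
      refine ⟨d * c', by rw [← mul_assoc, d1], by rw [mul_assoc, c4], ?_, by rw [mul_assoc, d4]⟩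
      have h : a i * d = c := by
        have h5 : c * (c' * a i * d) = c * e := by rw [d3]
        rw [c2, ← mul_assoc, ← mul_assoc, c5, hi1] at h5
        exact h5
      rw [← mul_assoc, h, c5]

variable (k) in
/-- dimension of the right ideal generated by `e` -/
noncomputable def dm (e : A) : ℕ := Module.finrank k (LinearMap.range (LinearMap.mulLeft k e))

theorem dm_lt [FiniteDimensional k A] {e f : A} (he : e * e = e) (hef : e * f = f)
    (hfe : f * e = f) (hff : f * f = f) (hne : f ≠ e) : dm k f < dm k e := by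
  unfold dm
  apply Submodule.finrank_lt_finrank_of_lt
  rw [lt_iff_le_and_ne]
  constructor
  · rintro x ⟨y, rfl⟩
    refine ⟨f * y, ?_⟩
    simp only [LinearMap.mulLeft_apply]
    rw [← mul_assoc, hef]
  · intro h
    have h1 : e ∈ LinearMap.range (LinearMap.mulLeft k e) := ⟨e, by simp [he]⟩
    rw [← h] at h1
    obtain ⟨y, hy⟩ := h1
    simp only [LinearMap.mulLeft_apply] at hy
    apply hne
    rw [← hfe, ← hy, ← mul_assoc, hff]

theorem exists_locE [FiniteDimensional k A] {e : A} (he : e * e = e) (h0 : e ≠ 0) :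
    ∃ f : A, LocE f ∧ e * f = f ∧ f * e = f := by
  classical
  let S : Set A := {f | f * f = f ∧ f ≠ 0 ∧ e * f = f ∧ f * e = f}
  have hS : S.Nonempty := ⟨e, he, h0, he, he⟩
  obtain ⟨f, hfS, hmin⟩ := (measure (dm k (A := A))).wf.has_min S hS
  obtain ⟨hff, hf0, hef, hfe⟩ := hfS
  have hprim : ∀ g, g * g = g → f * g = g → g * f = g → g = 0 ∨ g = f := by
    intro g hgg hfg hgf
    by_contra hcon
    push Not at hcon
    apply hmin g ⟨hgg, hcon.1, by rw [← hfg, ← mul_assoc, hef], by rw [← hgf, mul_assoc, hfe]⟩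
    exact dm_lt hff hfg hgf hgg hcon.2
  refine ⟨f, ⟨hff, hf0, ?_⟩, hef, hfe⟩
  intro a hfa haf
  -- annihilating polynomial
  obtain ⟨P, hP0, hPa⟩ : ∃ P : Polynomial k, P ≠ 0 ∧ Polynomial.aeval a P = 0 := by
    have hint : IsIntegral k a := Algebra.IsIntegral.isIntegral a
    exact ⟨minpoly k a, minpoly.ne_zero hint, minpoly.aeval k a⟩
  set F : Polynomial k := Polynomial.X * P with hF
  have hF0 : F ≠ 0 := mul_ne_zero Polynomial.X_ne_zero hP0
  have hFa : Polynomial.aeval a F = 0 := by rw [hF, map_mul, hPa, mul_zero]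
  obtain ⟨g, hg1, hg2⟩ := Polynomial.exists_eq_pow_rootMultiplicity_mul_and_not_dvd F hF0 0
  rw [map_zero, sub_zero] at hg1 hg2
  have hm1 : 1 ≤ Polynomial.rootMultiplicity 0 F := by
    rw [Nat.one_le_iff_ne_zero, ← Nat.pos_iff_ne_zero, Polynomial.rootMultiplicity_pos hF0]
    simp [hF]
  generalize Polynomial.rootMultiplicity 0 F = m at hg1 hm1
  have hcop : IsCoprime (Polynomial.X ^ m) g :=
    IsCoprime.pow_left ((Polynomial.irreducible_X.coprime_iff_not_dvd).mpr hg2)
  obtain ⟨u, v, huv⟩ := hcop
  obtain ⟨m', rfl⟩ : ∃ m', m = m' + 1 := ⟨m - 1, by omega⟩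
  set U := Polynomial.aeval a u with hU
  set V := Polynomial.aeval a v with hV
  set Gg := Polynomial.aeval a g with hGg
  have e1 : U * a ^ (m' + 1) + V * Gg = 1 := by
    have := congrArg (Polynomial.aeval a) huv
    simpa [hU, hV, hGg] using this
  have e2 : a ^ (m' + 1) * Gg = 0 := by
    have := congrArg (Polynomial.aeval a) hg1
    rw [hFa] at this
    simpa [hGg] using this.symm
  have cUa : Commute U a := by
    rw [hU]
    have : Polynomial.aeval a u * Polynomial.aeval a (Polynomial.X : Polynomial k) =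
        Polynomial.aeval a (Polynomial.X : Polynomial k) * Polynomial.aeval a u := by
      rw [← map_mul, ← map_mul, mul_comm]
    rw [Polynomial.aeval_X] at this
    exact this
  have cVa : Commute V a := by
    have : Polynomial.aeval a v * Polynomial.aeval a (Polynomial.X : Polynomial k) =
        Polynomial.aeval a (Polynomial.X : Polynomial k) * Polynomial.aeval a v := by
      rw [← map_mul, ← map_mul, mul_comm]
    rw [Polynomial.aeval_X] at this
    exact this
  have cGa : Commute Gg a := by
    have : Polynomial.aeval a g * Polynomial.aeval a (Polynomial.X : Polynomial k) =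
        Polynomial.aeval a (Polynomial.X : Polynomial k) * Polynomial.aeval a g := by
      rw [← map_mul, ← map_mul, mul_comm]
    rw [Polynomial.aeval_X] at this
    exact this
  have cGU : Commute Gg U := by
    have : Polynomial.aeval a g * Polynomial.aeval a u =
        Polynomial.aeval a u * Polynomial.aeval a g := by
      rw [← map_mul, ← map_mul, mul_comm]
    exact this
  set w := U * a ^ (m' + 1) with hw
  have hwG : w * (V * Gg) = 0 := by
    rw [hw]
    calc U * a ^ (m' + 1) * (V * Gg) = U * (a ^ (m' + 1) * V) * Gg := by noncomm_ring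
      _ = U * (V * a ^ (m' + 1)) * Gg := by rw [(cVa.symm.pow_left (m' + 1)).eq]
      _ = U * V * (a ^ (m' + 1) * Gg) := by noncomm_ring
      _ = 0 := by rw [e2, mul_zero]
  have hww : w * w = w := by
    have h : w * 1 = w * (w + V * Gg) := by rw [e1]
    rw [mul_one, mul_add, hwG, add_zero] at h
    exact h.symm
  have hfw : f * w = w := by
    rw [hw, (cUa.pow_right (m' + 1)).eq, pow_succ', mul_assoc a, ← mul_assoc f, hfa]
  have hwf : w * f = w := by
    rw [hw, pow_succ, mul_assoc, mul_assoc, haf]
  rcases hprim w hww hfw hwf with h | h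
  · left
    refine ⟨m' + 1, ?_⟩
    have h1 : a ^ (m' + 1) * (w + V * Gg) = 0 := by
      rw [h, zero_add, ← mul_assoc, (cVa.symm.pow_left (m' + 1)).eq, mul_assoc, e2, mul_zero]
    rwa [e1, mul_one] at h1
  · right
    refine ⟨hfa, haf, f * (U * a ^ m') * f, ?_, ?_, ?_, ?_⟩
    · rw [← mul_assoc, ← mul_assoc, hff]
    · rw [mul_assoc, hff]
    · have h1 : a * (f * (U * a ^ m') * f) = a * U * a ^ m' * f := by
        rw [← mul_assoc, ← mul_assoc, haf]; noncomm_ring
      rw [h1, cUa.symm.eq, mul_assoc U, ← pow_succ', ← hw, hwf, h]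
    · have h1 : f * (U * a ^ m') * f * a = f * (U * (a ^ m' * a)) := by
        rw [mul_assoc _ f a, hfa]; noncomm_ring
      rw [h1, ← pow_succ, ← hw, hfw, h]

end Abs

end Cfsg.Agent.H27.Star
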