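import Cfsg.Agent.H27.StarA
import Cfsg.Agent.H26.ModSum

/-!
# Invariant idempotent matrices over a field of characteristic `p` are permutation modules (helper27)
-/

set_option autoImplicit false
set_option linter.unusedSimpArgs false
set_option linter.unusedSectionVars false
set_option linter.unusedVariables false

open MulAction

namespace Cfsg.Agent.H27.Star

universe u v w

section Inv

variable (T : Type*) [Group T]

/-- invariance of a matrix -/
def MInv {R X Y : Type*} [MulAction T X] [MulAction T Y] (A : Matrix X Y R) : Prop :=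
  ∀ (t : T) (x : X) (y : Y), A (t • x) (t • y) = A x y

variable {T} {R X Y Z : Type*} [MulAction T X] [MulAction T Y] [MulAction T Z]

theorem MInv.mul [NonUnitalNonAssocSemiring R] [Fintype Y] {A : Matrix X Y R} {B : Matrix Y Z R}
    (hA : MInv T A) (hB : MInv T B) : MInv T (A * B) := by
  intro t x z
  rw [Matrix.mul_apply, Matrix.mul_apply]
  rw [← Equiv.sum_comp (MulAction.toPerm t)]
  apply Finset.sum_congr rfl
  intro y _
  rw [MulAction.toPerm_apply, hA t x y, hB t y z]

theorem MInv.add [Add R] {A B : Matrix X Y R} (hA : MInv T A) (hB : MInv T B) :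
    MInv T (A + B) := fun t x y => by rw [Matrix.add_apply, Matrix.add_apply, hA, hB]

theorem MInv.sub [Sub R] {A B : Matrix X Y R} (hA : MInv T A) (hB : MInv T B) :
    MInv T (A - B) := fun t x y => by rw [Matrix.sub_apply, Matrix.sub_apply, hA, hB]

theorem MInv.smul [Mul R] {A : Matrix X Y R} (c : R) (hA : MInv T A) : MInv T (c • A) :=
  fun t x y => by rw [Matrix.smul_apply, Matrix.smul_apply, hA]

theorem MInv.zero [Zero R] : MInv T (0 : Matrix X Y R) := fun _ _ _ => rfl

theorem MInv.one [Zero R] [One R] [DecidableEq X] : MInv T (1 : Matrix X X R) := by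
  intro t x y
  rw [Matrix.one_apply, Matrix.one_apply]
  simp [smul_left_cancel_iff]

theorem MInv.sum [AddCommMonoid R] {ι : Type*} (s : Finset ι) {A : ι → Matrix X Y R}
    (hA : ∀ i ∈ s, MInv T (A i)) : MInv T (∑ i ∈ s, A i) := by
  intro t x y
  rw [Matrix.sum_apply, Matrix.sum_apply]
  exact Finset.sum_congr rfl fun i hi => hA i hi t x y

theorem MInv.map {S : Type*} {A : Matrix X Y R} (hA : MInv T A) (f : R → S) :
    MInv T (A.map f) := fun t x y => by rw [Matrix.map_apply, Matrix.map_apply, hA]

theorem MInv.submatrix_smul {A : Matrix X Y R} (hA : MInv T A) (t : T) :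
    A.submatrix (t • ·) (t • ·) = A := by
  ext x y
  exact hA t x y

theorem MInv.of_inverse [CommRing R] [Fintype X] [DecidableEq X] {A B : Matrix X X R}
    (hA : MInv T A) (h : A * B = 1) (h' : B * A = 1) : MInv T B := by
  intro t x y
  have h1 : A * B.submatrix (MulAction.toPerm t : X → X) (MulAction.toPerm t : X → X) = 1 := by
    have h2 : A = A.submatrix (MulAction.toPerm t : X → X) (MulAction.toPerm t : X → X) :=
      (hA.submatrix_smul t).symm
    rw [h2, Matrix.submatrix_mul_equiv, h, Matrix.submatrix_one_equiv]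
  have h3 : B.submatrix (MulAction.toPerm t : X → X) (MulAction.toPerm t : X → X) = B := by
    calc _ = (B * A) * B.submatrix (MulAction.toPerm t : X → X) (MulAction.toPerm t : X → X) := by
          rw [h', one_mul]
      _ = B := by rw [mul_assoc, h1, mul_one]
  exact congrFun (congrFun h3 x) y

variable (T R X) in
/-- the algebra of invariant matrices -/
def invAlg [CommRing R] [Fintype X] [DecidableEq X] : Subalgebra R (Matrix X X R) where
  carrier := {A | MInv T A}
  mul_mem' := fun ha hb => MInv.mul ha hb
  one_mem' := MInv.one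
  add_mem' := fun ha hb => MInv.add ha hb
  zero_mem' := MInv.zero
  algebraMap_mem' := fun r => by
    rw [Algebra.algebraMap_eq_smul_one]
    exact MInv.smul r MInv.one

/-- indicator of an orbit -/
theorem minv_diag [Semiring R] [DecidableEq X] {f : X → R} (hf : ∀ (t : T) x, f (t • x) = f x) :
    MInv T (Matrix.diagonal f) := by
  intro t x y
  rw [Matrix.diagonal_apply, Matrix.diagonal_apply]
  simp [smul_left_cancel_iff, hf]

end Inv

section Trans

variable {p : ℕ} [hp : Fact p.Prime] {T : Type v} [Group T] [Finite T] {k : Type w} [Field k]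
  [CharP k p] {X : Type u} [Fintype X] [DecidableEq X] [MulAction T X]

/-- a nonzero invariant idempotent on a transitive set fixes the all one vector -/
theorem fix_one_of_ne_zero (hT : IsPGroup p T) [IsPretransitive T X] {F : Matrix X X k}
    (hF : F * F = F) (hI : MInv T F) (h0 : F ≠ 0) : F.mulVec (fun _ => 1) = fun _ => 1 := by
  classical
  let V : AddSubgroup (X → k) :=
    { carrier := {v | F.mulVec v = v}
      add_mem' := by
        intro a b ha hb
        change F.mulVec (a + b) = a + b
        rw [Matrix.mulVec_add, ha, hb]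
      zero_mem' := by
        change F.mulVec 0 = 0
        rw [Matrix.mulVec_zero]
      neg_mem' := by
        intro a ha
        change F.mulVec (-a) = -a
        rw [Matrix.mulVec_neg, ha] }
  have hstab : ∀ (t : T) (v : X → k), v ∈ V → (fun x => v (t⁻¹ • x)) ∈ V := by
    intro t v hv
    change F.mulVec _ = _
    funext x
    have h1 : (F.mulVec v) (t⁻¹ • x) = v (t⁻¹ • x) := congrFun hv _
    rw [← h1]
    simp only [Matrix.mulVec, dotProduct]
    rw [← Equiv.sum_comp (MulAction.toPerm t)]
    apply Finset.sum_congr rfl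
    intro y _
    rw [MulAction.toPerm_apply, inv_smul_smul]
    congr 1
    have h2 := hI t (t⁻¹ • x) y
    rw [smul_inv_smul] at h2
    exact h2
  let act : DistribMulAction T V :=
    { smul := fun t v => ⟨fun x => v.1 (t⁻¹ • x), hstab t v.1 v.2⟩
      one_smul := by
        intro v
        apply Subtype.ext
        funext x
        change v.1 ((1 : T)⁻¹ • x) = v.1 x
        rw [inv_one, one_smul]
      mul_smul := by
        intro s t v
        apply Subtype.ext
        funext x
        change v.1 ((s * t)⁻¹ • x) = v.1 (t⁻¹ • s⁻¹ • x)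
        rw [mul_inv_rev, mul_smul]
      smul_zero := by
        intro t
        apply Subtype.ext
        funext x
        rfl
      smul_add := by
        intro t v w
        apply Subtype.ext
        funext x
        rfl }
  obtain ⟨x0, y0, hxy⟩ : ∃ x y, F x y ≠ 0 := by
    by_contra hcon
    push Not at hcon
    exact h0 (by ext x y; exact hcon x y)
  have hcol : (fun x => F x y0) ∈ V := by
    change F.mulVec _ = _
    funext x
    have h := congrFun (congrFun hF x) y0
    rw [Matrix.mul_apply] at h
    exact h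
  obtain ⟨w, hw0, hwfix⟩ := H26.exists_fixed_ne_zero (p := p) hT (V := V)
    (fun v => by
      apply Subtype.ext
      change p • v.1 = 0
      funext x
      change p • (v.1 x) = 0
      rw [nsmul_eq_mul, CharP.cast_eq_zero, zero_mul]) ⟨_, hcol⟩ (by
      intro h
      apply hxy
      exact congrFun (congrArg Subtype.val h) x0)
  have hconst : ∀ x y : X, w.1 x = w.1 y := by
    intro x y
    obtain ⟨t, rfl⟩ := MulAction.exists_smul_eq T x y
    have h := congrFun (congrArg Subtype.val (hwfix t)) (t • x)
    change w.1 (t⁻¹ • t • x) = w.1 (t • x) at h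
    rwa [inv_smul_smul] at h
  have hx0 : w.1 x0 ≠ 0 := by
    intro h
    apply hw0
    apply Subtype.ext
    funext x
    rw [hconst x x0, h]; rfl
  have hw : w.1 = w.1 x0 • (fun _ => (1 : k)) := by
    funext x
    rw [hconst x x0]
    simp
  have h1 : F.mulVec w.1 = w.1 := w.2
  rw [hw, Matrix.mulVec_smul] at h1
  have h2 := congrArg ((w.1 x0)⁻¹ • ·) h1
  simp only [smul_smul] at h2
  rw [inv_mul_cancel₀ hx0, one_smul, one_smul] at h2
  exact h2

theorem eq_one_of_ne_zero (hT : IsPGroup p T) [IsPretransitive T X] {F : Matrix X X k}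
    (hF : F * F = F) (hI : MInv T F) (h0 : F ≠ 0) : F = 1 := by
  by_contra hne
  have h1 := fix_one_of_ne_zero hT hF hI h0
  have h2 := fix_one_of_ne_zero hT (F := 1 - F) (by
    rw [sub_mul, one_mul, mul_sub, mul_one, hF, sub_self, sub_zero]) (MInv.one.sub hI)
    (sub_ne_zero.mpr (Ne.symm hne))
  rw [Matrix.sub_mulVec, Matrix.one_mulVec, h1, sub_self] at h2
  obtain ⟨x0, y0, hxy⟩ : ∃ x y, F x y ≠ 0 := by
    by_contra hcon
    push Not at hcon
    exact h0 (by ext x y; exact hcon x y)
  exact zero_ne_one (congrFun h2 x0)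

end Trans

section Main

variable {p : ℕ} [hp : Fact p.Prime] {T : Type v} [Group T] [Finite T] {k : Type w} [Field k]
  [CharP k p] {X : Type u} [Fintype X] [DecidableEq X] [MulAction T X]

/-- splitting off a transitive permutation module -/
theorem exists_split (hT : IsPGroup p T) {E : Matrix X X k} (hE : E * E = E) (hI : MInv T E)
    (h0 : E ≠ 0) : ∃ (x0 : X) (P : Matrix (orbit T x0) X k) (Q : Matrix X (orbit T x0) k),
      MInv T P ∧ MInv T Q ∧ P * Q = 1 ∧ P * E = P ∧ E * Q = Q := by
  classical
  let E' : invAlg T k X := ⟨E, hI⟩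
  have hE' : E' * E' = E' := Subtype.ext hE
  have hE0 : E' ≠ 0 := fun h => h0 (congrArg Subtype.val h)
  obtain ⟨f, hf, h1, h2⟩ := exists_locE (k := k) hE' hE0
  let _ : Fintype (Quotient (orbitRel T X)) := Fintype.ofFinite _
  let D : Quotient (orbitRel T X) → invAlg T k X := fun o =>
    ⟨Matrix.diagonal (fun x => if (Quotient.mk (orbitRel T X) x) = o then (1 : k) else 0),
      minv_diag (fun t x => by
        have : (Quotient.mk (orbitRel T X) (t • x)) = Quotient.mk (orbitRel T X) x :=
          Quotient.sound (by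
            change t • x ∈ orbit T x
            exact mem_orbit x t)
        rw [this])⟩
  have hDsum : ∑ o, D o = 1 := by
    apply Subtype.ext
    rw [AddSubmonoidClass.coe_finsetSum]
    change ∑ o, Matrix.diagonal _ = (1 : Matrix X X k)
    ext x y
    rw [Matrix.sum_apply]
    by_cases hxy : x = y
    · subst hxy
      simp
    · rw [Matrix.one_apply_ne hxy]
      apply Finset.sum_eq_zero
      intro o _
      rw [Matrix.diagonal_apply_ne _ hxy]
  obtain ⟨hff, hf0, -⟩ := id hf
  obtain ⟨o, -, ho⟩ := exists_cu hf Finset.univ (fun o => f * D o * f)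
    (fun o _ => by rw [← mul_assoc, ← mul_assoc, hff])
    (fun o _ => by rw [mul_assoc, hff]) (cu_self hff)
    (by rw [← Finset.sum_mul, ← Finset.mul_sum, hDsum, mul_one, hff])
  obtain ⟨x0, rfl⟩ := Quotient.exists_rep o
  obtain ⟨-, -, b, hb1, hb2, hb3, hb4⟩ := ho
  -- matrices
  let Fm : Matrix X X k := f.1
  let Bm : Matrix X X k := b.1
  have hFinv : MInv T Fm := f.2
  have hBinv : MInv T Bm := b.2
  have hFF : Fm * Fm = Fm := congrArg Subtype.val hff
  have hFB : Fm * Bm = Bm := congrArg Subtype.val hb1
  have hBF : Bm * Fm = Bm := congrArg Subtype.val hb2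
  have hEF : E * Fm = Fm := congrArg Subtype.val h1
  have hFE : Fm * E = Fm := congrArg Subtype.val h2
  have hkey : Fm * (D ⟦x0⟧).1 * Bm = Fm := by
    have h3 := congrArg Subtype.val hb3
    change Fm * (D ⟦x0⟧).1 * Fm * Bm = Fm at h3
    rwa [Matrix.mul_assoc _ Fm Bm, hFB] at h3
  have hmem : ∀ x : X, (Quotient.mk (orbitRel T X) x) = ⟦x0⟧ ↔ x ∈ orbit T x0 := by
    intro x
    constructor
    · intro h; exact Quotient.exact h
    · intro h; exact Quotient.sound h
  let P : Matrix (orbit T x0) X k := fun y x => Bm y x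
  let Q : Matrix X (orbit T x0) k := fun x y => Fm x y
  have hP : MInv T P := fun t y x => hBinv t y x
  have hQ : MInv T Q := fun t x y => hFinv t x y
  have hQP : Q * P = Fm := by
    rw [← hkey]
    ext x y
    rw [Matrix.mul_apply, Matrix.mul_apply]
    have h4 : ∀ z, (Fm * (D ⟦x0⟧).1) x z = if z ∈ orbit T x0 then Fm x z else 0 := by
      intro z
      change (Fm * (Matrix.diagonal (fun x => if (Quotient.mk (orbitRel T X) x) = ⟦x0⟧
        then (1 : k) else 0) : Matrix X X k)) x z = _
      rw [Matrix.mul_diagonal]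
      simp only [hmem z]
      split_ifs <;> simp
    simp only [h4]
    rw [← Finset.sum_subtype (Finset.univ.filter (· ∈ orbit T x0)) (by simp)
      (f := fun z => Fm x z * Bm z y), Finset.sum_filter]
    apply Finset.sum_congr rfl
    intro z _
    split_ifs <;> simp
  have hPF : P * Fm = P := by
    ext y x
    have := congrFun (congrFun hBF y) x
    exact this
  have hFQ : Fm * Q = Q := by
    ext x y
    have := congrFun (congrFun hFF x) y
    exact this
  have hidem : (P * Q) * (P * Q) = P * Q := by
    rw [Matrix.mul_assoc, ← Matrix.mul_assoc Q, hQP, ← Matrix.mul_assoc, hPF]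
  have hne : P * Q ≠ 0 := by
    intro h
    apply hf0
    apply Subtype.ext
    change Fm = 0
    rw [← hFF, ← hQP, Matrix.mul_assoc, ← Matrix.mul_assoc P, h, Matrix.zero_mul, Matrix.mul_zero]
  refine ⟨x0, P, Q, hP, hQ, eq_one_of_ne_zero hT hidem (hP.mul hQ) hne, ?_, ?_⟩
  · rw [← hPF, Matrix.mul_assoc, hFE]
  · rw [← hFQ, ← Matrix.mul_assoc, hEF]

/-- **Invariant idempotents over a field of characteristic `p` come from permutation modules.** -/
theorem exists_perm (hT : IsPGroup p T) {E : Matrix X X k} (hE : E * E = E) (hI : MInv T E) :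
    ∃ (Ω : Type u) (_ : Fintype Ω) (_ : DecidableEq Ω) (_ : MulAction T Ω) (P : Matrix Ω X k)
      (Q : Matrix X Ω k), MInv T P ∧ MInv T Q ∧ P * Q = 1 ∧ Q * P = E := by
  classical
  induction hn : dm k (⟨E, hI⟩ : invAlg T k X) using Nat.strong_induction_on generalizing E with
  | _ n ih =>
  by_cases h0 : E = 0
  · refine ⟨PEmpty, inferInstance, inferInstance,
      { smul := fun _ x => x, one_smul := fun x => x.elim, mul_smul := fun _ _ x => x.elim },
      0, 0, fun t x => x.elim, fun t _ x => x.elim, ?_, ?_⟩
    · ext x; exact x.elim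
    · rw [h0, Matrix.zero_mul]
  obtain ⟨x0, P, Q, hP, hQ, hPQ, hPE, hEQ⟩ := exists_split hT hE hI h0
  set F : Matrix X X k := Q * P with hF
  have hFF : F * F = F := by
    rw [hF, Matrix.mul_assoc, ← Matrix.mul_assoc P, hPQ, Matrix.one_mul]
  have hEF : E * F = F := by rw [hF, ← Matrix.mul_assoc, hEQ]
  have hFE : F * E = F := by rw [hF, Matrix.mul_assoc, hPE]
  have hFI : MInv T F := hQ.mul hP
  have hF0 : F ≠ 0 := by
    intro h
    have h1 : (1 : Matrix (orbit T x0) (orbit T x0) k) = 0 := by
      calc (1 : Matrix (orbit T x0) (orbit T x0) k) = P * Q * (P * Q) := by rw [hPQ, Matrix.one_mul]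
        _ = P * F * Q := by rw [hF]; simp only [Matrix.mul_assoc]
        _ = 0 := by rw [h, Matrix.mul_zero, Matrix.zero_mul]
    have h2 := congrFun (congrFun h1 ⟨x0, mem_orbit_self x0⟩) ⟨x0, mem_orbit_self x0⟩
    rw [Matrix.one_apply_eq] at h2
    exact one_ne_zero h2
  have hE'2 : (E - F) * (E - F) = E - F := by
    rw [sub_mul, mul_sub, mul_sub, hE, hEF, hFE, hFF]; abel
  have hE'I : MInv T (E - F) := hI.sub hFI
  have hlt : dm k (⟨E - F, hE'I⟩ : invAlg T k X) < n := by
    rw [← hn]
    apply dm_lt (k := k) (e := (⟨E, hI⟩ : invAlg T k X)) (f := ⟨E - F, hE'I⟩)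
    · exact Subtype.ext hE
    · apply Subtype.ext
      change E * (E - F) = E - F
      rw [mul_sub, hE, hEF]
    · apply Subtype.ext
      change (E - F) * E = E - F
      rw [sub_mul, hE, hFE]
    · exact Subtype.ext hE'2
    · intro h
      have h1 : E - F = E := congrArg Subtype.val h
      exact hF0 (by rw [sub_eq_self] at h1; exact h1)
  obtain ⟨Ω, _, _, _, P', Q', hP', hQ', hPQ', hQP'⟩ := ih _ hlt hE'2 hE'I rfl
  have hP'E : P' * (E - F) = P' := by rw [← hQP', ← Matrix.mul_assoc, hPQ', Matrix.one_mul]
  have hEQ' : (E - F) * Q' = Q' := by rw [← hQP', Matrix.mul_assoc, hPQ', Matrix.mul_one]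
  have hc1 : P * Q' = 0 := by
    have hPF : P * F = P := by rw [hF, ← Matrix.mul_assoc, hPQ, Matrix.one_mul]
    rw [← hEQ', ← Matrix.mul_assoc, Matrix.mul_sub, hPE, hPF, sub_self, Matrix.zero_mul]
  have hc2 : P' * Q = 0 := by
    have hFQ : F * Q = Q := by rw [hF, Matrix.mul_assoc, hPQ, Matrix.mul_one]
    rw [← hP'E, Matrix.mul_assoc, Matrix.sub_mul, hEQ, hFQ, sub_self, Matrix.mul_zero]
  refine ⟨(orbit T x0) ⊕ Ω, inferInstance, inferInstance,
    { smul := fun t => Sum.map (t • ·) (t • ·)
      one_smul := by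
        rintro (x | x)
        · change Sum.inl ((1 : T) • x) = Sum.inl x; rw [one_smul]
        · change Sum.inr ((1 : T) • x) = Sum.inr x; rw [one_smul]
      mul_smul := by
        rintro s t (x | x)
        · change Sum.inl ((s * t) • x) = Sum.inl (s • t • x); rw [mul_smul]
        · change Sum.inr ((s * t) • x) = Sum.inr (s • t • x); rw [mul_smul] },
    Matrix.fromRows P P', Matrix.fromCols Q Q', ?_, ?_, ?_, ?_⟩
  · rintro t (y | y) x
    · exact hP t y x
    · exact hP' t y x
  · rintro t x (y | y)
    · exact hQ t x y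
    · exact hQ' t x y
  · rw [Matrix.fromRows_mul_fromCols, hPQ, hPQ', hc1, hc2, Matrix.fromBlocks_one]
  · rw [Matrix.fromCols_mul_fromRows, hQP', ← hF]
    abel

end Main

end Cfsg.Agent.H27.Star
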