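import Cfsg.Agent.H27.StarB

/-!
# Permutation lattices over local rings; traces and Brauer quotients (helper27)
-/

set_option autoImplicit false
set_option linter.unusedSimpArgs false
set_option linter.unusedSectionVars false
set_option linter.unusedVariables false

open MulAction

namespace Cfsg.Agent.H27.Star

universe u v w

section Lift

variable {p : ℕ} [hp : Fact p.Prime] {T : Type v} [Group T] [Finite T] {R : Type w} [CommRing R]
  [IsLocalRing R] [CharP (IsLocalRing.ResidueField R) p] {X : Type u} [Fintype X] [DecidableEq X]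
  [MulAction T X]

theorem isUnit_det_of_map_eq_one {n : Type*} [Fintype n] [DecidableEq n] {D : Matrix n n R}
    (h : D.map (IsLocalRing.residue R) = 1) : IsUnit D.det := by
  have h1 : IsLocalRing.residue R D.det = 1 := by
    rw [RingHom.map_det]
    change (D.map (IsLocalRing.residue R)).det = 1
    rw [h, Matrix.det_one]
  rw [← IsLocalRing.residue_ne_zero_iff_isUnit, h1]
  exact one_ne_zero

/-- **Invariant idempotents over a local ring with residue characteristic `p` come from
permutation lattices.** -/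
theorem exists_perm_local (hT : IsPGroup p T) {E : Matrix X X R} (hE : E * E = E)
    (hI : MInv T E) :
    ∃ (Ω : Type u) (_ : Fintype Ω) (_ : DecidableEq Ω) (_ : MulAction T Ω) (P : Matrix Ω X R)
      (Q : Matrix X Ω R), MInv T P ∧ MInv T Q ∧ P * Q = 1 ∧ Q * P = E := by
  classical
  set r := IsLocalRing.residue R with hr
  have hsurj : Function.Surjective r := IsLocalRing.residue_surjective
  have hE' : (E.map r) * (E.map r) = E.map r := by rw [← Matrix.map_mul, hE]
  obtain ⟨Ω, _, _, _, P0, Q0, hP0, hQ0, hPQ0, hQP0⟩ := exists_perm (p := p) hT hE' (hI.map r)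
  set sec := Function.surjInv hsurj with hsec
  have hs : ∀ c, r (sec c) = c := Function.surjInv_eq hsurj
  let P : Matrix Ω X R := P0.map sec
  let Q : Matrix X Ω R := Q0.map sec
  have hP : MInv T P := hP0.map sec
  have hQ : MInv T Q := hQ0.map sec
  have hPr : P.map r = P0 := by ext x y; exact hs _
  have hQr : Q.map r = Q0 := by ext x y; exact hs _
  set D : Matrix Ω Ω R := P * E * Q with hD
  have hDr : D.map r = 1 := by
    rw [hD, Matrix.map_mul, Matrix.map_mul, hPr, hQr, ← hQP0, ← Matrix.mul_assoc, hPQ0,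
      Matrix.one_mul, hPQ0]
  have hDu := isUnit_det_of_map_eq_one hDr
  have hDI : MInv T D := (hP.mul hI).mul hQ
  have hD1 : D * D⁻¹ = 1 := Matrix.mul_nonsing_inv D hDu
  have hD2 : D⁻¹ * D = 1 := Matrix.nonsing_inv_mul D hDu
  have hDI' : MInv T D⁻¹ := hDI.of_inverse hD1 hD2
  have hEQ : MInv T (E * Q * D⁻¹) := (hI.mul hQ).mul hDI'
  have hPE : MInv T (P * E) := hP.mul hI
  have h1 : (P * E) * (E * Q * D⁻¹) = 1 := by
    calc (P * E) * (E * Q * D⁻¹) = P * (E * E) * Q * D⁻¹ := by simp only [Matrix.mul_assoc]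
      _ = D * D⁻¹ := by rw [hE]
      _ = 1 := hD1
  refine ⟨Ω, inferInstance, inferInstance, inferInstance, P * E, E * Q * D⁻¹, hPE, hEQ, h1, ?_⟩
  set F : Matrix X X R := (E * Q * D⁻¹) * (P * E) with hF
  have hEF : E * F = F := by
    rw [hF]
    calc E * ((E * Q * D⁻¹) * (P * E)) = (E * E) * Q * D⁻¹ * (P * E) := by
          simp only [Matrix.mul_assoc]
      _ = _ := by rw [hE]
  have hFE : F * E = F := by
    rw [hF]
    calc (E * Q * D⁻¹) * (P * E) * E = (E * Q * D⁻¹) * (P * (E * E)) := by
          simp only [Matrix.mul_assoc]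
      _ = _ := by rw [hE]
  have hFF : F * F = F := by
    rw [hF]
    calc (E * Q * D⁻¹) * (P * E) * ((E * Q * D⁻¹) * (P * E))
        = (E * Q * D⁻¹) * ((P * E) * (E * Q * D⁻¹)) * (P * E) := by simp only [Matrix.mul_assoc]
      _ = _ := by rw [h1, Matrix.mul_one]
  have hZr : (E - F).map r = 0 := by
    have h2 : (D⁻¹).map r = 1 := by
      have h3 := congrArg (fun A : Matrix Ω Ω R => A.map r) hD1
      simp only [Matrix.map_mul, hDr, Matrix.one_mul] at h3
      rw [h3, Matrix.map_one _ (map_zero r) (map_one r)]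
    have h4 : F.map r = E.map r := by
      rw [hF, Matrix.map_mul, Matrix.map_mul, Matrix.map_mul, Matrix.map_mul, h2, hPr, hQr,
        Matrix.mul_one]
      calc (E.map r) * Q0 * (P0 * E.map r) = (E.map r) * (Q0 * P0) * E.map r := by
            simp only [Matrix.mul_assoc]
        _ = _ := by rw [hQP0, hE', hE']
    ext x y
    have h5 := congrFun (congrFun h4 x) y
    rw [Matrix.map_apply, Matrix.map_apply] at h5
    rw [Matrix.map_apply, Matrix.sub_apply, map_sub, h5, sub_self]
    rfl
  have hZu : IsUnit (1 - (E - F)).det := by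
    apply isUnit_det_of_map_eq_one
    ext x y
    have h5 := congrFun (congrFun hZr x) y
    rw [Matrix.map_apply] at h5
    rw [Matrix.map_apply, Matrix.sub_apply, map_sub, h5, Matrix.zero_apply, sub_zero,
      Matrix.one_apply, Matrix.one_apply]
    split_ifs <;> simp
  have hZ0 : (E - F) * (1 - (E - F)) = 0 := by
    rw [mul_sub, mul_one, sub_mul E F, mul_sub E, mul_sub F, hE, hEF, hFE, hFF]
    abel
  have hZ : E - F = 0 := by
    calc E - F = (E - F) * ((1 - (E - F)) * (1 - (E - F))⁻¹) := by
          rw [Matrix.mul_nonsing_inv _ hZu, mul_one]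
      _ = 0 := by rw [← mul_assoc, hZ0, zero_mul]
  exact (sub_eq_zero.mp hZ).symm

end Lift

section Trace

variable {T : Type v} [Group T] {R : Type w} [CommRing R] {X : Type u} [Fintype X]
  [MulAction T X] {Ω : Type u} [Fintype Ω] [DecidableEq Ω] [MulAction T Ω]

/-- trace of a group element on a permutation lattice -/
theorem sum_eq_card_fixed {E : Matrix X X R} {P : Matrix Ω X R} {Q : Matrix X Ω R}
    (hQ : MInv T Q) (hPQ : P * Q = 1) (hQP : Q * P = E) (t : T) :
    ∑ x, E x (t • x) = (Fintype.card {ω : Ω // t • ω = ω} : R) := by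
  classical
  have h1 : ∀ x, E x (t • x) = ∑ ω, P ω (t • x) * Q (t • x) (t • ω) := by
    intro x
    rw [← hQP, Matrix.mul_apply]
    apply Finset.sum_congr rfl
    intro ω _
    rw [hQ t x ω, mul_comm]
  simp only [h1]
  rw [Finset.sum_comm]
  have h2 : ∀ ω, ∑ x, P ω (t • x) * Q (t • x) (t • ω) = if ω = t • ω then 1 else 0 := by
    intro ω
    have h3 : ∑ x, P ω (t • x) * Q (t • x) (t • ω) = (P * Q) ω (t • ω) := by
      rw [Matrix.mul_apply]
      exact Equiv.sum_comp (MulAction.toPerm t) (fun y => P ω y * Q y (t • ω))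
    rw [h3, hPQ, Matrix.one_apply]
  simp only [h2]
  rw [Finset.sum_ite, Finset.sum_const_zero, add_zero, Finset.sum_const, Fintype.card_subtype]
  simp only [nsmul_eq_mul, mul_one]
  congr 3
  ext ω
  exact eq_comm

end Trace

section Brauer

variable {p : ℕ} [hp : Fact p.Prime] {T : Type v} [Group T] {k : Type w} [Field k] [CharP k p]
  {X Y Z : Type*} [Fintype X] [MulAction T X] [Fintype Y] [MulAction T Y]
  [Fintype Z] [MulAction T Z]

/-- restriction of a matrix to fixed points -/
def fm (T : Type*) [Group T] {R X Y : Type*} [MulAction T X] [MulAction T Y] (A : Matrix X Y R) :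
    Matrix (fixedPoints T X) (fixedPoints T Y) R :=
  A.submatrix Subtype.val Subtype.val

theorem fm_mul (hT : IsPGroup p T) [Fintype (fixedPoints T Y)] {A : Matrix X Y k}
    {B : Matrix Y Z k} (hA : MInv T A) (hB : MInv T B) : fm T (A * B) = fm T A * fm T B := by
  classical
  ext x z
  change (A * B) x z = _
  rw [Matrix.mul_apply, Matrix.mul_apply]
  rw [H26.sum_eq_sum_fixedPoints hT (A := k) (fun a => by
    rw [nsmul_eq_mul, CharP.cast_eq_zero, zero_mul]) (fun y => A x y * B y z) (by
      intro t y
      have h1 := hA t x y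
      have h2 := hB t y z
      rw [x.2 t] at h1
      rw [z.2 t] at h2
      rw [h1, h2])]
  exact Finset.sum_subtype (Finset.univ.filter (· ∈ fixedPoints T Y)) (by simp)
      (fun y => A x y * B y z)

theorem fm_one {R : Type*} [Zero R] [One R] [DecidableEq X] [DecidableEq (fixedPoints T X)] :
    fm T (1 : Matrix X X R) = 1 := by
  ext x y
  change (1 : Matrix X X R) x y = _
  rw [Matrix.one_apply, Matrix.one_apply]
  simp [Subtype.ext_iff]

theorem rank_of_factor {m n : Type*} [Fintype m] [Fintype n] [DecidableEq m] [DecidableEq n]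
    {P : Matrix m n k} {Q : Matrix n m k} (h : P * Q = 1) : (Q * P).rank = Fintype.card m := by
  apply le_antisymm
  · exact (Matrix.rank_mul_le_left Q P).trans (Matrix.rank_le_card_width Q)
  · have h1 : (1 : Matrix m m k).rank = Fintype.card m := Matrix.rank_one
    rw [← h1]
    have h2 : (1 : Matrix m m k) = P * (Q * P) * Q := by
      rw [← Matrix.mul_assoc, h, Matrix.one_mul, h]
    rw [h2]
    exact (Matrix.rank_mul_le_left _ _).trans (Matrix.rank_mul_le_right _ _)

/-- rank of the Brauer quotient of a permutation module -/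
theorem rank_fm (hT : IsPGroup p T) {Ω : Type*} [Fintype Ω] [DecidableEq Ω] [MulAction T Ω]
    [Fintype (fixedPoints T X)] [Fintype (fixedPoints T Ω)]
    {E : Matrix X X k} {P : Matrix Ω X k} {Q : Matrix X Ω k} (hP : MInv T P)
    (hQ : MInv T Q) (hPQ : P * Q = 1) (hQP : Q * P = E) :
    (fm T E).rank = Fintype.card (fixedPoints T Ω) := by
  classical
  rw [← hQP, fm_mul hT hQ hP]
  apply rank_of_factor
  rw [← fm_mul hT hP hQ, hPQ, fm_one]

end Brauer

end Cfsg.Agent.H27.Star
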