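import Cfsg.Agent.H27.StarC
import Cfsg.Agent.H26.Dict6
import Cfsg.Agent.H26.MaxPair

/-!
# Left multiplication matrices on the group algebra and the two-sided action (helper27)
-/

set_option autoImplicit false
set_option linter.unusedSimpArgs false
set_option linter.unusedSectionVars false
set_option linter.unusedVariables false

open MulAction Cfsg Cfsg.Agent.H11 Cfsg.Agent.H26

namespace Cfsg.Agent.H27.Star

universe u v w

section Lm

variable {R : Type*} [CommRing R] {G : Type*} [Group G]

/-- matrix of left multiplication by `c` -/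
def Lm (c : MonoidAlgebra R G) : Matrix G G R := fun x y => c.coeff (x * y⁻¹)

theorem Lm_apply (c : MonoidAlgebra R G) (x y : G) : Lm c x y = c.coeff (x * y⁻¹) := rfl

theorem Lm_mul [Fintype G] (c d : MonoidAlgebra R G) : Lm (c * d) = Lm c * Lm d := by
  classical
  ext x z
  rw [Lm_apply, coeff_mul_fintype, Matrix.mul_apply]
  let e : G ≃ G := (Equiv.inv G).trans (Equiv.mulLeft x)
  rw [← Equiv.sum_comp e]
  have h : ∀ y, e y = x * y⁻¹ := fun y => rfl
  apply Finset.sum_congr rfl
  intro y _
  rw [Lm_apply, Lm_apply, h]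
  congr 2
  group

theorem Lm_add (c d : MonoidAlgebra R G) : Lm (c + d) = Lm c + Lm d := by
  ext x y; rfl

theorem Lm_zero : Lm (0 : MonoidAlgebra R G) = 0 := by
  ext x y; rfl

theorem Lm_sum {ι : Type*} (s : Finset ι) (c : ι → MonoidAlgebra R G) :
    Lm (∑ i ∈ s, c i) = ∑ i ∈ s, Lm (c i) := by
  classical
  induction s using Finset.induction_on with
  | empty => rw [Finset.sum_empty, Finset.sum_empty, Lm_zero]
  | insert i s hi ih => rw [Finset.sum_insert hi, Finset.sum_insert hi, Lm_add, ih]

theorem Lm_one [DecidableEq G] : Lm (1 : MonoidAlgebra R G) = 1 := by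
  ext x y
  rw [Lm_apply, MonoidAlgebra.one_def, MonoidAlgebra.coeff_single, Finsupp.single_apply,
    Matrix.one_apply]
  congr 1
  rw [eq_iff_iff, eq_comm (a := (1 : G)), mul_inv_eq_one]

end Lm

section Act

variable {U : Type*} [Group U] {G : Type*} [Group G]

/-- the two-sided action through two homomorphisms -/
abbrev biAct (a b : U →* G) : MulAction U G where
  smul u g := a u * g * (b u)⁻¹
  one_smul g := by
    change a 1 * g * (b 1)⁻¹ = g
    rw [map_one, map_one]; group
  mul_smul u v g := by
    change a (u * v) * g * (b (u * v))⁻¹ = a u * (a v * g * (b v)⁻¹) * (b u)⁻¹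
    rw [map_mul, map_mul]; group

theorem minv_Lm {R : Type*} [CommRing R] (a b : U →* G) {c : MonoidAlgebra R G}
    (hc : ∀ u : U, ∀ x : G, c.coeff (a u * x * (a u)⁻¹) = c.coeff x) :
    @MInv U _ R G G (biAct a b) (biAct a b) (Lm c) := by
  intro u x y
  change c.coeff ((a u * x * (b u)⁻¹) * (a u * y * (b u)⁻¹)⁻¹) = c.coeff (x * y⁻¹)
  rw [← hc u (x * y⁻¹)]
  congr 1
  group

end Act

section LocM

variable {M : Ideal AlgInt} [hM : M.IsPrime] {X : Type*} [Fintype X]

/-- a complex matrix with local integral entries as a matrix over the local ring -/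
def locM (A : Matrix X X ℂ) (h : ∀ x y, MemLocalRing M (A x y)) : Matrix X X (locRing M) :=
  fun x y => ⟨A x y, h x y⟩

theorem locM_coe (A : Matrix X X ℂ) (h : ∀ x y, MemLocalRing M (A x y)) (x y : X) :
    ((locM A h x y : locRing M) : ℂ) = A x y := rfl

theorem locM_mul_self (A : Matrix X X ℂ) (h : ∀ x y, MemLocalRing M (A x y)) (hA : A * A = A) :
    locM A h * locM A h = locM A h := by
  ext x y
  rw [Matrix.mul_apply, AddSubmonoidClass.coe_finsetSum]
  have h1 := congrFun (congrFun hA x) y
  rw [Matrix.mul_apply] at h1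
  exact h1

theorem locM_residue (A : Matrix X X ℂ) (h : ∀ x y, MemLocalRing M (A x y)) (x y : X) :
    IsLocalRing.residue (locRing M) (locM A h x y) = rd M (A x y) := by
  rw [← rd_coe]
  rfl

end LocM

end Cfsg.Agent.H27.Star
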