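import Cfsg.Agent.H27.StarD

/-!
# The two-sided permutation module structure of a block (helper27)
-/

set_option autoImplicit false
set_option linter.unusedSimpArgs false
set_option linter.unusedSectionVars false
set_option linter.unusedVariables false

open MulAction Cfsg Cfsg.Agent.H11 Cfsg.Agent.H26

namespace Cfsg.Agent.H27.Star

universe u v w

theorem rank_ne_zero_iff {k : Type*} [Field k] {m n : Type*} [Fintype m] [Fintype n]
    {A : Matrix m n k} : A.rank ≠ 0 ↔ ∃ i j, A i j ≠ 0 := by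
  classical
  constructor
  · intro h
    by_contra hcon
    push Not at hcon
    apply h
    have : A = 0 := by ext i j; exact hcon i j
    rw [this, Matrix.rank_zero]
  · rintro ⟨i, j, hij⟩ h
    apply hij
    rw [Matrix.rank, Submodule.finrank_eq_zero] at h
    have h1 : A.mulVecLin (Pi.single j 1) ∈ LinearMap.range A.mulVecLin := ⟨_, rfl⟩
    rw [h, Submodule.mem_bot] at h1
    have h2 := congrFun h1 i
    simpa using h2

section Block

variable {M : Ideal AlgInt} {G : Type u} [Group G] [Fintype G] {p : ℕ} [hp : Fact p.Prime]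

theorem block_perm (hM : IsPModular p M) [hM' : M.IsPrime] [CharP (KF M) p]
    {B : Set (IrrCharacter G)} (hB : IsPBlock M B)
    {U : Type v} [Group U] [Finite U] (hU : IsPGroup p U) (a b : U →* G) :
    ∃ (Ω : Type u) (_ : Fintype Ω) (_ : MulAction U Ω),
      (Fintype.card Ω : ℂ) = Nat.card G * blockCoeff B 1 ∧
      ∀ V : Subgroup U, (∃ ω : Ω, ∀ v ∈ V, v • ω = ω) ↔ ∃ x y : G,
        (∀ v ∈ V, a v * x * (b v)⁻¹ = x) ∧ (∀ v ∈ V, a v * y * (b v)⁻¹ = y) ∧
          (EG M B).coeff (x * y⁻¹) ≠ 0 := by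
  classical
  let act := biAct a b
  have hid : Lm (fIdem B) * Lm (fIdem B) = (Lm (fIdem B) : Matrix G G ℂ) := by
    rw [← Lm_mul, fIdem_mul_self]
  have hlr : ∀ x y : G, MemLocalRing M ((Lm (fIdem B) : Matrix G G ℂ) x y) :=
    fun x y => lr_blockCoeff hB _
  set E : Matrix G G (locRing M) := locM (Lm (fIdem B)) hlr with hEdef
  have hE : E * E = E := locM_mul_self _ hlr hid
  have hEI : MInv U E := by
    intro u x y
    apply Subtype.ext
    exact minv_Lm a b (c := fIdem B) (fun u x => by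
      exact isCen_coeff (isCen_fIdem B) x (a u)) u x y
  obtain ⟨Ω, _, _, _, P, Q, hP, hQ, hPQ, hQP⟩ := exists_perm_local (p := p) hU hE hEI
  refine ⟨Ω, inferInstance, inferInstance, ?_, ?_⟩
  · have h1 := sum_eq_card_fixed hQ hPQ hQP (1 : U)
    have h2 := congrArg (Subring.subtype (locRing M)) h1
    rw [map_natCast, map_sum] at h2
    have h3 : Fintype.card {ω : Ω // (1 : U) • ω = ω} = Fintype.card Ω := by
      apply Fintype.card_congr
      exact Equiv.subtypeUnivEquiv (fun ω => one_smul U ω)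
    rw [h3] at h2
    rw [← h2]
    have h4 : ∀ x : G, (Subring.subtype (locRing M)) (E x ((1 : U) • x)) = blockCoeff B 1 := by
      intro x
      rw [one_smul]
      change blockCoeff B (x * x⁻¹) = _
      rw [mul_inv_cancel]
    simp only [h4]
    rw [Finset.sum_const, Finset.card_univ, nsmul_eq_mul, Nat.card_eq_fintype_card]
  · intro V
    set r := IsLocalRing.residue (locRing M) with hr
    have hV : IsPGroup p V := hU.to_subgroup V
    have hPV : MInv V (P.map r) := fun t => (hP.map r) t.1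
    have hQV : MInv V (Q.map r) := fun t => (hQ.map r) t.1
    have h1 : (P.map r) * (Q.map r) = 1 := by
      rw [← Matrix.map_mul, hPQ, Matrix.map_one _ (map_zero r) (map_one r)]
    have h2 : (Q.map r) * (P.map r) = E.map r := by rw [← Matrix.map_mul, hQP]
    have h3 := rank_fm hV hPV hQV h1 h2
    have h4 : (fm V (E.map r)).rank ≠ 0 ↔ (∃ ω : Ω, ∀ v ∈ V, v • ω = ω) := by
      rw [h3, ← Nat.pos_iff_ne_zero, Fintype.card_pos_iff]
      constructor
      · rintro ⟨ω, hω⟩
        exact ⟨ω, fun v hv => hω ⟨v, hv⟩⟩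
      · rintro ⟨ω, hω⟩
        exact ⟨⟨ω, fun v => hω v v.2⟩⟩
    rw [← h4, rank_ne_zero_iff]
    constructor
    · rintro ⟨x, y, hxy⟩
      refine ⟨x.1, y.1, fun v hv => x.2 ⟨v, hv⟩, fun v hv => y.2 ⟨v, hv⟩, ?_⟩
      rw [coeff_EG]
      have h5 : (fm V (E.map r)) x y = rd M (blockCoeff B (x.1 * (y.1)⁻¹)) :=
        locM_residue _ hlr x.1 y.1
      rwa [← h5]
    · rintro ⟨x, y, hx, hy, hxy⟩
      refine ⟨⟨x, fun v => hx v v.2⟩, ⟨y, fun v => hy v v.2⟩, ?_⟩
      rw [coeff_EG] at hxy
      exact fun h => hxy ((locM_residue _ hlr x y).symm.trans h)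

end Block

end Cfsg.Agent.H27.Star
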