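import Cfsg.Agent.H27.StarE
import Cfsg.Agent.H26.StD

/-!
# Blocks of minimal dimension are nilpotent (helper27)
-/

set_option autoImplicit false
set_option linter.unusedSimpArgs false
set_option linter.unusedSectionVars false
set_option linter.unusedVariables false

open MulAction Cfsg Cfsg.Agent.H11 Cfsg.Agent.H26

namespace Cfsg.Agent.H27.Star

universe u v w

variable {M : Ideal AlgInt} {G : Type u} [Group G] [Fintype G] {p : ℕ} [hp : Fact p.Prime]

theorem exists_cg_le_sylow {D : Subgroup G} (hD : IsPGroup p D) (S : Sylow p G) :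
    ∃ g : G, cg D g ≤ (S : Subgroup G) := by
  obtain ⟨R, hR⟩ := hD.exists_le_sylow
  obtain ⟨g, hg⟩ := MulAction.exists_smul_eq G R S
  refine ⟨g, ?_⟩
  intro x hx
  rw [mem_cg] at hx
  rw [← hg]
  have h1 : g⁻¹ * x * g ∈ (R : Subgroup G) := hR hx
  change x ∈ ((g • R : Sylow p G) : Subgroup G)
  rw [Sylow.coe_subgroup_smul, Subgroup.mem_pointwise_smul_iff_inv_smul_mem]
  change (MulAut.conj g)⁻¹ x ∈ (R : Subgroup G)
  rw [← map_inv, MulAut.conj_apply, inv_inv]
  exact h1

theorem exists_coeff_ne {k : Type*} [CommRing k] {Q : Subgroup G} {a : MonoidAlgebra k G}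
    (h : br Q a ≠ 0) : ∃ c ∈ cz Q, a.coeff c ≠ 0 := by
  by_contra hcon
  push Not at hcon
  apply h
  ext x
  by_cases hx : x ∈ cz Q
  · rw [coeff_br_of_mem _ hx, hcon x hx]; rfl
  · rw [coeff_br_of_notMem _ hx]; rfl

abbrev SS {G : Type u} [Group G] (S : Subgroup G) : Type u := S × S

theorem nil_of_sum_sq (hM : IsPModular p M) [hM' : M.IsPrime] [CharP (KF M) p]
    {B : Set (IrrCharacter G)} (hB : IsPBlock M B) {D : Subgroup G}
    (hD : IsDef p ⊤ (EG M B) D) {a d : ℕ} (ha : (Nat.card G).factorization p = a)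
    (hd : Nat.card D = p ^ d)
    (hmin : (Nat.card G : ℂ) * blockCoeff B 1 = (p : ℂ) ^ (2 * a - d)) (Q : Subgroup G)
    (hQp : IsPGroup p Q) (hQ : br Q (EG M B) ≠ 0) {x : G} (hx : x ∈ nz Q)
    (hreg : ¬ p ∣ orderOf x) : x ∈ cz Q := by
  classical
  obtain ⟨S, hQS⟩ := hQp.exists_le_sylow
  have hda : d ≤ a := by
    have h1 : p ^ d ∣ Nat.card G := by rw [← hd]; exact Subgroup.card_subgroup_dvd_card D
    rw [← ha]
    exact (hp.out.pow_dvd_iff_le_factorization Nat.card_pos.ne').mp h1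
  have hScard : Nat.card S = p ^ a := by rw [S.card_eq_multiplicity, ha]
  obtain ⟨g, hg⟩ := exists_cg_le_sylow hD.2.1 S
  have hD' : IsDef p ⊤ (EG M B) (cg D g) := hD.conj (EG_isFx B ⊤) (Subgroup.mem_top g)
  have hd' : Nat.card (cg D g) = p ^ d := by rw [card_cg, hd]
  generalize cg D g = D1 at hD' hd' hg
  let fa : SS (S : Subgroup G) →* G := (S : Subgroup G).subtype.comp (MonoidHom.fst _ _)
  let fb : SS (S : Subgroup G) →* G := (S : Subgroup G).subtype.comp (MonoidHom.snd _ _)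
  have hUcard : Nat.card (SS (S : Subgroup G)) = p ^ (2 * a) := by
    rw [Nat.card_prod]
    change Nat.card S * Nat.card S = _
    rw [hScard, ← pow_add]; congr 1; ring
  have hU : IsPGroup p (SS (S : Subgroup G)) := IsPGroup.of_card hUcard
  obtain ⟨Ω, hΩf, hΩa, hcard, hfix⟩ := block_perm hM hB hU fa fb
  have hΩ : Fintype.card Ω = p ^ (2 * a - d) := by
    have : (Fintype.card Ω : ℂ) = ((p ^ (2 * a - d) : ℕ) : ℂ) := by rw [hcard, hmin]; push_cast; rfl
    exact_mod_cast this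
  -- stabilizers are small
  have hstab : ∀ ω : Ω, Nat.card (stabilizer (SS (S : Subgroup G)) ω) ≤ p ^ d := by
    intro ω
    obtain ⟨y, z, hy, hz, hyz⟩ := (hfix (stabilizer (SS (S : Subgroup G)) ω)).mp ⟨ω, fun v hv => hv⟩
    have hinj : Function.Injective (fun v : stabilizer (SS (S : Subgroup G)) ω => fa v.1) := by
      intro v w hvw
      have h1 : (v.1.1 : G) = (w.1.1 : G) := hvw
      have h2 := hy v.1 v.2
      have h3 := hy w.1 w.2
      have h4 : fb v.1 = fb w.1 := by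
        change (v.1.1 : G) * y * (fb v.1)⁻¹ = y at h2
        change (w.1.1 : G) * y * (fb w.1)⁻¹ = y at h3
        rw [mul_inv_eq_iff_eq_mul] at h2 h3
        rw [h1, h3] at h2
        exact (mul_left_cancel h2).symm
      apply Subtype.ext
      exact Prod.ext (Subtype.ext h1) (Subtype.ext h4)
    set W : Subgroup G := (stabilizer (SS (S : Subgroup G)) ω).map fa with hW
    have hWp : IsPGroup p W := (hU.to_subgroup _).map fa
    have hcW : Nat.card W = Nat.card (stabilizer (SS (S : Subgroup G)) ω) := by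
      symm
      apply Nat.card_congr
      refine Equiv.ofBijective (fun v : stabilizer (SS (S : Subgroup G)) ω => (⟨fa v.1, ⟨v.1, v.2, rfl⟩⟩ : W)) ⟨?_, ?_⟩
      · intro v w hvw
        apply hinj
        exact congrArg (Subtype.val : W → G) hvw
      · rintro ⟨_, v, hv, rfl⟩
        exact ⟨⟨v, hv⟩, rfl⟩
    have hbr : br W (EG M B) ≠ 0 := by
      intro h0
      have hmem : y * z⁻¹ ∈ cz W := by
        rw [Subgroup.mem_centralizer_iff]
        rintro _ ⟨v, hv, rfl⟩
        have h2 := hy v hv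
        have h3 := hz v hv
        rw [mul_inv_eq_iff_eq_mul] at h2 h3
        have h4 : z⁻¹ * fa v = fb v * z⁻¹ := by
          rw [eq_comm, mul_inv_eq_iff_eq_mul, mul_assoc, h3]
          group
        rw [← mul_assoc, h2, mul_assoc, mul_assoc, h4]
      have h5 := coeff_br_of_mem (EG M B) hmem
      rw [h0] at h5
      exact hyz h5.symm
    obtain ⟨h, _, hle⟩ := hD'.2.2.2 W le_top hWp hbr
    rw [← hcW, ← card_cg W h, ← hd']
    exact Subgroup.card_le_of_le hle
  -- the action is transitive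
  have htrans : ∀ ω ω' : Ω, ∃ u : (SS (S : Subgroup G)), u • ω = ω' := by
    intro ω ω'
    have h1 : Nat.card (orbit (SS (S : Subgroup G)) ω) * Nat.card (stabilizer (SS (S : Subgroup G)) ω) = p ^ (2 * a) := by
      rw [← hUcard]
      have := MulAction.card_orbit_mul_card_stabilizer_eq_card_group (SS (S : Subgroup G)) ω
      simpa [Nat.card_eq_fintype_card] using this
    have h2 : p ^ (2 * a - d) ≤ Nat.card (orbit (SS (S : Subgroup G)) ω) := by
      have h3 : p ^ (2 * a) ≤ Nat.card (orbit (SS (S : Subgroup G)) ω) * p ^ d := by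
        rw [← h1]; exact Nat.mul_le_mul_left _ (hstab ω)
      have h4 : p ^ (2 * a) = p ^ (2 * a - d) * p ^ d := by rw [← pow_add]; congr 1; omega
      rw [h4] at h3
      exact Nat.le_of_mul_le_mul_right h3 (pow_pos hp.out.pos d)
    have h5 : orbit (SS (S : Subgroup G)) ω = Set.univ := by
      apply Set.eq_of_subset_of_ncard_le (Set.subset_univ _)
      rw [Set.ncard_univ, Nat.card_eq_fintype_card, hΩ]
      exact h2
    have h6 : ω' ∈ orbit (SS (S : Subgroup G)) ω := by rw [h5]; exact Set.mem_univ _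
    exact h6
  -- the diagonal
  obtain ⟨c0, hc0, hc0'⟩ := exists_coeff_ne hD'.2.2.1
  let δ : D1 →* (SS (S : Subgroup G)) := MonoidHom.prod (Subgroup.inclusion hg) (Subgroup.inclusion hg)
  have hδ : Function.Injective δ := by
    intro v w hvw
    have h1 := congrArg (fun t : (SS (S : Subgroup G)) => (t.1 : G)) hvw
    exact Subtype.ext h1
  obtain ⟨ω₀, hω₀⟩ := (hfix δ.range).mpr ⟨c0, 1, by
    rintro _ ⟨v, rfl⟩
    change (v : G) * c0 * (v : G)⁻¹ = c0
    rw [Subgroup.mem_centralizer_iff] at hc0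
    rw [hc0 v v.2, mul_inv_cancel_right], by
    rintro _ ⟨v, rfl⟩
    change (v : G) * 1 * (v : G)⁻¹ = 1
    rw [mul_one, mul_inv_cancel], by rwa [inv_one, mul_one]⟩
  have hst0 : stabilizer (SS (S : Subgroup G)) ω₀ = δ.range := by
    symm
    apply Subgroup.eq_of_le_of_card_ge
    · intro v hv
      exact hω₀ v hv
    · refine (hstab ω₀).trans ?_
      rw [← hd']
      exact (Nat.card_congr (MonoidHom.ofInjective hδ).toEquiv).le
  -- the twisted diagonal
  have hxQ : ∀ u ∈ Q, x⁻¹ * u * x ∈ Q := by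
    intro u hu
    rw [Subgroup.mem_normalizer_iff] at hx
    have := (hx (x⁻¹ * u * x)).mpr (by
      have : x * (x⁻¹ * u * x) * x⁻¹ = u := by group
      rw [this]; exact hu)
    exact this
  obtain ⟨c1, hc1, hc1'⟩ := exists_coeff_ne hQ
  let ε : Q →* (SS (S : Subgroup G)) := MonoidHom.prod (Subgroup.inclusion hQS)
    { toFun := fun u => ⟨x⁻¹ * u * x, hQS (hxQ u u.2)⟩
      map_one' := by apply Subtype.ext; simp
      map_mul' := by intro u v; apply Subtype.ext; simp [mul_assoc] }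
  obtain ⟨ωx, hωx⟩ := (hfix ε.range).mpr ⟨c1 * x, x, by
    rintro _ ⟨v, rfl⟩
    change (v : G) * (c1 * x) * (x⁻¹ * v * x)⁻¹ = c1 * x
    rw [Subgroup.mem_centralizer_iff] at hc1
    have h1 := hc1 v v.2
    calc (v : G) * (c1 * x) * (x⁻¹ * v * x)⁻¹ = (v * c1) * (v : G)⁻¹ * x := by group
      _ = c1 * x := by rw [h1, mul_inv_cancel_right], by
    rintro _ ⟨v, rfl⟩
    change (v : G) * x * (x⁻¹ * v * x)⁻¹ = x
    group, by rwa [mul_inv_cancel_right]⟩
  obtain ⟨⟨s, t⟩, hst⟩ := htrans ω₀ ωx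
  have hkey : ∀ u ∈ Q, x⁻¹ * u * x = ((s * t⁻¹ : (S : Subgroup G)) : G)⁻¹ * u * (s * t⁻¹ : (S : Subgroup G)) := by
    intro u hu
    have h1 : (ε ⟨u, hu⟩ : (SS (S : Subgroup G))) • ((s, t) : (SS (S : Subgroup G))) • ω₀ = ((s, t) : (SS (S : Subgroup G))) • ω₀ := by
      rw [hst]; exact hωx _ ⟨_, rfl⟩
    have h2 : ((s, t) : (SS (S : Subgroup G)))⁻¹ * ε ⟨u, hu⟩ * (s, t) ∈ stabilizer (SS (S : Subgroup G)) ω₀ := by
      rw [mem_stabilizer_iff, mul_smul, mul_smul, h1, inv_smul_smul]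
    rw [hst0] at h2
    obtain ⟨v, hv⟩ := h2
    have h3 : (v : G) = (s : G)⁻¹ * u * s := congrArg (fun t : (SS (S : Subgroup G)) => (t.1 : G)) hv
    have h4 : (v : G) = (t : G)⁻¹ * (x⁻¹ * u * x) * t := congrArg (fun t : (SS (S : Subgroup G)) => (t.2 : G)) hv
    rw [h3] at h4
    push_cast
    have h5 : x⁻¹ * u * x = t * ((t : G)⁻¹ * (x⁻¹ * u * x) * t) * (t : G)⁻¹ := by group
    rw [h5, ← h4]
    group
  set r : G := ((s * t⁻¹ : (S : Subgroup G)) : G) with hr
  have hrS : r ∈ (S : Subgroup G) := (s * t⁻¹).2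
  have hpow : ∀ n : ℕ, ∀ u ∈ Q, (x ^ n)⁻¹ * u * x ^ n = (r ^ n)⁻¹ * u * r ^ n := by
    intro n
    induction n with
    | zero => intro u _; simp
    | succ n ih =>
      intro u hu
      have h1 : (x ^ (n + 1))⁻¹ * u * x ^ (n + 1) = (x ^ n)⁻¹ * (x⁻¹ * u * x) * x ^ n := by
        rw [pow_succ']; group
      have h2 : (r ^ (n + 1))⁻¹ * u * r ^ (n + 1) = (r ^ n)⁻¹ * (r⁻¹ * u * r) * r ^ n := by
        rw [pow_succ']; group
      rw [h1, h2, ih _ (hxQ u hu), hkey u hu]
  have hrn : r ^ orderOf x ∈ cz Q := by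
    rw [Subgroup.mem_centralizer_iff]
    intro u hu
    have h1 := hpow (orderOf x) u hu
    rw [pow_orderOf_eq_one] at h1
    have h2 : u = (r ^ orderOf x)⁻¹ * u * r ^ orderOf x := by rw [← h1]; group
    calc u * r ^ orderOf x = r ^ orderOf x * ((r ^ orderOf x)⁻¹ * u * r ^ orderOf x) := by group
      _ = r ^ orderOf x * u := by rw [← h2]
  have hrc : r ∈ cz Q := by
    obtain ⟨j, hj⟩ := (IsPGroup.iff_orderOf.mp S.2) ⟨r, hrS⟩
    rw [Subgroup.orderOf_mk] at hj
    have hcop : Nat.Coprime (orderOf x) (orderOf r) := by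
      rw [hj]
      exact Nat.Coprime.pow_right j ((Nat.Prime.coprime_iff_not_dvd hp.out).mpr hreg).symm
    have h1 := Nat.gcd_eq_gcd_ab (orderOf x) (orderOf r)
    rw [hcop] at h1
    have h2 : r ^ ((1 : ℕ) : ℤ) = (r ^ orderOf x) ^ ((orderOf x).gcdA (orderOf r)) := by
      rw [h1, zpow_add, zpow_mul, zpow_mul, zpow_natCast, zpow_natCast, pow_orderOf_eq_one,
        one_zpow, mul_one]
    rw [Nat.cast_one, zpow_one] at h2
    rw [h2]
    exact Subgroup.zpow_mem _ hrn _
  rw [Subgroup.mem_centralizer_iff] at hrc ⊢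
  intro u hu
  have h1 := hkey u hu
  have h2 := hrc u hu
  have h3 : r⁻¹ * u * r = u := by rw [mul_assoc, h2]; group
  rw [h3] at h1
  calc u * x = x * (x⁻¹ * u * x) := by group
    _ = x * u := by rw [h1]

end Cfsg.Agent.H27.Star
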